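import Mathlib
import Cfsg.Agent.Lib.LocalBasic

/-! Abelian Hall subgroups: conjugacy, and normal complements from normal p-complements. (helper7) -/

set_option autoImplicit false
set_option linter.style.haveILetI false

namespace CfsgLib.AbelianHall

open scoped Pointwise

universe u

theorem factorization_eq {G : Type u} [Group G] [Finite G] {H : Subgroup G}
    (hHall : (Nat.card ↥H).Coprime H.index) {p : ℕ} (hp : p.Prime) (hd : p ∣ Nat.card ↥H) :
    (Nat.card ↥H).factorization p = (Nat.card G).factorization p := by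
  rw [← H.card_mul_index, Nat.factorization_mul Nat.card_pos.ne' Subgroup.index_ne_zero_of_finite,
    Finsupp.add_apply, Nat.factorization_eq_zero_of_not_dvd (n := H.index)
      (fun h => hp.not_dvd_one (hHall ▸ Nat.dvd_gcd hd h)), add_zero]

/-- A Hall subgroup has a normal complement once `G` has a normal `p`-complement for each of its primes. -/
theorem exists_complement {G : Type u} [Group G] [Finite G] (H : Subgroup G)
    (hHall : (Nat.card ↥H).Coprime H.index)
    (h : ∀ p ∈ (Nat.card ↥H).primeFactors, ∃ N : Subgroup G, N.Normal ∧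
      N.index = p ^ (Nat.card ↥H).factorization p ∧ ¬ p ∣ Nat.card ↥N) :
    ∃ N : Subgroup G, N.Normal ∧ N.IsComplement' H := by
  classical
  choose N hN hidx hnd using h
  let K : Subgroup G := ⨅ p : (Nat.card ↥H).primeFactors, N p p.2
  haveI hKn : K.Normal := Subgroup.normal_iInf_normal fun p => hN p p.2
  have hdisj : K ⊓ H = ⊥ := by
    rw [eq_bot_iff]
    rintro x ⟨hxK, hxH⟩
    rw [Subgroup.mem_bot]
    by_contra hx
    obtain ⟨p, hp, hpd⟩ := Nat.exists_prime_and_dvd (fun e : orderOf x = 1 => hx (orderOf_eq_one_iff.mp e))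
    have hpH : p ∈ (Nat.card ↥H).primeFactors :=
      Nat.mem_primeFactors.mpr ⟨hp, hpd.trans (Subgroup.orderOf_dvd_natCard H hxH), Nat.card_pos.ne'⟩
    exact hnd p hpH (hpd.trans (Subgroup.orderOf_dvd_natCard _ (Subgroup.mem_iInf.mp hxK ⟨p, hpH⟩)))
  have hKidx : K.index ≤ Nat.card ↥H := by
    refine (Subgroup.index_iInf_le _).trans (le_of_eq ?_)
    simp only [fun p : (Nat.card ↥H).primeFactors => hidx p p.2]
    rw [Finset.prod_coe_sort (Nat.card ↥H).primeFactors (fun p => p ^ (Nat.card ↥H).factorization p)]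
    exact Nat.prod_factorization_pow_eq_self (Nat.card_pos (α := ↥H)).ne'
  refine ⟨K, hKn, Subgroup.isComplement'_of_card_mul_and_disjoint ?_ (disjoint_iff.mpr hdisj)⟩
  have h1 : Nat.card ↥H * Nat.card ↥K ≤ Nat.card G := by
    have := CfsgLib.LocalBasic.card_mul_le H K
    rw [inf_comm, hdisj, Subgroup.card_bot, mul_one] at this
    exact this.trans (Nat.card_le_card_of_injective _ Subtype.val_injective)
  have h2 := K.card_mul_index
  have h3 : Nat.card ↥K * K.index ≤ Nat.card ↥K * Nat.card ↥H := Nat.mul_le_mul_left _ hKidx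
  rw [mul_comm (Nat.card ↥H)] at h1
  omega

/-- Abelian Hall subgroups of the same order are conjugate (Wielandt). -/
theorem exists_conj_aux (n : ℕ) : ∀ (G : Type u) [Group G] [Finite G], Nat.card G = n →
    ∀ H K : Subgroup G, IsMulCommutative ↥H → IsMulCommutative ↥K → (Nat.card ↥H).Coprime H.index →
      Nat.card ↥K = Nat.card ↥H → ∃ g : G, H.map (MulAut.conj g).toMonoidHom = K := by
  induction n using Nat.strong_induction_on with
  | _ n ih =>
  intro G _ _ hn H K hH hK hHall hcard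
  subst hn
  classical
  by_cases h1 : Nat.card ↥H = 1
  · rw [Subgroup.eq_bot_of_card_eq H h1, Subgroup.eq_bot_of_card_eq K (hcard.trans h1)]
    exact ⟨1, Subgroup.map_bot _⟩
  obtain ⟨p, hp, hpd⟩ := Nat.exists_prime_and_dvd h1
  haveI := Fact.mk hp
  have hfac := factorization_eq hHall hp hpd
  have mkP : ∀ L : Subgroup G, Nat.card ↥L = Nat.card ↥H → ∃ P : Sylow p G, (P : Subgroup G) ≤ L := by
    intro L hL
    obtain ⟨S⟩ : Nonempty (Sylow p ↥L) := inferInstance
    exact ⟨Sylow.ofCard ((S : Subgroup ↥L).map L.subtype)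
      (by rw [Subgroup.card_map_of_injective L.subtype_injective, S.card_eq_multiplicity, hL, hfac]),
      Subgroup.map_subtype_le _⟩
  obtain ⟨P, hP⟩ := mkP H rfl
  obtain ⟨P', hP'⟩ := mkP K hcard
  obtain ⟨a, ha⟩ := MulAction.exists_smul_eq G P' P
  set K' := K.map (MulAut.conj a).toMonoidHom with hK'def
  have hK'card : Nat.card ↥K' = Nat.card ↥H :=
    (Subgroup.card_map_of_injective (MulAut.conj a).injective).trans hcard
  have hPK' : (P : Subgroup G) ≤ K' := by
    rw [← ha, Sylow.coe_subgroup_smul]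
    exact Subgroup.map_mono hP'
  haveI : IsMulCommutative ↥K' := inferInstance
  suffices h : ∃ g : G, H.map (MulAut.conj g).toMonoidHom = K' by
    obtain ⟨g, hg⟩ := h
    refine ⟨a⁻¹ * g, ?_⟩
    have h2 := congrArg (Subgroup.map (MulAut.conj a⁻¹).toMonoidHom) hg
    rw [hK'def, Subgroup.map_map, Subgroup.map_map] at h2
    convert h2 using 2
    · ext x; simp
    · symm
      convert Subgroup.map_id K using 2
      ext x
      simp [mul_assoc]
  -- both are inside the centralizer of `P`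
  set C := Subgroup.centralizer ((P : Subgroup G) : Set G)
  have hle : ∀ L : Subgroup G, IsMulCommutative ↥L → (P : Subgroup G) ≤ L → L ≤ C := fun L hL hPL x hx =>
    Subgroup.mem_centralizer_iff.mpr fun u hu =>
      congrArg Subtype.val (hL.is_comm.comm (⟨u, hPL hu⟩ : L) ⟨x, hx⟩)
  have hHC := hle H hH hP
  have hKC := hle K' inferInstance hPK'
  have hsub : ∀ (M H' K'' : Subgroup G), M ≠ ⊤ → H' ≤ M → K'' ≤ M → IsMulCommutative ↥H' → IsMulCommutative ↥K'' →
      (Nat.card ↥H').Coprime (H'.relIndex M) → Nat.card ↥K'' = Nat.card ↥H' →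
      ∃ g ∈ M, H'.map (MulAut.conj g).toMonoidHom = K'' := by
    intro M H' K'' hM hH'M hKM hH'c hKc hco hc
    obtain ⟨g, hg⟩ := ih _ (lt_of_le_of_ne (Subgroup.card_le_card_group M)
      fun e => hM (Subgroup.eq_top_of_card_eq _ e)) ↥M rfl (H'.subgroupOf M) (K''.subgroupOf M)
      ⟨⟨fun x y => Subtype.ext (Subtype.ext (congrArg (fun z : ↥H' => (z : G))
        (hH'c.is_comm.comm (⟨x.1.1, x.2⟩ : ↥H') ⟨y.1.1, y.2⟩)))⟩⟩
      ⟨⟨fun x y => Subtype.ext (Subtype.ext (congrArg (fun z : ↥K'' => (z : G))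
        (hKc.is_comm.comm (⟨x.1.1, x.2⟩ : ↥K'') ⟨y.1.1, y.2⟩)))⟩⟩
      (by rw [Nat.card_congr (Subgroup.subgroupOfEquivOfLe hH'M).toEquiv]; exact hco)
      (by rw [Nat.card_congr (Subgroup.subgroupOfEquivOfLe hH'M).toEquiv,
        Nat.card_congr (Subgroup.subgroupOfEquivOfLe hKM).toEquiv, hc])
    refine ⟨g, g.2, ?_⟩
    have h2 := congrArg (Subgroup.map M.subtype) hg
    rw [Subgroup.map_subgroupOf_eq_of_le hKM, Subgroup.map_map] at h2
    rw [← h2]
    conv_lhs => rw [← Subgroup.map_subgroupOf_eq_of_le hH'M, Subgroup.map_map]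
    rfl
  by_cases hC : C = ⊤
  swap
  · obtain ⟨g, -, hg⟩ := hsub C H K' hC hHC hKC hH inferInstance
      (hHall.coprime_dvd_right (Dvd.intro _ (Subgroup.relIndex_mul_index hHC))) hK'card
    exact ⟨g, hg⟩
  -- `P` is central: split it off
  have hPC : Subgroup.normalizer ((P : Subgroup G) : Set G) ≤ C := hC ▸ le_top
  have hc := MonoidHom.ker_transferSylow_isComplement' P hPC
  have hNp := MonoidHom.not_dvd_card_ker_transferSylow P hPC
  generalize hNdef : (MonoidHom.transferSylow P hPC).ker = N at hc hNp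
  haveI hNn : N.Normal := hNdef ▸ inferInstance
  have hsplit : ∀ L : Subgroup G, (P : Subgroup G) ≤ L → (L ⊓ N) ⊔ (P : Subgroup G) = L := by
    intro L hPL
    refine le_antisymm (sup_le inf_le_left hPL) fun l hl => ?_
    obtain ⟨u, hu, v, hv, rfl⟩ := Subgroup.mem_sup_of_normal_left.mp (hc.sup_eq_top ▸ Subgroup.mem_top l)
    refine Subgroup.mul_mem_sup ⟨?_, hu⟩ hv
    have := L.mul_mem hl (L.inv_mem (hPL hv))
    rwa [mul_inv_cancel_right] at this
  have hNne : N ≠ ⊤ := fun e => by
    rw [e] at hc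
    exact P.ne_bot_of_dvd_card (hpd.trans (Subgroup.card_subgroup_dvd_card H)) (Subgroup.isComplement'_top_left.mp hc)
  have hcardinf : ∀ L : Subgroup G, (P : Subgroup G) ≤ L →
      Nat.card ↥(L ⊓ N) * Nat.card ↥(P : Subgroup G) = Nat.card ↥L := by
    intro L hPL
    have h2 : Subgroup.IsComplement' (((L ⊓ N).subgroupOf L)) ((P : Subgroup G).subgroupOf L) := by
      haveI : ((L ⊓ N).subgroupOf L).Normal := by
        rw [Subgroup.inf_subgroupOf_left]; exact hNn.comap _
      refine Subgroup.isComplement'_of_disjoint_and_mul_eq_univ ?_ ?_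
      · rw [Subgroup.disjoint_def]
        intro x hx hxP
        exact Subtype.ext (Subgroup.disjoint_def.mp hc.disjoint (Subgroup.mem_subgroupOf.mp hx).2 hxP)
      · rw [← Subgroup.normal_mul, ← Subgroup.subgroupOf_sup inf_le_left hPL, hsplit L hPL,
          Subgroup.subgroupOf_self]
        rfl
    have h3 := h2.card_mul_card
    rwa [Nat.card_congr (Subgroup.subgroupOfEquivOfLe (inf_le_left : L ⊓ N ≤ L)).toEquiv,
      Nat.card_congr (Subgroup.subgroupOfEquivOfLe hPL).toEquiv] at h3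
  have hco : (Nat.card ↥(H ⊓ N)).Coprime ((H ⊓ N).relIndex N) := by
    have h2 := (H ⊓ N).subgroupOf N |>.card_mul_index
    rw [Nat.card_congr (Subgroup.subgroupOfEquivOfLe (inf_le_right : H ⊓ N ≤ N)).toEquiv] at h2
    have h3 : (H ⊓ N).relIndex N ∣ H.index := by
      refine Dvd.intro 1 ?_
      have e1 := hcardinf H hP
      have e2 := hc.card_mul_card
      rw [← H.card_mul_index, ← h2, ← e1] at e2
      rw [mul_one, Subgroup.relIndex]
      have e3 : Nat.card ↥(H ⊓ N) * Nat.card ↥(P : Subgroup G) * ((H ⊓ N).subgroupOf N).index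
          = Nat.card ↥(H ⊓ N) * Nat.card ↥(P : Subgroup G) * H.index := by rw [← e2]; ring
      exact Nat.eq_of_mul_eq_mul_left (Nat.mul_pos Nat.card_pos Nat.card_pos) e3
    exact (hHall.coprime_dvd_left (Subgroup.card_dvd_of_le inf_le_left)).coprime_dvd_right h3
  obtain ⟨g, -, hg⟩ := hsub N (H ⊓ N) (K' ⊓ N) hNne inf_le_right inf_le_right
    ⟨⟨fun x y => Subtype.ext (congrArg (fun z : ↥H => (z : G)) (hH.is_comm.comm (⟨x.1, x.2.1⟩ : H) ⟨y.1, y.2.1⟩))⟩⟩
    ⟨⟨fun x y => Subtype.ext (congrArg (fun z : ↥K' => (z : G))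
      ((inferInstance : IsMulCommutative ↥K').is_comm.comm (⟨x.1, x.2.1⟩ : K') ⟨y.1, y.2.1⟩))⟩⟩ hco
    (Nat.eq_of_mul_eq_mul_right Nat.card_pos ((hcardinf K' hPK').trans (hK'card.trans (hcardinf H hP).symm)))
  refine ⟨g, ?_⟩
  have hPg : (P : Subgroup G).map (MulAut.conj g).toMonoidHom = (P : Subgroup G) :=
    CfsgLib.LocalBasic.conj_map_eq_of_mem_normalizer
      (Subgroup.centralizer_le_normalizer _ (show g ∈ C from hC ▸ Subgroup.mem_top g))
  rw [← hsplit H hP, Subgroup.map_sup, hg, hPg, hsplit K' hPK']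

theorem exists_conj {G : Type u} [Group G] [Finite G] {H K : Subgroup G} (hH : IsMulCommutative ↥H)
    (hK : IsMulCommutative ↥K) (hHall : (Nat.card ↥H).Coprime H.index) (hcard : Nat.card ↥K = Nat.card ↥H) :
    ∃ g : G, H.map (MulAut.conj g).toMonoidHom = K :=
  exists_conj_aux _ G rfl H K hH hK hHall hcard

end CfsgLib.AbelianHall
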