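import Mathlib
import Cfsg.Agent.Lib.CharPLocal

/-! Two-groups in which all abelian normal subgroups are cyclic. -/

set_option autoImplicit false

namespace CfsgLib.AbelianNormalCyclic

universe u

variable {P : Type u} [Group P]

/-- A central involution and an involution all of whose conjugates lie in its coset: a normal four-group. -/
theorem four_of_conj {z b : P} (hz : z * z = 1) (hzc : z ∈ Subgroup.center P) (hz1 : z ≠ 1) (hb : b * b = 1)
    (hb1 : b ≠ 1) (hne : b ≠ z) (hconj : ∀ x : P, x * b * x⁻¹ = b ∨ x * b * x⁻¹ = z * b) :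
    ∃ W : Subgroup P, W.Normal ∧ IsMulCommutative W ∧ ¬ IsCyclic W ∧ Nat.card W = 4 ∧ ∀ w ∈ W, w * w = 1 := by
  classical
  have hzb : Commute z b := (Subgroup.mem_center_iff.1 hzc b).symm
  have hbz : b * z = z * b := hzb.symm.eq
  let W : Subgroup P :=
    { carrier := {w | w = 1 ∨ w = z ∨ w = b ∨ w = z * b}
      one_mem' := Or.inl rfl
      mul_mem' := by
        have h1 : z * (z * b) = b := by rw [← mul_assoc, hz, one_mul]
        have h2 : b * (z * b) = z := by rw [← mul_assoc, hbz, mul_assoc, hb, mul_one]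
        have h3 : z * b * z = b := by rw [mul_assoc, hbz, h1]
        have h4 : z * b * b = z := by rw [mul_assoc, hb, mul_one]
        have h5 : z * b * (z * b) = 1 := by rw [mul_assoc, h2, hz]
        rintro x y (rfl | rfl | rfl | rfl) (rfl | rfl | rfl | rfl) <;>
          simp [hz, hb, hbz, h1, h2, h3, h4, h5]
      inv_mem' := by
        rintro x (rfl | rfl | rfl | rfl)
        · exact Or.inl inv_one
        · exact Or.inr (Or.inl (inv_eq_of_mul_eq_one_right hz))
        · exact Or.inr (Or.inr (Or.inl (inv_eq_of_mul_eq_one_right hb)))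
        · exact Or.inr (Or.inr (Or.inr (by
            rw [mul_inv_rev, inv_eq_of_mul_eq_one_right hz, inv_eq_of_mul_eq_one_right hb, hbz]))) }
  have hsq : ∀ w ∈ W, w * w = 1 := by
    rintro w (rfl | rfl | rfl | rfl)
    · exact mul_one 1
    · exact hz
    · exact hb
    · rw [mul_assoc, ← mul_assoc b, hbz, mul_assoc z, hb, mul_one, hz]
  have hcard : Nat.card W = 4 := by
    have h : (W : Set P) = ↑({1, z, b, z * b} : Finset P) := by
      ext w
      simp [W]
    rw [show Nat.card W = Nat.card ↥(W : Set P) from rfl, h, Nat.card_coe_set_eq, Set.ncard_coe_finset]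
    have e1 : (1 : P) ≠ z * b := fun h => hne (eq_inv_of_mul_eq_one_right h.symm |>.trans (inv_eq_of_mul_eq_one_right hz))
    have e2 : z ≠ z * b := fun h => hb1 (mul_eq_left.1 h.symm)
    have e3 : b ≠ z * b := fun h => hz1 (mul_eq_right.1 h.symm)
    simp [hz1.symm, hb1.symm, e1, e2, e3, hne.symm]
  refine ⟨W, ⟨fun w hw x => ?_⟩, ⟨⟨fun u v => Subtype.ext ?_⟩⟩, fun hc => ?_, hcard, hsq⟩
  · have hzx : x * z * x⁻¹ = z := by rw [Subgroup.mem_center_iff.1 hzc x, mul_inv_cancel_right]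
    rcases hw with rfl | rfl | rfl | rfl
    · exact Or.inl (by group)
    · exact Or.inr (Or.inl hzx)
    · exact (hconj x).elim (fun h => Or.inr (Or.inr (Or.inl h))) fun h => Or.inr (Or.inr (Or.inr h))
    · have e : x * (z * b) * x⁻¹ = (x * z * x⁻¹) * (x * b * x⁻¹) := by group
      rcases hconj x with h | h
      · exact Or.inr (Or.inr (Or.inr (by rw [e, hzx, h])))
      · exact Or.inr (Or.inr (Or.inl (by rw [e, hzx, h, ← mul_assoc, hz, one_mul])))
  · show (u : P) * v = v * u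
    have h := hsq _ (W.mul_mem u.2 v.2)
    have h1 := eq_inv_of_mul_eq_one_left h
    rw [mul_inv_rev, inv_eq_of_mul_eq_one_right (hsq _ u.2), inv_eq_of_mul_eq_one_right (hsq _ v.2)] at h1
    exact h1
  · obtain ⟨g, hg⟩ := hc.exists_generator
    have hg2 : orderOf g ∣ 2 := orderOf_dvd_of_pow_eq_one (Subtype.ext (by
      rw [SubmonoidClass.coe_pow, sq]; exact hsq _ g.2))
    have h4 : Nat.card W ≤ 2 := by
      rw [← orderOf_eq_card_of_forall_mem_zpowers hg]
      exact Nat.le_of_dvd two_pos hg2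
    omega

variable [Finite P]

/-- A normal subgroup that is elementary abelian of order at least four contains a normal four-group. -/
theorem four_of_elementary (hP : IsPGroup 2 P) (A : Subgroup P) [A.Normal] (hA2 : ∀ a ∈ A, a * a = 1)
    (hcard : 3 ≤ Nat.card A) :
    ∃ W : Subgroup P, W.Normal ∧ IsMulCommutative W ∧ ¬ IsCyclic W ∧ Nat.card W = 4 ∧ ∀ w ∈ W, w * w = 1 := by
  classical
  haveI : Fact (Nat.Prime 2) := ⟨Nat.prime_two⟩
  have hne : A ≠ ⊥ := fun h => by rw [h, Subgroup.card_bot] at hcard; omega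
  have h1 := CfsgLib.CharPLocal.normal_inf_center hP (N := A) inferInstance hne
  obtain ⟨z, ⟨hzA, hzc⟩, hz1⟩ := (Subgroup.ne_bot_iff_exists_ne_one.1 h1) |> fun ⟨w, hw⟩ => (⟨(w : P), w.2, fun e => hw (Subtype.ext e)⟩ : ∃ z, z ∈ A ⊓ Subgroup.center P ∧ z ≠ 1)
  haveI hZn : (Subgroup.zpowers z).Normal := ⟨fun n hn g => by
    rw [Subgroup.mem_center_iff.1 (Subgroup.zpowers_le.2 hzc hn) g, mul_inv_cancel_right]; exact hn⟩
  haveI : (A.map (QuotientGroup.mk' (Subgroup.zpowers z))).Normal :=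
    Subgroup.Normal.map inferInstance _ (QuotientGroup.mk'_surjective _)
  have hzz : z * z = 1 := hA2 z hzA
  have hzmem : ∀ w ∈ Subgroup.zpowers z, w = 1 ∨ w = z := by
    intro w hw
    obtain ⟨i, rfl⟩ := Subgroup.mem_zpowers_iff.1 hw
    rcases Int.even_or_odd i with ⟨j, rfl⟩ | ⟨j, rfl⟩
    · left; rw [← two_mul, zpow_mul, zpow_two, hzz, one_zpow]
    · right; rw [zpow_add_one, zpow_mul, zpow_two, hzz, one_zpow, one_mul]
  have hAne : A.map (QuotientGroup.mk' (Subgroup.zpowers z)) ≠ ⊥ := by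
    intro h
    rw [Subgroup.map_eq_bot_iff, QuotientGroup.ker_mk'] at h
    have h2 := Subgroup.card_le_of_le h
    rw [Nat.card_zpowers] at h2
    have := Nat.le_of_dvd two_pos (orderOf_dvd_of_pow_eq_one (x := z) (n := 2) (by rw [sq]; exact hzz))
    omega
  have h2 := CfsgLib.CharPLocal.normal_inf_center (hP.to_quotient (Subgroup.zpowers z)) inferInstance hAne
  obtain ⟨⟨q, hq⟩, hq1⟩ := Subgroup.ne_bot_iff_exists_ne_one.1 h2
  obtain ⟨b, hbA, rfl⟩ := hq.1
  have hbz : b ∉ Subgroup.zpowers z := fun h => hq1 (Subtype.ext ((QuotientGroup.eq_one_iff b).2 h))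
  refine four_of_conj hzz hzc hz1 (hA2 b hbA) (fun e => hbz (e ▸ one_mem _))
    (fun e => hbz (e ▸ Subgroup.mem_zpowers z)) fun x => ?_
  have h3 : QuotientGroup.mk' (Subgroup.zpowers z) (x * b * x⁻¹) = QuotientGroup.mk' (Subgroup.zpowers z) b := by
    rw [map_mul, map_mul, Subgroup.mem_center_iff.1 hq.2, map_inv, mul_inv_cancel_right]
  obtain ⟨w, hw, he⟩ := (QuotientGroup.mk'_eq_mk' _).1 h3.symm
  rcases hzmem w hw with rfl | rfl
  · left; rw [← he, mul_one]
  · right; rw [← he, Subgroup.mem_center_iff.1 hzc b]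

/-- A two-group without a normal four-group is cyclic or has a cyclic subgroup of index two. -/
theorem exists_cyclic_le_two (hP : IsPGroup 2 P)
    (hno : ¬ ∃ W : Subgroup P, W.Normal ∧ IsMulCommutative W ∧ ¬ IsCyclic W ∧ Nat.card W = 4 ∧ ∀ w ∈ W, w * w = 1) :
    ∃ a : P, (Subgroup.zpowers a).index ∣ 2 := by
  classical
  haveI : Fact (Nat.Prime 2) := ⟨Nat.prime_two⟩
  -- every abelian normal subgroup is cyclic
  have habel : ∀ A : Subgroup P, A.Normal → IsMulCommutative A → IsCyclic A := by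
    intro A hAn hAc
    haveI := hAn
    haveI := hAc
    by_contra hc
    apply hno
    let Om : Subgroup P :=
      { carrier := {x | x ∈ A ∧ x * x = 1}
        one_mem' := ⟨one_mem _, mul_one 1⟩
        mul_mem' := fun {x y} hx hy => ⟨mul_mem hx.1 hy.1, by
          have e : x * y = y * x := congrArg Subtype.val (hAc.is_comm.comm ⟨x, hx.1⟩ ⟨y, hy.1⟩)
          calc x * y * (x * y) = x * (y * x) * y := by group
            _ = x * x * (y * y) := by rw [← e]; group
            _ = 1 := by rw [hx.2, hy.2, mul_one]⟩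
        inv_mem' := fun {x} hx => ⟨inv_mem hx.1, by rw [← mul_inv_rev, hx.2, inv_one]⟩ }
    haveI : Om.Normal := ⟨fun w hw g => ⟨hAn.conj_mem w hw.1 g, by
      calc g * w * g⁻¹ * (g * w * g⁻¹) = g * (w * w) * g⁻¹ := by group
        _ = 1 := by rw [hw.2]; group⟩⟩
    refine four_of_elementary hP Om (fun a ha => ha.2) ?_
    by_contra hlt
    apply hc
    haveI : Fintype A := Fintype.ofFinite _
    letI : CommGroup A := { (inferInstance : Group A) with mul_comm := fun a b => hAc.is_comm.comm a b }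
    refine isCyclic_of_card_pow_eq_one_le fun n hn => ?_
    obtain ⟨k, hk⟩ := IsPGroup.iff_card.1 (hP.to_subgroup A)
    obtain ⟨j, -, hj⟩ : ∃ j, j ≤ k ∧ Nat.gcd n (Nat.card A) = 2 ^ j :=
      (Nat.dvd_prime_pow Nat.prime_two).1 (hk ▸ Nat.gcd_dvd_right n _)
    have hset : (Finset.univ.filter fun x : A => x ^ n = 1) ⊆ Finset.univ.filter fun x : A => x ^ 2 ^ j = 1 := by
      intro x hx
      rw [Finset.mem_filter] at hx ⊢
      refine ⟨Finset.mem_univ _, orderOf_dvd_iff_pow_eq_one.1 ?_⟩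
      rw [← hj]
      exact Nat.dvd_gcd (orderOf_dvd_of_pow_eq_one hx.2) (orderOf_dvd_natCard x)
    refine le_trans (Finset.card_le_card hset) (le_trans ?_ (Nat.le_of_dvd hn (hj ▸ Nat.gcd_dvd_left n _)))
    clear hj hset hn
    induction j with
    | zero => simp [Finset.filter_eq']
    | succ j ih =>
      have hfib : ∀ y ∈ Finset.univ.filter (fun x : A => x ^ 2 ^ j = 1),
          ((Finset.univ.filter fun x : A => x ^ 2 ^ (j + 1) = 1).filter fun x => x ^ 2 = y).card ≤ 2 := by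
        intro y _
        rcases Finset.eq_empty_or_nonempty ((Finset.univ.filter fun x : A => x ^ 2 ^ (j + 1) = 1).filter fun x => x ^ 2 = y) with he | ⟨x₀, hx₀⟩
        · rw [he]; simp
        have hx₀y := (Finset.mem_filter.1 hx₀).2
        have hsub : ((Finset.univ.filter fun x : A => x ^ 2 ^ (j + 1) = 1).filter fun x => x ^ 2 = y) ⊆
            (Finset.univ.filter fun w : A => w ^ 2 = 1).image (fun w => w * x₀) := fun x hx => by
          refine Finset.mem_image.2 ⟨x * x₀⁻¹, Finset.mem_filter.2 ⟨Finset.mem_univ _, ?_⟩, inv_mul_cancel_right x x₀⟩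
          rw [mul_pow, inv_pow, (Finset.mem_filter.1 hx).2, hx₀y, mul_inv_cancel]
        refine le_trans (Finset.card_le_card hsub) (le_trans Finset.card_image_le ?_)
        have he : (Finset.univ.filter fun w : A => w ^ 2 = 1).card = Nat.card Om := by
          rw [← Fintype.card_subtype, ← Nat.card_eq_fintype_card]
          exact Nat.card_congr
            { toFun := fun w => ⟨(w.1 : P), w.1.2, by
                have := congrArg Subtype.val w.2; rwa [SubmonoidClass.coe_pow, sq] at this⟩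
              invFun := fun w => ⟨⟨(w : P), w.2.1⟩, Subtype.ext (by rw [SubmonoidClass.coe_pow, sq]; exact w.2.2)⟩
              left_inv := fun _ => rfl
              right_inv := fun _ => rfl }
        omega
      have hmaps : ∀ x ∈ Finset.univ.filter (fun x : A => x ^ 2 ^ (j + 1) = 1), x ^ 2 ∈ Finset.univ.filter (fun x : A => x ^ 2 ^ j = 1) :=
        fun x hx => Finset.mem_filter.2 ⟨Finset.mem_univ _, by rw [← pow_mul, ← pow_succ']; exact (Finset.mem_filter.1 hx).2⟩
      have h1 := Finset.card_le_mul_card_image_of_maps_to hmaps 2 hfib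
      have h2 := pow_succ 2 j
      omega
  -- a maximal abelian normal subgroup
  obtain ⟨A, ⟨hAn, hAc⟩, hmax⟩ := Set.Finite.exists_maximal (Set.toFinite {A : Subgroup P | A.Normal ∧ IsMulCommutative A})
    ⟨⊥, Subgroup.normal_bot, ⟨⟨fun a b => Subtype.ext (show (a : P) * b = b * a by rw [Subgroup.mem_bot.1 a.2, Subgroup.mem_bot.1 b.2])⟩⟩⟩
  haveI := hAn
  haveI := habel A hAn hAc
  obtain ⟨⟨a, haA⟩, hgen⟩ := IsCyclic.exists_generator (α := A)
  have hAa : A = Subgroup.zpowers a := by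
    refine le_antisymm (fun x hx => ?_) (Subgroup.zpowers_le.2 haA)
    obtain ⟨i, hi⟩ := Subgroup.mem_zpowers_iff.1 (hgen ⟨x, hx⟩)
    exact Subgroup.mem_zpowers_iff.2 ⟨i, congrArg Subtype.val hi⟩
  refine ⟨a, ?_⟩
  rw [← hAa]
  -- self-centralising
  have hCA : ∀ x : P, x * a = a * x → x ∈ A := by
    by_contra hc
    push Not at hc
    obtain ⟨x, hx, hxA⟩ := hc
    set C := Subgroup.centralizer ({a} : Set P) with hC
    have hmemC : ∀ y ∈ C, ∀ w ∈ A, y * w = w * y := fun y hy w hw => by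
      obtain ⟨i, rfl⟩ := Subgroup.mem_zpowers_iff.1 (hAa ▸ hw : w ∈ Subgroup.zpowers a)
      exact ((show Commute y a from Subgroup.mem_centralizer_singleton_iff.1 hy).zpow_right i).eq
    haveI hCn : C.Normal := by
      refine ⟨fun y hy g => Subgroup.mem_centralizer_singleton_iff.2 ?_⟩
      have h1 := hmemC y hy _ (hAn.conj_mem a haA g⁻¹)
      calc g * y * g⁻¹ * a = g * (y * (g⁻¹ * a * g⁻¹⁻¹)) * g⁻¹ := by group
        _ = g * ((g⁻¹ * a * g⁻¹⁻¹) * y) * g⁻¹ := by rw [h1]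
        _ = a * (g * y * g⁻¹) := by group
    have hne : C.map (QuotientGroup.mk' A) ≠ ⊥ := fun h => hxA (by
      rw [Subgroup.map_eq_bot_iff, QuotientGroup.ker_mk'] at h
      exact h (Subgroup.mem_centralizer_singleton_iff.2 hx))
    haveI : (C.map (QuotientGroup.mk' A)).Normal := hCn.map _ (QuotientGroup.mk'_surjective _)
    obtain ⟨⟨q, hq⟩, hq1⟩ := Subgroup.ne_bot_iff_exists_ne_one.1
      (CfsgLib.CharPLocal.normal_inf_center (hP.to_quotient A) inferInstance hne)
    obtain ⟨y, hyC, rfl⟩ := hq.1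
    have hyA : y ∉ A := fun h => hq1 (Subtype.ext ((QuotientGroup.eq_one_iff y).2 h))
    have hBn : (A ⊔ Subgroup.zpowers y).Normal := by
      refine ⟨fun w hw g => ?_⟩
      have hle : A ⊔ Subgroup.zpowers y ≤ (A ⊔ Subgroup.zpowers y).comap (MulAut.conj g).toMonoidHom := by
        refine sup_le (fun v hv => Subgroup.mem_sup_left (hAn.conj_mem v hv g)) (Subgroup.zpowers_le.2 ?_)
        show g * y * g⁻¹ ∈ A ⊔ Subgroup.zpowers y
        have h3 : QuotientGroup.mk' A y = QuotientGroup.mk' A (g * y * g⁻¹) := by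
          rw [map_mul, map_mul, Subgroup.mem_center_iff.1 hq.2, map_inv, mul_inv_cancel_right]
        obtain ⟨v, hv, he⟩ := (QuotientGroup.mk'_eq_mk' _).1 h3
        rw [← he]
        exact Subgroup.mul_mem _ (Subgroup.mem_sup_right (Subgroup.mem_zpowers y)) (Subgroup.mem_sup_left hv)
      exact hle hw
    have hBc : IsMulCommutative ↥(A ⊔ Subgroup.zpowers y) := by
      refine ⟨⟨fun u v => Subtype.ext ?_⟩⟩
      have hform : ∀ w ∈ A ⊔ Subgroup.zpowers y, ∃ v ∈ A, ∃ i : ℤ, v * y ^ i = w := fun w hw => by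
        obtain ⟨v, hv, s, ⟨i, rfl⟩, he⟩ := Subgroup.mem_sup_of_normal_left.1 hw
        exact ⟨v, hv, i, he⟩
      obtain ⟨p, hp, i, hu⟩ := hform u u.2
      obtain ⟨r, hr, l, hv⟩ := hform v v.2
      show (u : P) * v = v * u
      rw [← hu, ← hv]
      have e1 : p * r = r * p := congrArg Subtype.val (hAc.is_comm.comm ⟨p, hp⟩ ⟨r, hr⟩)
      have c1 : Commute (y ^ i) r := (show Commute y r from hmemC y hyC r hr).zpow_left i
      have c2 : Commute (y ^ l) p := (show Commute y p from hmemC y hyC p hp).zpow_left l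
      calc p * y ^ i * (r * y ^ l) = p * (y ^ i * r) * y ^ l := by group
        _ = (p * r) * (y ^ i * y ^ l) := by rw [c1.eq]; group
        _ = (r * p) * (y ^ l * y ^ i) := by rw [e1, ((Commute.refl y).zpow_zpow i l).eq]
        _ = r * (p * y ^ l) * y ^ i := by group
        _ = r * (y ^ l * p) * y ^ i := by rw [c2.eq]
        _ = r * y ^ l * (p * y ^ i) := by group
    exact hyA (hmax ⟨hBn, hBc⟩ le_sup_left (Subgroup.mem_sup_right (Subgroup.mem_zpowers y)))
  by_cases htop : ∀ x, x ∈ A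
  · rw [Subgroup.index_eq_one.2 (eq_top_iff.2 fun x _ => htop x)]
    exact one_dvd 2
  obtain ⟨k, hk⟩ := IsPGroup.iff_orderOf.1 hP a
  have hmemA : ∀ i : ℤ, a ^ i ∈ A := fun i => A.zpow_mem haA i
  have hr : ∀ g : P, ∃ r : ℤ, g * a * g⁻¹ = a ^ r := fun g => by
    obtain ⟨r, hr⟩ := Subgroup.mem_zpowers_iff.1 (hAa ▸ hAn.conj_mem a haA g : g * a * g⁻¹ ∈ Subgroup.zpowers a)
    exact ⟨r, hr.symm⟩
  choose r hr using hr
  have hodd : ∀ g, g ∉ A → Odd (r g) := fun g hg => by
    by_contra h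
    rw [Int.not_odd_iff_even] at h
    obtain ⟨m, hm⟩ := h
    have h1 : orderOf (g * a * g⁻¹) = orderOf a := MulEquiv.orderOf_eq (MulAut.conj g) a
    rw [hr g, hm] at h1
    have h2 : (a ^ (m + m)) ^ (2 ^ (k - 1) : ℕ) = 1 := by
      rcases Nat.eq_zero_or_pos k with rfl | hk0
      · rw [pow_zero, orderOf_eq_one_iff] at hk; simp [hk]
      rw [← zpow_natCast, ← zpow_mul, show (m + m) * ((2 ^ (k - 1) : ℕ) : ℤ) = ((2 ^ k : ℕ) : ℤ) * m by
        push_cast; rw [show (2 : ℤ) ^ k = 2 ^ (k - 1) * 2 by rw [← pow_succ, Nat.sub_add_cancel hk0]]; ring,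
        zpow_mul, zpow_natCast, ← hk, pow_orderOf_eq_one, one_zpow]
    have h3 := orderOf_dvd_of_pow_eq_one h2
    rw [h1, hk, Nat.pow_dvd_pow_iff_le_right (by norm_num)] at h3
    have hk0 : k = 0 := by omega
    rw [hk0, pow_zero, orderOf_eq_one_iff] at hk
    exact hg (hCA g (by rw [hk, mul_one, one_mul]))
  have hpowr : ∀ g h : P, (g * h) * a * (g * h)⁻¹ = a ^ (r g * r h) := fun g h => by
    calc g * h * a * (g * h)⁻¹ = g * (h * a * h⁻¹) * g⁻¹ := by group
      _ = a ^ (r g * r h) := by rw [hr h, ← conj_zpow, hr g, ← zpow_mul]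
  have hz : ∀ i j : ℤ, a ^ i = a ^ j ↔ (2 : ℤ) ^ k ∣ i - j := fun i j => by
    rw [zpow_eq_zpow_iff_modEq, hk, Int.modEq_iff_dvd, Nat.cast_pow, Nat.cast_ofNat, ← dvd_neg, neg_sub]
  -- an element whose square is inside acts as minus one modulo four
  have hneg : ∀ g : P, g ∉ A → g * g ∈ A → (4 : ℤ) ∣ r g + 1 := by
    intro g hg hg2
    obtain ⟨i, hi⟩ := Subgroup.mem_zpowers_iff.1 (hAa ▸ hg2 : g * g ∈ Subgroup.zpowers a)
    have hr2 : (2 : ℤ) ^ k ∣ r g * r g - 1 := by
      rw [← hz, ← hpowr, ← hi, zpow_one, ((Commute.refl a).zpow_left i).eq, mul_inv_cancel_right]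
    obtain ⟨m, hm⟩ := hodd g hg
    rcases Int.even_or_odd m with ⟨s, hs⟩ | ⟨s, hs⟩
    swap
    · exact ⟨s + 1, by rw [hm, hs]; ring⟩
    exfalso
    have hrs : r g = 4 * s + 1 := by rw [hm, hs]; ring
    rw [hrs, show (4 * s + 1) * (4 * s + 1) - 1 = 8 * s * (2 * s + 1) by ring] at hr2
    have hco : IsCoprime ((2 : ℤ) ^ k) (2 * s + 1) := IsCoprime.pow_left ⟨-s, 1, by ring⟩
    have h8 : (2 : ℤ) ^ k ∣ 8 * s := hco.dvd_of_dvd_mul_right hr2
    set z := a ^ (4 * s) with hzdef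
    have hga : g * a * g⁻¹ = z * a := by rw [hr g, hrs, zpow_add_one]
    have hz1 : z ≠ 1 := fun h => hg (hCA g (by
      have := hga; rw [h, one_mul] at this; exact mul_inv_eq_iff_eq_mul.1 this))
    have hzz : z * z = 1 := by
      rw [hzdef, ← zpow_add, ← zpow_zero a, hz]
      simpa [show 4 * s + 4 * s = 8 * s by ring] using h8
    have hk2 : 3 ≤ k := by
      by_contra hlt
      apply hz1
      rw [hzdef, ← zpow_zero a, hz, sub_zero]
      exact dvd_trans (pow_dvd_pow 2 (by omega : k ≤ 2)) ⟨s, by norm_num⟩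
    obtain ⟨e, rfl⟩ : ∃ e, k = e + 3 := ⟨k - 3, by omega⟩
    have hdvd4 : ¬ (2 : ℤ) ^ (e + 3) ∣ 4 * s := fun h => hz1 (by rw [hzdef, ← zpow_zero a, hz, sub_zero]; exact h)
    have hPz : (2 : ℤ) ^ (e + 3) = 2 * 2 ^ (e + 2) := by rw [← pow_succ']
    have h4 : (2 : ℤ) ^ (e + 2) ∣ 4 * s := by
      rw [hPz, show 8 * s = 2 * (4 * s) by ring, mul_dvd_mul_iff_left (by norm_num : (2 : ℤ) ≠ 0)] at h8
      exact h8
    -- all involutions of the base
    have hinvA : ∀ w ∈ A, w * w = 1 → w = 1 ∨ w = z := by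
      intro w hw hw2
      obtain ⟨j, rfl⟩ := Subgroup.mem_zpowers_iff.1 (hAa ▸ hw : w ∈ Subgroup.zpowers a)
      rw [← zpow_add, ← zpow_zero a, hz, sub_zero, ← two_mul, hPz, mul_dvd_mul_iff_left (by norm_num : (2 : ℤ) ≠ 0)] at hw2
      obtain ⟨c, rfl⟩ := hw2
      obtain ⟨d, hd⟩ := h4
      have hdodd : Odd d := by
        rw [← Int.not_even_iff_odd]
        rintro ⟨f, rfl⟩
        exact hdvd4 ⟨f, by rw [hd, hPz]; ring⟩
      obtain ⟨f, rfl⟩ := hdodd
      rcases Int.even_or_odd c with ⟨c', rfl⟩ | ⟨c', rfl⟩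
      · left; rw [← zpow_zero a, hz, sub_zero]; exact ⟨c', by rw [hPz]; ring⟩
      · right; rw [hzdef, hz, hd]; exact ⟨c' - f, by rw [hPz]; ring⟩
    have hgzi : g * a ^ i * g⁻¹ = a ^ i := by rw [hi]; group
    have hconjz : ∀ j : ℤ, g * a ^ j * g⁻¹ = z ^ j * a ^ j := fun j => by
      rw [← conj_zpow, hga, (show Commute z a from (Commute.refl a).zpow_left _).mul_zpow]
    obtain ⟨j, rfl⟩ : Even i := by
      by_contra h
      rw [Int.not_even_iff_odd] at h
      obtain ⟨j, rfl⟩ := h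
      have h1 := hconjz (2 * j + 1)
      rw [hgzi, zpow_add_one z, zpow_mul, zpow_two, hzz, one_zpow, one_mul] at h1
      exact hz1 (mul_eq_right.1 h1.symm)
    -- the involution outside
    obtain ⟨t, ht⟩ : ∃ t : ℤ, (g * a ^ t) * (g * a ^ t) = 1 := by
      have hsq : ∀ t : ℤ, (g * a ^ t) * (g * a ^ t) = a ^ (4 * s * t + (2 * t + 2 * j)) := fun t => by
        calc (g * a ^ t) * (g * a ^ t) = (g * a ^ t * g⁻¹) * (g * g) * a ^ t := by group
          _ = a ^ (4 * s * t + (2 * t + 2 * j)) := by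
            rw [hconjz, ← hi, hzdef, ← zpow_mul, ← zpow_add, ← zpow_add, ← zpow_add]
            congr 1
            ring
      obtain ⟨x, y, hxy⟩ : IsCoprime (2 * s + 1) ((2 : ℤ) ^ (e + 2)) := IsCoprime.pow_right ⟨1, -s, by ring⟩
      refine ⟨-j * x, ?_⟩
      rw [hsq, ← zpow_zero a, hz]
      exact ⟨j * y, by rw [hPz]; linear_combination (-2 * j) * hxy⟩
    set b := g * a ^ t with hb
    have hbA : b ∉ A := fun h => hg ((A.mul_mem_cancel_right (hmemA t)).1 h)
    have hzA : z ∈ A := hmemA _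
    have hzc : z ∈ Subgroup.center P := by
      refine Subgroup.mem_center_iff.2 fun x => ?_
      have h1 : x * z * x⁻¹ ∈ A := hAn.conj_mem z hzA x
      have h2 : x * z * x⁻¹ * (x * z * x⁻¹) = 1 := by
        calc x * z * x⁻¹ * (x * z * x⁻¹) = x * (z * z) * x⁻¹ := by group
          _ = 1 := by rw [hzz]; group
      rcases hinvA _ h1 h2 with h | h
      · exfalso
        exact hz1 (conj_eq_one_iff.1 h)
      · exact mul_inv_eq_iff_eq_mul.1 h
    refine hno (four_of_conj hzz hzc hz1 ht (fun h => hbA (h ▸ one_mem _)) (fun h => hbA (h ▸ hzA)) fun x => ?_)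
    -- the commutator with `b` lies in the base
    have h1 : x * b * x⁻¹ * b⁻¹ ∈ A := by
      refine hCA _ ?_
      have hinvr : ∀ y : P, (2 : ℤ) ^ (e + 3) ∣ r y * r y⁻¹ - 1 := fun y => by
        rw [← hz, ← hpowr, mul_inv_cancel, one_mul, inv_one, mul_one, zpow_one]
      have h2 : (x * b * x⁻¹ * b⁻¹) * a * (x * b * x⁻¹ * b⁻¹)⁻¹ = a := by
        calc (x * b * x⁻¹ * b⁻¹) * a * (x * b * x⁻¹ * b⁻¹)⁻¹
            = (x * b) * (x⁻¹ * (b⁻¹ * a * b⁻¹⁻¹) * x⁻¹⁻¹) * (x * b)⁻¹ := by group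
          _ = a ^ (r x * r b * (r x⁻¹ * r b⁻¹)) := by
              rw [hr b⁻¹, ← conj_zpow, hr x⁻¹, ← zpow_mul, ← conj_zpow, hpowr, ← zpow_mul]
          _ = a := by
              conv_rhs => rw [← zpow_one a]
              rw [hz]
              obtain ⟨p, hp⟩ := hinvr x
              obtain ⟨q, hq⟩ := hinvr b
              exact ⟨p * (r b * r b⁻¹) + q, by linear_combination (r b * r b⁻¹) * hp + hq⟩
      exact mul_inv_eq_iff_eq_mul.1 h2
    obtain ⟨l, hl⟩ := Subgroup.mem_zpowers_iff.1 (hAa ▸ h1 : x * b * x⁻¹ * b⁻¹ ∈ Subgroup.zpowers a)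
    have hy : x * b * x⁻¹ = a ^ l * b := by rw [hl]; group
    have hy2 : a ^ l * b * (a ^ l * b) = 1 := by
      rw [← hy]
      calc x * b * x⁻¹ * (x * b * x⁻¹) = x * (b * b) * x⁻¹ := by group
        _ = 1 := by rw [ht]; group
    have hbl : b * a ^ l * b⁻¹ = z ^ l * a ^ l := by
      rw [hb]
      calc g * a ^ t * a ^ l * (g * a ^ t)⁻¹ = g * (a ^ t * a ^ l * (a ^ t)⁻¹) * g⁻¹ := by group
        _ = z ^ l * a ^ l := by rw [((Commute.refl a).zpow_zpow t l).eq, mul_inv_cancel_right, hconjz]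
    have h5 : a ^ (l + (4 * s * l + l)) = 1 := by
      rw [← hy2, zpow_add, zpow_add, zpow_mul, ← hzdef, ← hbl]
      calc a ^ l * (b * a ^ l * b⁻¹) = a ^ l * b * a ^ l * (b * b)⁻¹ * b := by group
        _ = a ^ l * b * (a ^ l * b) := by rw [ht]; group
    rw [← zpow_zero a, hz, sub_zero, hPz, show l + (4 * s * l + l) = 2 * (l * (2 * s + 1)) by ring,
      mul_dvd_mul_iff_left (by norm_num : (2 : ℤ) ≠ 0)] at h5
    have h6 : (2 : ℤ) ^ (e + 2) ∣ l := (IsCoprime.pow_left ⟨-s, 1, by ring⟩ : IsCoprime ((2 : ℤ) ^ (e + 2)) (2 * s + 1)).dvd_of_dvd_mul_right h5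
    have h7 : a ^ l * a ^ l = 1 := by
      rw [← zpow_add, ← zpow_zero a, hz, sub_zero, hPz, ← two_mul]
      exact mul_dvd_mul_left 2 h6
    rcases hinvA _ (hmemA l) h7 with h | h
    · left; rw [hy, h, one_mul]
    · right; rw [hy, h]
  -- hence all squares lie in the base and the index is two
  have hsqA : ∀ g : P, g * g ∈ A := by
    intro g
    by_contra hg2
    have hex : ∃ j : ℕ, g ^ (2 ^ j) ∈ A := by
      obtain ⟨j, hj⟩ := hP g
      exact ⟨j, by rw [hj]; exact one_mem _⟩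
    have hj0 : 2 ≤ Nat.find hex := by
      by_contra h
      have h1 := Nat.find_spec hex
      interval_cases hn : Nat.find hex
      · rw [pow_zero, pow_one] at h1; exact hg2 (mul_mem h1 h1)
      · rw [pow_one, sq] at h1; exact hg2 h1
    obtain ⟨j, hj⟩ : ∃ j, Nat.find hex = j + 2 := ⟨Nat.find hex - 2, by omega⟩
    have hA2 := Nat.find_spec hex
    rw [hj] at hA2
    have hn1 : g ^ (2 ^ (j + 1)) ∉ A := Nat.find_min hex (by omega)
    have hn0 : g ^ (2 ^ j) ∉ A := Nat.find_min hex (by omega)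
    set w := g ^ (2 ^ j)
    have hw2 : g ^ (2 ^ (j + 1)) = w * w := by rw [← pow_add, pow_succ, mul_two]
    have hw4 : g ^ (2 ^ (j + 2)) = w * w * (w * w) := by rw [← hw2, ← pow_add, pow_succ, mul_two]
    rw [hw2] at hn1
    rw [hw4] at hA2
    have h4 := hneg (w * w) hn1 hA2
    obtain ⟨m, hm⟩ := hodd w hn0
    have h2 : (2 : ℤ) ^ k ∣ r (w * w) - r w * r w := by rw [← hz, ← hr, ← hpowr]
    have hk2 : 2 ≤ k := by
      by_contra hlt
      apply hn1
      apply hCA
      have h5 : a ^ r (w * w) = a := by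
        conv_rhs => rw [← zpow_one a]
        rw [hz]
        obtain ⟨n, hn⟩ := hodd _ hn1
        exact dvd_trans (pow_dvd_pow 2 (by omega : k ≤ 1)) ⟨n, by rw [hn]; ring⟩
      exact mul_inv_eq_iff_eq_mul.1 ((hr _).trans h5)
    have h6 : (4 : ℤ) ∣ r (w * w) - r w * r w := dvd_trans (by
      rw [show (4 : ℤ) = 2 ^ 2 by norm_num]; exact pow_dvd_pow 2 hk2) h2
    have h7 : r w * r w = 4 * (m * m + m) + 1 := by rw [hm]; ring
    omega
  have hk2 : 2 ≤ k := by
    by_contra hlt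
    push Not at htop
    obtain ⟨x, hx⟩ := htop
    apply hx
    apply hCA
    have h5 : a ^ r x = a := by
      conv_rhs => rw [← zpow_one a]
      rw [hz]
      obtain ⟨n, hn⟩ := hodd x hx
      exact dvd_trans (pow_dvd_pow 2 (by omega : k ≤ 1)) ⟨n, by rw [hn]; ring⟩
    exact mul_inv_eq_iff_eq_mul.1 ((hr x).trans h5)
  refine dvd_of_eq (Subgroup.index_eq_two_iff.2 ?_)
  push Not at htop
  obtain ⟨x, hx⟩ := htop
  refine ⟨x, fun g => ?_⟩
  by_cases hg : g ∈ A
  · refine Or.inr ⟨hg, fun h => hx ((A.mul_mem_cancel_left hg).1 h)⟩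
  refine Or.inl ⟨?_, hg⟩
  by_contra hgx
  have h1 := hneg g hg (hsqA g)
  have h2 := hneg x hx (hsqA x)
  have h3 := hneg (g * x) hgx (hsqA _)
  have h4 : (2 : ℤ) ^ k ∣ r (g * x) - r g * r x := by rw [← hz, ← hr, ← hpowr]
  have h6 : (4 : ℤ) ∣ r (g * x) - r g * r x := dvd_trans (by
    rw [show (4 : ℤ) = 2 ^ 2 by norm_num]; exact pow_dvd_pow 2 hk2) h4
  obtain ⟨c₁, hc₁⟩ := h1
  obtain ⟨c₂, hc₂⟩ := h2
  have h7 : r g * r x = 4 * (4 * c₁ * c₂ - c₁ - c₂) + 1 := by
    rw [show r g = 4 * c₁ - 1 by omega, show r x = 4 * c₂ - 1 by omega]; ring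
  omega

end CfsgLib.AbelianNormalCyclic
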