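import Cfsg.Agent.S0144
import Mathlib.GroupTheory.PGroup
import Mathlib.GroupTheory.Perm.Cycle.Type
import Mathlib.Tactic

/-! Automorphism groups of anisotropic quadratic maps from an elementary abelian 2-group into a group of order
at most four are solvable. -/

set_option autoImplicit false

namespace CfsgLib.AnisotropicPencil

variable {W E : Type*} [CommGroup W] [CommGroup E]

/-- an anisotropic quadratic map -/
structure AQ (q : W → E) : Prop where
  expW : ∀ x : W, x * x = 1
  expE : ∀ e : E, e * e = 1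
  one : q 1 = 1
  aniso : ∀ x : W, q x = 1 → x = 1
  bi : ∀ x y z : W, q (x * y * z) * q x * q y * q z = q (x * y) * q (x * z) * q (y * z)

namespace AQ

variable {q : W → E} (h : AQ q)
include h

/-- the polar map -/
theorem polar_mul (x y z : W) :
    q (x * (y * z)) * q x * q (y * z) = (q (x * y) * q x * q y) * (q (x * z) * q x * q z) := by
  have hb := h.bi x y z
  rw [mul_assoc x y z] at hb
  have hc : q (x * (y * z)) = q (x * y) * q (x * z) * q (y * z) * (q z * q y * q x) := by
    rw [← hb]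
    have := h.expE
    calc q (x * (y * z)) = q (x * (y * z)) * (q x * q x) * (q y * q y) * (q z * q z) := by simp [this]
      _ = _ := by ac_rfl
  rw [hc]
  have := h.expE
  calc q (x * y) * q (x * z) * q (y * z) * (q z * q y * q x) * q x * q (y * z)
      = q (x * y) * q (x * z) * (q (y * z) * q (y * z)) * (q x * q x) * (q y * q z) := by ac_rfl
    _ = q (x * y) * q (x * z) * (q x * q x) * (q y * q z) := by simp [this]
    _ = _ := by ac_rfl

/-- the polar form at `v` as a homomorphism -/
noncomputable def polar (v : W) : W →* E where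
  toFun y := q (v * y) * q v * q y
  map_one' := by rw [mul_one, h.one, mul_one, h.expE]
  map_mul' y z := h.polar_mul v y z

theorem self_mem (v : W) : v ∈ (h.polar v).ker := by
  show q (v * v) * q v * q v = 1
  rw [h.expW, h.one, one_mul, h.expE]

theorem ker_apply {v u : W} (hu : u ∈ (h.polar v).ker) : q (v * u) = q v * q u := by
  have hu' : q (v * u) * q v * q u = 1 := hu
  calc q (v * u) = q (v * u) * (q v * q v) * (q u * q u) := by simp [h.expE]
    _ = (q (v * u) * q v * q u) * (q v * q u) := by ac_rfl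
    _ = _ := by rw [hu', one_mul]

/-- three independent elements cannot avoid two cosets of values -/
theorem noConst {f f' : E} (hf : f ≠ 1) (hf' : f' ≠ 1) {T U : Subgroup W} (hTU : T ≤ U)
    (hU : ∀ u ∈ U, u ∉ T → q u = f ∨ q u = f') [Finite W] : Nat.card U ≤ 4 * Nat.card T := by
  classical
  by_contra hlt
  push Not at hlt
  have pick : ∀ S : Finset W, S.card ≤ 4 → ∃ u ∈ U, ∀ s ∈ S, s * u ∉ T := by
    intro S hS
    by_contra hh
    push Not at hh
    let g : S × T → W := fun p => p.1.1 * p.2.1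
    have hsub : (U : Set W) ⊆ Set.range g := fun u hu => by
      obtain ⟨s, hs, hsT⟩ := hh u hu
      exact ⟨(⟨s, hs⟩, ⟨s * u, hsT⟩), by show s * (s * u) = u; rw [← mul_assoc, h.expW, one_mul]⟩
    have h1 := (Nat.card_mono (Set.toFinite (Set.range g)) hsub).trans (Finite.card_range_le g)
    rw [Nat.card_prod, Nat.card_eq_fintype_card (α := S), Fintype.card_coe] at h1
    have : S.card * Nat.card T ≤ 4 * Nat.card T := Nat.mul_le_mul_right _ hS
    exact absurd (le_trans h1 this) (not_le.2 hlt)
  obtain ⟨a, haU, ha⟩ := pick {1} (by simp)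
  obtain ⟨b, hbU, hb⟩ := pick {1, a} (Finset.card_le_two.trans (by norm_num))
  obtain ⟨d, hdU, hd⟩ := pick {1, a, b, a * b} (Finset.card_le_four)
  simp only [Finset.mem_insert, Finset.mem_singleton, forall_eq_or_imp, forall_eq, one_mul] at ha hb hd
  obtain ⟨hb1, hab⟩ := hb
  obtain ⟨hd1, had, hbd, habd⟩ := hd
  have cab : ∀ x y : W, x ∈ U → y ∈ U → x ∉ T → y ∉ T → x * y ∉ T →
      q (x * y) * q x * q y = f ∨ q (x * y) * q x * q y = f' := by
    intro x y hx hy hxT hyT hxyT
    have e := h.expE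
    have r1 : f * f * f' = f' := by rw [e, one_mul]
    have r2 : f * f' * f = f' := by rw [mul_comm f f', mul_assoc, e, mul_one]
    have r3 : f' * f * f = f' := by rw [mul_assoc, e, mul_one]
    have r4 : f * f' * f' = f := by rw [mul_assoc, e, mul_one]
    have r5 : f' * f * f' = f := by rw [mul_comm f' f, mul_assoc, e, mul_one]
    have r6 : f' * f' * f = f := by rw [e, one_mul]
    have r7 : f * f * f = f := by rw [e, one_mul]
    have r8 : f' * f' * f' = f' := by rw [e, one_mul]
    rcases hU _ (U.mul_mem hx hy) hxyT with h1 | h1 <;> rcases hU x hx hxT with h2 | h2 <;>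
      rcases hU y hy hyT with h3 | h3 <;> rw [h1, h2, h3] <;> simp [r1, r2, r3, r4, r5, r6, r7, r8]
  have k := h.polar_mul a b d
  have e3 := cab a (b * d) haU (U.mul_mem hbU hdU) ha hbd (by rwa [← mul_assoc])
  have e1 := cab a b haU hbU ha hb1 hab
  have e2 := cab a d haU hdU ha hd1 had
  rw [k] at e3
  rcases e1 with e1 | e1 <;> rcases e2 with e2 | e2 <;> rw [e1, e2] at e3
  · rw [h.expE] at e3; rcases e3 with e3 | e3; exacts [hf e3.symm, hf' e3.symm]
  · rcases e3 with e3 | e3; exacts [hf' (mul_eq_left.1 e3), hf (mul_eq_right.1 e3)]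
  · rcases e3 with e3 | e3; exacts [hf' (mul_eq_right.1 e3), hf (mul_eq_left.1 e3)]
  · rw [h.expE] at e3; rcases e3 with e3 | e3; exacts [hf e3.symm, hf' e3.symm]

theorem four_values [Finite E] (hE : Nat.card E ≤ 4) {a b x : E} (ha : a ≠ 1) (hb : b ≠ 1) (hab : a ≠ b) :
    x = 1 ∨ x = a ∨ x = b ∨ x = a * b := by
  classical
  letI := Fintype.ofFinite E
  by_contra hh
  push Not at hh
  obtain ⟨h1, h2, h3, h4⟩ := hh
  have hab1 : a * b ≠ 1 := fun e => hab (by
    calc a = a * (b * b) := by rw [h.expE, mul_one]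
      _ = b := by rw [← mul_assoc, e, one_mul])
  have hne1 : a * b ≠ a := fun e => hb (mul_eq_left.1 e)
  have hne2 : a * b ≠ b := fun e => ha (mul_eq_right.1 e)
  have hcard : ({1, a, b, a * b, x} : Finset E).card = 5 := by
    rw [Finset.card_insert_of_notMem, Finset.card_insert_of_notMem, Finset.card_insert_of_notMem,
      Finset.card_insert_of_notMem, Finset.card_singleton] <;>
      simp [Ne.symm h1, Ne.symm h2, Ne.symm h3, Ne.symm h4, ha.symm, hb.symm, hab, hab1.symm, hne1.symm, hne2.symm]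
  have := Finset.card_le_univ ({1, a, b, a * b, x} : Finset E)
  rw [← Nat.card_eq_fintype_card, hcard] at this
  omega

theorem ker_card [Finite W] [Finite E] (hE : Nat.card E ≤ 4) {v : W} (hv : v ≠ 1) :
    Nat.card (h.polar v).ker ≤ 8 := by
  have hqv : q v ≠ 1 := fun e => hv (h.aniso v e)
  have hT : Subgroup.zpowers v ≤ (h.polar v).ker := Subgroup.zpowers_le.2 (h.self_mem v)
  have hcT : Nat.card (Subgroup.zpowers v) = 2 := by
    rw [Nat.card_zpowers]
    exact orderOf_eq_prime (p := 2) (by rw [sq, h.expW]) hv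
  have hnv : ∀ u ∈ (h.polar v).ker, u ∉ Subgroup.zpowers v → q u ≠ 1 ∧ q u ≠ q v := by
    intro u hu huT
    refine ⟨fun e => huT (by rw [h.aniso u e]; exact one_mem _), fun e => huT ?_⟩
    have h1 : q (v * u) = 1 := by rw [h.ker_apply hu, e, h.expE]
    have h2 := h.aniso _ h1
    rw [show u = v from (mul_left_cancel ((h.expW v).trans h2.symm)).symm]
    exact Subgroup.mem_zpowers v
  by_cases hex : ∃ f : E, f ≠ 1 ∧ f ≠ q v
  · obtain ⟨f, hf, hfv⟩ := hex
    have := h.noConst (f := f) (f' := q v * f) hf (fun e => hfv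
      (mul_left_cancel ((e.trans (h.expE (q v)).symm)))) hT (fun u hu huT => by
        obtain ⟨h1, h2⟩ := hnv u hu huT
        rcases h.four_values hE hqv hf (Ne.symm hfv) (x := q u) with e | e | e | e
        exacts [absurd e h1, absurd e h2, Or.inl e, Or.inr e])
    omega
  · push Not at hex
    have hle : (h.polar v).ker ≤ Subgroup.zpowers v := fun u hu => by
      by_contra huT
      obtain ⟨h1, h2⟩ := hnv u hu huT
      exact h2 (hex _ h1)
    have := Subgroup.card_le_of_le hle
    omega

theorem card_W [Finite W] [Finite E] (hE : Nat.card E ≤ 4) : Nat.card W ≤ 32 := by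
  by_cases hex : ∃ v : W, v ≠ 1
  · obtain ⟨v, hv⟩ := hex
    have h1 := (h.polar v).ker.card_mul_index
    rw [Subgroup.index_ker] at h1
    have h2 : Nat.card (h.polar v).range ≤ 4 := (Subgroup.card_le_card_group _).trans hE
    calc Nat.card W = Nat.card (h.polar v).ker * Nat.card (h.polar v).range := h1.symm
      _ ≤ 8 * 4 := Nat.mul_le_mul (h.ker_card hE hv) h2
  · push Not at hex
    haveI : Subsingleton W := ⟨fun a b => (hex a).trans (hex b).symm⟩
    rw [Nat.card_of_subsingleton (1 : W)]; norm_num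

end AQ

/-- affine descriptions of the permutations preserving a pentagon -/
theorem pentagon : ∀ b : Bool, ∀ π : Equiv.Perm (Fin 5),
    (∀ i j : Fin 5, (decide (π j - π i = 1 ∨ π j - π i = 4) == b) = (decide (j - i = 1 ∨ j - i = 4) == b) ∨ i = j) →
    ∀ i : Fin 5, π i = π 0 + i * (π 1 - π 0) := by decide +kernel

theorem affine_solvable {Γ : Type*} [Group Γ] (ρ : Γ →* Equiv.Perm (Fin 5)) (hρ : Function.Injective ρ)
    (haff : ∀ g : Γ, ∀ i : Fin 5, ρ g i = ρ g 0 + i * (ρ g 1 - ρ g 0)) : Group.IsSolvable Γ := by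
  have hmul : ∀ g k : Γ, ρ (g * k) 1 - ρ (g * k) 0 = (ρ g 1 - ρ g 0) * (ρ k 1 - ρ k 0) := by
    intro g k
    rw [map_mul, Equiv.Perm.mul_apply, Equiv.Perm.mul_apply, haff g (ρ k 1), haff g (ρ k 0), sub_mul]
    generalize ρ g 0 = a
    generalize ρ g 1 = b
    generalize ρ k 0 = c
    generalize ρ k 1 = d
    revert a b c d
    decide +kernel
  let slope : Γ →* Fin 5 :=
    { toFun := fun g => ρ g 1 - ρ g 0
      map_one' := by rw [ρ.map_one]; rfl
      map_mul' := hmul }
  let f : Γ →* (Fin 5)ˣ := slope.toHomUnits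
  haveI : Group.IsSolvable f.ker := Group.isSolvable_of_comm fun a b => by
    have ha : ρ (a : Γ) 1 - ρ (a : Γ) 0 = 1 := congrArg Units.val a.2
    have hb : ρ (b : Γ) 1 - ρ (b : Γ) 0 = 1 := congrArg Units.val b.2
    refine Subtype.ext (hρ (Equiv.ext fun i => ?_))
    show ρ ((a : Γ) * b) i = ρ ((b : Γ) * a) i
    rw [map_mul, map_mul, Equiv.Perm.mul_apply, Equiv.Perm.mul_apply, haff (a : Γ) (ρ (b : Γ) i),
      haff (b : Γ) (ρ (a : Γ) i), haff (b : Γ) i, haff (a : Γ) i, ha, hb]
    simp only [mul_one]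
    abel
  haveI : Group.IsSolvable (Fin 5)ˣ := Group.isSolvable_of_comm mul_comm
  exact Group.isSolvable_of_ker_le_range f.ker.subtype f (by simp)

/-- the automorphisms fixing an anisotropic quadratic map form a solvable group -/
theorem solvable [Finite W] [Finite E] {q : W → E} (h : AQ q) (hE : Nat.card E ≤ 4)
    {Γ : Type*} [Group Γ] [Finite Γ] (act : Γ →* MulAut W) (hinj : Function.Injective act)
    (hq : ∀ (g : Γ) (x : W), q (act g x) = q x) : Group.IsSolvable Γ := by
  classical
  by_cases hp : ∃ p : ℕ, p.Prime ∧ 5 ≤ p ∧ p ∣ Nat.card Γ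
  swap
  · push Not at hp
    obtain ⟨a, b, hab⟩ : ∃ a b : ℕ, Nat.card Γ = 2 ^ a * 3 ^ b := by
      obtain ⟨a, m, hm2, he⟩ := Nat.exists_eq_pow_mul_and_not_dvd (Nat.card_pos (α := Γ)).ne' 2 (by norm_num)
      have hm0 : m ≠ 0 := fun e => hm2 (e ▸ dvd_zero 2)
      have := Nat.eq_prime_pow_of_unique_prime_dvd (p := 3) hm0 (fun {d} hd hdm => by
        by_contra hd3
        have hd2 : d ≠ 2 := fun e => hm2 (e ▸ hdm)
        have hd4 : d ≠ 4 := fun e => by rw [e] at hd; exact absurd hd (by norm_num)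
        have := hd.two_le
        exact hp d hd (by omega) (he ▸ hdm.mul_left _))
      exact ⟨a, _, by rw [he, this]⟩
    exact Cfsg.Agent.S0144.result 2 3 a b Nat.prime_two Nat.prime_three hab
  obtain ⟨p, hpp, hp5, hpd⟩ := hp
  haveI := Fact.mk hpp
  obtain ⟨g, hg⟩ := exists_prime_orderOf_dvd_card' (G := Γ) p hpd
  let α : MulAut W := act g
  have hα : orderOf α = p := by rw [orderOf_injective act hinj, hg]
  have hαq : ∀ (i : ℕ) (x : W), q ((α ^ i) x) = q x := fun i x => by rw [← map_pow]; exact hq _ x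
  have hαp : α ^ p = 1 := by rw [← hα]; exact pow_orderOf_eq_one α
  -- the commutator map
  let ψ : W →* W :=
    { toFun := fun x => x * α x
      map_one' := by simp
      map_mul' := fun x y => by rw [map_mul]; exact mul_mul_mul_comm x y (α x) (α y) }
  let M := ψ.range
  have hψ : ∀ x, α x = x * ψ x := fun x => by
    show α x = x * (x * α x)
    rw [← mul_assoc, h.expW, one_mul]
  have hMinv : ∀ x ∈ M, ∀ i : ℕ, (α ^ i) x ∈ M := by
    rintro _ ⟨y, rfl⟩ i
    refine ⟨(α ^ i) y, ?_⟩
    show (α ^ i) y * α ((α ^ i) y) = (α ^ i) (y * α y)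
    rw [map_mul, ← MulAut.mul_apply, ← MulAut.mul_apply, ← pow_succ', ← pow_succ]
  have hfix : ∀ x ∈ M, α x = x → x = 1 := by
    rintro s ⟨y, rfl⟩ hs
    have hi : ∀ i : ℕ, (α ^ i) y = y * ψ y ^ i := by
      intro i
      induction i with
      | zero => simp
      | succ i ih => rw [pow_succ', MulAut.mul_apply, ih, map_mul, map_pow, hs, hψ y, pow_succ', mul_assoc]
    have h1 := hi p
    rw [hαp, MulAut.one_apply, left_eq_mul] at h1
    obtain ⟨k, hk⟩ := hpp.odd_of_ne_two (by omega)
    rwa [hk, pow_succ, pow_mul, sq, h.expW, one_pow, one_mul] at h1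
  have hfree : ∀ x : W, α x ≠ x → Function.Injective fun i : Fin p => (α ^ (i : ℕ)) x := by
    intro x hx
    have aux : ∀ i j : ℕ, i < j → j < p → (α ^ i) x ≠ (α ^ j) x := by
      intro i j hij hj he
      apply hx
      obtain ⟨d, rfl⟩ := Nat.exists_eq_add_of_lt hij
      rw [show i + d + 1 = i + (d + 1) from rfl, pow_add, MulAut.mul_apply] at he
      have hd : (α ^ (d + 1)) x = x := ((α ^ i).injective he).symm
      have hco : Nat.Coprime (d + 1) p := ((hpp.coprime_iff_not_dvd).2 fun hd' => by have := Nat.le_of_dvd (by omega) hd'; omega).symm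
      obtain ⟨m, hm⟩ := exists_pow_eq_self_of_coprime (hα.symm ▸ hco)
      rw [← hm]
      have : ∀ m : ℕ, ((α ^ (d + 1)) ^ m) x = x := fun m => by
        induction m with
        | zero => simp
        | succ m ih => rw [pow_succ', MulAut.mul_apply, ih, hd]
      exact this m
    intro i j he
    rcases Nat.lt_trichotomy (i : ℕ) j with hl | hl | hl
    · exact absurd he (aux _ _ hl j.2)
    · exact Fin.ext hl
    · exact absurd he.symm (aux _ _ hl i.2)
  -- sizes
  have hW : IsPGroup 2 W := fun x => ⟨1, by rw [pow_one, sq, h.expW]⟩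
  have hαne : α ≠ 1 := fun e => by rw [e, orderOf_one] at hα; omega
  obtain ⟨x₀, hx₀M, hx₀⟩ : ∃ x ∈ M, α x ≠ x := by
    by_contra hh
    push Not at hh
    refine hαne (MulEquiv.ext fun x => ?_)
    have := hfix _ ⟨x, rfl⟩ (hh _ ⟨x, rfl⟩)
    rw [MulAut.one_apply, hψ x, this, mul_one]
  have hcard : Nat.card ψ.ker * Nat.card M = Nat.card W := by
    rw [← Subgroup.index_ker, Subgroup.card_mul_index]
  have hmod : p ∣ Nat.card M - 1 := by
    have hP : IsPGroup p (Subgroup.zpowers α) := IsPGroup.of_card (n := 1) (by rw [Nat.card_zpowers, hα, pow_one])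
    have h1 := hP.card_modEq_card_fixedPoints (α := W)
    have h2 : Nat.card (MulAction.fixedPoints (Subgroup.zpowers α) W) = Nat.card ψ.ker := by
      refine Nat.card_congr (Equiv.subtypeEquivRight fun x => ?_)
      constructor
      · intro hx
        have hx' : α x = x := hx ⟨α, Subgroup.mem_zpowers α⟩
        show x * α x = 1
        rw [hx', h.expW]
      · intro hx
        have hx' : α x = x := by
          have : x * α x = 1 := hx
          exact (mul_left_cancel ((h.expW x).trans this.symm)).symm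
        intro k
        have hst : α ∈ MulAction.stabilizer (MulAut W) x := hx'
        exact (Subgroup.zpowers_le.2 hst) k.2
    rw [h2, ← hcard] at h1
    have h3 : p ∣ Nat.card ψ.ker * Nat.card M - Nat.card ψ.ker := by
      rw [← Nat.modEq_iff_dvd' (Nat.le_mul_of_pos_right _ Nat.card_pos)]
      exact h1.symm
    rw [← Nat.mul_sub_one] at h3
    refine (hpp.dvd_mul.1 h3).resolve_left fun hd => ?_
    obtain ⟨k, hk⟩ := (IsPGroup.iff_card.1 (hW.to_subgroup ψ.ker))
    rw [hk] at hd
    have := (Nat.prime_dvd_prime_iff_eq hpp Nat.prime_two).1 (hpp.dvd_of_dvd_pow hd)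
    omega
  have hW32 := h.card_W hE
  have hMW : Nat.card M ≤ 32 := (Subgroup.card_le_card_group M).trans hW32
  have hM1 : 1 < Nat.card M := by
    haveI : Nontrivial M := ⟨⟨⟨x₀, hx₀M⟩, 1, fun e => hx₀ (by
      rw [show x₀ = 1 from congrArg Subtype.val e, map_one])⟩⟩
    exact Finite.one_lt_card
  obtain ⟨j, hj⟩ := IsPGroup.iff_card.1 (hW.to_subgroup M)
  have horb : ∀ x ∈ M, α x ≠ x → Set.range (fun i : Fin p => (α ^ (i : ℕ)) x) ⊆ (M : Set W) \ {1} := by
    rintro x hx hne _ ⟨i, rfl⟩
    refine ⟨hMinv x hx i, fun e => hne ?_⟩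
    rw [(map_eq_one_iff _ (α ^ (i : ℕ)).injective).1 e, map_one]
  have hcases : (p = Nat.card M - 1 ∧ 8 ≤ Nat.card M) ∨ (p = 5 ∧ Nat.card M = 16) := by
    have hj5 : j ≤ 5 := by
      by_contra hj5
      have : 2 ^ 6 ≤ 2 ^ j := Nat.pow_le_pow_right (by norm_num) (by omega)
      omega
    have hdm : p ∣ 2 ^ j - 1 := hj ▸ hmod
    rw [hj] at hM1 ⊢
    have hpl := hpp.two_le
    interval_cases j
    · norm_num at hM1
    · norm_num at hdm; omega
    · have := Nat.le_of_dvd (by norm_num) hdm; omega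
    · exact Or.inl ⟨(Nat.prime_dvd_prime_iff_eq hpp (by norm_num)).1 hdm, by norm_num⟩
    · rcases (Nat.Prime.dvd_mul hpp).1 (show p ∣ 3 * 5 from hdm) with h3 | h5
      · have := Nat.le_of_dvd (by norm_num) h3; omega
      · exact Or.inr ⟨(Nat.prime_dvd_prime_iff_eq hpp (by norm_num)).1 h5, by norm_num⟩
    · exact Or.inl ⟨(Nat.prime_dvd_prime_iff_eq hpp (by norm_num)).1 hdm, by norm_num⟩
  rcases hcases with ⟨hpM, hM8⟩ | ⟨hp5', hM16⟩
  · -- one orbit, hence a constant value
    exfalso
    have hEq : Set.range (fun i : Fin p => (α ^ (i : ℕ)) x₀) = (M : Set W) \ {1} := by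
      refine Set.eq_of_subset_of_ncard_le (horb x₀ hx₀M hx₀) ?_ (Set.toFinite _)
      rw [Set.ncard_sdiff (Set.singleton_subset_iff.2 M.one_mem) (Set.toFinite _), Set.ncard_singleton,
        ← Nat.card_coe_set_eq, ← Nat.card_coe_set_eq, Nat.card_range_of_injective (hfree x₀ hx₀), Nat.card_fin]
      exact hpM.ge
    have hne : q x₀ ≠ 1 := fun e => hx₀ (by rw [h.aniso _ e, map_one])
    have := h.noConst hne hne (T := ⊥) (U := M) bot_le (fun u hu huT => by
      obtain ⟨i, hi⟩ : u ∈ Set.range (fun i : Fin p => (α ^ (i : ℕ)) x₀) := by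
        rw [hEq]; exact ⟨hu, huT⟩
      left
      rw [← hi, hαq])
    rw [Subgroup.card_bot] at this
    omega
  subst hp5'
  -- there are no fixed points
  have hker : ψ.ker = ⊥ := by
    rw [Subgroup.eq_bot_iff_forall]
    intro v hv
    by_contra hv1
    have hvfix : α v = v := by
      have hv' : v * α v = 1 := hv
      exact (mul_left_cancel ((h.expW v).trans hv'.symm)).symm
    have hvM : v ∉ M := fun e => hv1 (hfix v e hvfix)
    let U := (h.polar v).ker
    have hU8 : Nat.card U ≤ 8 := h.ker_card hE hv1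
    have hUW : Nat.card W ≤ Nat.card U * 4 := by
      have h1 := U.card_mul_index
      rw [Subgroup.index_ker] at h1
      rw [← h1]
      exact Nat.mul_le_mul_left _ ((Subgroup.card_le_card_group _).trans hE)
    have hkv : 2 ≤ Nat.card ψ.ker := by
      haveI : Nontrivial ψ.ker := ⟨⟨⟨v, hv⟩, 1, fun e => hv1 (congrArg Subtype.val e)⟩⟩
      exact Finite.one_lt_card
    -- `U` meets `M` in at least four elements
    have hUM : 4 ≤ Nat.card ↥(M ⊓ U) := by
      have h1 : Nat.card M ≤ Nat.card ↥(M ⊓ U) * Nat.card (h.polar v).range := by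
        have h2 : (U.subgroupOf M).index ≤ Nat.card (h.polar v).range := by
          rw [show U.subgroupOf M = ((h.polar v).comp M.subtype).ker from rfl, Subgroup.index_ker]
          exact Subgroup.card_le_of_le (by rintro _ ⟨m, rfl⟩; exact ⟨_, rfl⟩)
        have h3 := (U.subgroupOf M).card_mul_index
        rw [← Nat.card_congr (Subgroup.subgroupOfEquivOfLe (show M ⊓ U ≤ M from inf_le_left)).toEquiv,
          Subgroup.inf_subgroupOf_left]
        calc Nat.card M = _ := h3.symm
          _ ≤ _ := Nat.mul_le_mul_left _ h2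
      have h4 : Nat.card (h.polar v).range ≤ 4 := (Subgroup.card_le_card_group _).trans hE
      nlinarith
    obtain ⟨m, hm, hm1⟩ : ∃ m ∈ M ⊓ U, m ≠ 1 := by
      by_contra hh
      push Not at hh
      rw [(Subgroup.eq_bot_iff_forall _).2 hh, Subgroup.card_bot] at hUM
      omega
    have hmne : α m ≠ m := fun e => hm1 (hfix m hm.1 e)
    have hsub : insert 1 (Set.range (fun i : Fin 5 => (α ^ (i : ℕ)) m)) ⊆ ((M ⊓ U : Subgroup W) : Set W) := by
      refine Set.insert_subset_iff.2 ⟨one_mem _, ?_⟩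
      rintro _ ⟨i, rfl⟩
      refine ⟨hMinv m hm.1 i, ?_⟩
      have hmU : q (v * m) * q v * q m = 1 := hm.2
      have hvi : ∀ k : ℕ, (α ^ k) v = v := fun k => by
        induction k with
        | zero => simp
        | succ k ih => rw [pow_succ', MulAut.mul_apply, ih, hvfix]
      show q (v * (α ^ (i : ℕ)) m) * q v * q ((α ^ (i : ℕ)) m) = 1
      conv_lhs => enter [1, 1, 1, 1]; rw [← hvi (i : ℕ)]
      rw [← map_mul, hαq, hαq]
      exact hmU
    have h6 : 6 ≤ Nat.card ↥(M ⊓ U) := by
      have h7 := Set.ncard_le_ncard hsub (Set.toFinite _)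
      rw [Set.ncard_insert_of_notMem (fun e => (horb m hm.1 hmne e).2 rfl) (Set.toFinite _),
        ← Nat.card_coe_set_eq, Nat.card_range_of_injective (hfree m hmne), Nat.card_fin] at h7
      rw [← Nat.card_coe_set_eq] at h7
      exact h7
    obtain ⟨k, hk⟩ := IsPGroup.iff_card.1 (hW.to_subgroup (M ⊓ U))
    have hk3 : 3 ≤ k := by
      by_contra hk3
      rw [hk] at h6
      have : 2 ^ k ≤ 2 ^ 2 := Nat.pow_le_pow_right (by norm_num) (by omega)
      omega
    have h8 : 8 ≤ Nat.card ↥(M ⊓ U) := by rw [hk]; exact le_of_eq_of_le (show 8 = 2 ^ 3 from rfl) (Nat.pow_le_pow_right two_pos hk3)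
    have heq : M ⊓ U = U := Subgroup.eq_of_le_of_card_ge inf_le_right (hU8.trans h8)
    exact hvM ((heq.ge (h.self_mem v)).1)
  have hMtop : M = ⊤ := Subgroup.eq_top_of_card_eq _ (by
    rw [hker, Subgroup.card_bot, one_mul] at hcard
    exact hcard)
  have hW16 : Nat.card W = 16 := by rw [hker, Subgroup.card_bot, one_mul] at hcard; rw [← hcard, hM16]
  have hmove : ∀ x : W, x ≠ 1 → α x ≠ x := fun x hx e => hx (hfix x (hMtop ▸ Subgroup.mem_top x) e)
  letI := Fintype.ofFinite W
  letI := Fintype.ofFinite E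
  let fib : E → Finset W := fun e => Finset.univ.filter fun x => q x = e
  have hfib5 : ∀ e : E, e ≠ 1 → (∃ x, q x = e) → 5 ≤ (fib e).card := by
    rintro e he ⟨x, hx⟩
    have hx1 : x ≠ 1 := fun e' => he (by rw [← hx, e', h.one])
    have : (Finset.univ.image fun i : Fin 5 => (α ^ (i : ℕ)) x) ⊆ fib e := fun y hy => by
      obtain ⟨i, -, rfl⟩ := Finset.mem_image.1 hy
      simp [fib, hαq, hx]
    have hc := Finset.card_le_card this
    rwa [Finset.card_image_of_injective _ (hfree x (hmove x hx1)), Finset.card_univ, Fintype.card_fin] at hc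
  obtain ⟨xo, hxo⟩ : ∃ x : W, x ≠ 1 := ⟨x₀, fun e => hx₀ (by rw [e, map_one])⟩
  let e₁ := q xo
  have he₁ : e₁ ≠ 1 := fun e => hxo (h.aniso _ e)
  have hall : ∀ f f' : E, f ≠ 1 → f' ≠ 1 → ∃ x : W, x ≠ 1 ∧ q x ≠ f ∧ q x ≠ f' := by
    intro f f' hf hf'
    by_contra hh
    push Not at hh
    have := h.noConst hf hf' (T := ⊥) (U := ⊤) bot_le (fun u _ hu => by
      by_cases h1 : q u = f
      · exact Or.inl h1
      · exact Or.inr (hh u (fun e => hu (e ▸ one_mem _)) h1))
    rw [Subgroup.card_bot, Subgroup.card_top, hW16] at this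
    omega
  obtain ⟨x₂, hx₂1, hx₂, -⟩ := hall e₁ e₁ he₁ he₁
  let e₂ := q x₂
  have he₂ : e₂ ≠ 1 := fun e => hx₂1 (h.aniso _ e)
  obtain ⟨x₃, hx₃1, hx₃, hx₃'⟩ := hall e₁ e₂ he₁ he₂
  have h12 : e₁ * e₂ ≠ 1 := fun e => hx₂ (mul_left_cancel ((h.expE e₁).trans e.symm)).symm
  have hval : ∀ y : E, y = 1 ∨ y = e₁ ∨ y = e₂ ∨ y = e₁ * e₂ := fun y => h.four_values hE he₁ he₂ (Ne.symm hx₂)
  have hx₃v : q x₃ = e₁ * e₂ := by
    rcases hval (q x₃) with e | e | e | e
    exacts [absurd (h.aniso _ e) hx₃1, absurd e hx₃, absurd e hx₃', e]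
  have hdis : ∀ a b : E, a ≠ b → Disjoint (fib a) (fib b) := fun a b hab =>
    Finset.disjoint_left.2 fun x hx hx' => hab (by simp [fib] at hx hx'; exact hx.symm.trans hx')
  have hsum : (fib e₁).card = 5 ∧ (fib e₂).card = 5 ∧ (fib (e₁ * e₂)).card = 5 := by
    have a1 := hfib5 e₁ he₁ ⟨xo, rfl⟩
    have a2 := hfib5 e₂ he₂ ⟨x₂, rfl⟩
    have a3 := hfib5 _ h12 ⟨x₃, hx₃v⟩
    have d12 := hdis e₁ e₂ (Ne.symm hx₂)
    have d13 := hdis e₁ (e₁ * e₂) (fun e => he₂ (mul_eq_left.1 e.symm))
    have d23 := hdis e₂ (e₁ * e₂) (fun e => he₁ (mul_eq_right.1 e.symm))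
    have hsub : fib e₁ ∪ fib e₂ ∪ fib (e₁ * e₂) ⊆ Finset.univ.erase 1 := fun x hx => by
      refine Finset.mem_erase.2 ⟨fun e => ?_, Finset.mem_univ _⟩
      subst e
      simp only [fib, Finset.mem_union, Finset.mem_filter, Finset.mem_univ, true_and, h.one] at hx
      rcases hx with (e | e) | e
      exacts [he₁ e.symm, he₂ e.symm, h12 e.symm]
    have hc := Finset.card_le_card hsub
    rw [Finset.card_union_of_disjoint (Finset.disjoint_union_left.2 ⟨d13, d23⟩),
      Finset.card_union_of_disjoint d12, Finset.card_erase_of_mem (Finset.mem_univ _), Finset.card_univ,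
      ← Nat.card_eq_fintype_card, hW16] at hc
    omega
  -- the five points
  let pt : Fin 5 → W := fun i => (α ^ (i : ℕ)) xo
  have ptinj : Function.Injective pt := hfree xo (hmove xo hxo)
  have ptfib : fib e₁ = Finset.univ.image pt := by
    refine (Finset.eq_of_subset_of_card_le (fun y hy => ?_) ?_).symm
    · obtain ⟨i, -, rfl⟩ := Finset.mem_image.1 hy
      simp [fib, pt, hαq, e₁]
    · rw [Finset.card_image_of_injective _ ptinj, Finset.card_univ, Fintype.card_fin, hsum.1]
  have ptmem : ∀ y, q y = e₁ → ∃ i, pt i = y := fun y hy => by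
    have : y ∈ fib e₁ := by simp [fib, hy]
    rw [ptfib] at this
    obtain ⟨i, -, hi⟩ := Finset.mem_image.1 this
    exact ⟨i, hi⟩
  have ptne : ∀ i, pt i ≠ 1 := fun i e => hxo ((map_eq_one_iff _ (α ^ (i : ℕ)).injective).1 e)
  have αmod : ∀ n : ℕ, (α ^ (n % 5)) xo = (α ^ n) xo := fun n => by rw [← pow_eq_pow_mod n hαp]
  have ptshift : ∀ (k : ℕ) (i : Fin 5), (α ^ k) (pt i) = pt (i + Fin.ofNat 5 k) := fun k i => by
    show (α ^ k) ((α ^ (i : ℕ)) xo) = (α ^ ((i + Fin.ofNat 5 k : Fin 5) : ℕ)) xo
    rw [← MulAut.mul_apply, ← pow_add, ← αmod (k + i), Fin.val_add, Fin.val_ofNat, Nat.add_comm k,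
      Nat.add_mod_mod]
  -- no product of two points is a point
  have hnp : ∀ i j : Fin 5, i ≠ j → q (pt i * pt j) ≠ e₁ := by
    intro i j hij he
    obtain ⟨k, hk⟩ := ptmem _ he
    have hki : k ≠ i := fun e => ptne j (mul_eq_left.1 (e ▸ hk).symm)
    have hkj : k ≠ j := fun e => ptne i (mul_eq_right.1 (e ▸ hk).symm)
    have hP : ∏ l : Fin 5, pt l = 1 := by
      refine hfix _ (hMtop ▸ Subgroup.mem_top _) ?_
      rw [map_prod]
      refine Fintype.prod_equiv (Equiv.addRight 1) _ _ fun l => ?_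
      have := ptshift 1 l
      rw [pow_one] at this
      exact this
    obtain ⟨u, w, huw, hset⟩ : ∃ u w : Fin 5, u ≠ w ∧ (Finset.univ : Finset (Fin 5)) \ {i, j, k} = {u, w} := by
      apply Finset.card_eq_two.1
      rw [Finset.card_univ_diff, Fintype.card_fin, Finset.card_insert_of_notMem, Finset.card_insert_of_notMem,
        Finset.card_singleton] <;> simp [hij, Ne.symm hki, Ne.symm hkj]
    rw [← Finset.prod_sdiff (Finset.subset_univ ({i, j, k} : Finset (Fin 5))), hset, Finset.prod_pair huw,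
      Finset.prod_insert (by simp [hij, Ne.symm hki]), Finset.prod_pair (Ne.symm hkj), hk, ← mul_assoc (pt i),
      h.expW, mul_one] at hP
    exact huw (ptinj (mul_right_cancel (hP.trans (h.expW (pt w)).symm)))
  have hnone : ∀ i j : Fin 5, i ≠ j → pt i * pt j ≠ 1 := fun i j hij e =>
    hij (ptinj (mul_right_cancel (e.trans (h.expW (pt j)).symm)))
  have h2v : ∀ i j : Fin 5, i ≠ j → q (pt i * pt j) = e₂ ∨ q (pt i * pt j) = e₁ * e₂ := fun i j hij => by
    rcases hval (q (pt i * pt j)) with e | e | e | e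
    exacts [absurd (h.aniso _ e) (hnone i j hij), absurd e (hnp i j hij), Or.inl e, Or.inr e]
  -- products of unordered pairs are distinct
  have hpairs : ∀ i j k l : Fin 5, i ≠ j → k ≠ l → pt i * pt j = pt k * pt l → (i = k ∧ j = l) ∨ (i = l ∧ j = k) := by
    intro i j k l hij hkl he
    by_cases h1 : i = k
    · subst h1; exact Or.inl ⟨rfl, ptinj (mul_left_cancel he)⟩
    by_cases h2 : i = l
    · subst h2; rw [mul_comm (pt k)] at he; exact Or.inr ⟨rfl, ptinj (mul_left_cancel he)⟩
    by_cases h3 : j = k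
    · subst h3; rw [mul_comm (pt i)] at he; exact absurd (ptinj (mul_left_cancel he)) h2
    by_cases h4 : j = l
    · subst h4; exact absurd (ptinj (mul_right_cancel he)) h1
    exfalso
    -- four distinct points with product one
    have hP : ∏ m : Fin 5, pt m = 1 := by
      refine hfix _ (hMtop ▸ Subgroup.mem_top _) ?_
      rw [map_prod]
      refine Fintype.prod_equiv (Equiv.addRight 1) _ _ fun m => ?_
      have := ptshift 1 m
      rw [pow_one] at this
      exact this
    obtain ⟨u, hset⟩ : ∃ u : Fin 5, (Finset.univ : Finset (Fin 5)) \ {i, j, k, l} = {u} := by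
      apply Finset.card_eq_one.1
      rw [Finset.card_univ_diff, Fintype.card_fin, Finset.card_insert_of_notMem, Finset.card_insert_of_notMem,
        Finset.card_insert_of_notMem, Finset.card_singleton] <;> simp [hij, hkl, h1, h2, h3, h4]
    rw [← Finset.prod_sdiff (Finset.subset_univ ({i, j, k, l} : Finset (Fin 5))), hset, Finset.prod_singleton,
      Finset.prod_insert (by simp [hij, h1, h2]), Finset.prod_insert (by simp [h3, h4]), Finset.prod_pair hkl,
      ← mul_assoc (pt i), ← he, h.expW, mul_one] at hP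
    exact ptne u hP
  -- the pentagon
  let v₁ := q (pt 0 * pt 1)
  have hv : ∀ i j : Fin 5, j - i = 1 ∨ j - i = 4 → q (pt i * pt j) = v₁ := by
    intro i j hd
    have sh : ∀ i : Fin 5, q (pt i * pt (i + 1)) = v₁ := fun i => by
      have e0 : (α ^ (i : ℕ)) (pt 0 * pt 1) = pt i * pt (i + 1) := by
        rw [map_mul, ptshift, ptshift]
        congr 1 <;> congr 1
        · rw [zero_add]; exact Fin.ext (Nat.mod_eq_of_lt i.2)
        · rw [add_comm]; congr 1; exact Fin.ext (Nat.mod_eq_of_lt i.2)
      rw [← e0, hαq]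
    rcases hd with hd | hd
    · rw [show j = i + 1 by rw [← hd]; abel]; exact sh i
    · rw [show i = j + 1 by rw [show (1 : Fin 5) = -4 by decide, ← hd]; abel, mul_comm]; exact sh j
  have hoff : ∀ i j : Fin 5, i ≠ j → q (pt i * pt j) = v₁ → j - i = 1 ∨ j - i = 4 := by
    intro i j hij hq'
    by_contra hd
    have hv1 : (fib v₁).card = 5 := by
      rcases h2v 0 1 (by decide) with e | e
      · show (fib (q (pt 0 * pt 1))).card = 5; rw [e]; exact hsum.2.1
      · show (fib (q (pt 0 * pt 1))).card = 5; rw [e]; exact hsum.2.2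
    have hsub : (Finset.univ.image fun m : Fin 5 => pt m * pt (m + 1)) = fib v₁ := by
      refine Finset.eq_of_subset_of_card_le (fun y hy => ?_) ?_
      · obtain ⟨m, -, rfl⟩ := Finset.mem_image.1 hy
        simp [fib, hv m (m + 1) (Or.inl (by abel))]
      · rw [hv1, Finset.card_image_of_injective, Finset.card_univ, Fintype.card_fin]
        intro m m' he
        rcases hpairs _ _ _ _ (by simp) (by simp) he with ⟨h', -⟩ | ⟨h', h''⟩
        · exact h'
        · exfalso
          have aux : ∀ m : Fin 5, m + 1 + 1 ≠ m := by decide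
          subst h'
          exact aux _ h''
    have : pt i * pt j ∈ fib v₁ := by simp [fib, hq']
    rw [← hsub] at this
    obtain ⟨m, -, hm⟩ := Finset.mem_image.1 this
    rcases hpairs _ _ _ _ (by simp) hij hm with ⟨rfl, rfl⟩ | ⟨rfl, rfl⟩
    · exact hd (Or.inl (by abel))
    · exact hd (Or.inr (by rw [show (4 : Fin 5) = -1 by decide]; abel))
  -- the permutation representation
  have hperm : ∀ g : Γ, ∀ i : Fin 5, ∃ k, pt k = act g (pt i) := fun g i =>
    ptmem _ (by rw [hq]; show q ((α ^ (i : ℕ)) xo) = e₁; rw [hαq])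
  choose π hπ using hperm
  have πinj : ∀ g, Function.Injective (π g) := fun g a b e => ptinj ((act g).injective (by rw [← hπ, ← hπ, e]))
  let ρ : Γ →* Equiv.Perm (Fin 5) :=
    { toFun := fun g => Equiv.ofBijective (π g) (Finite.injective_iff_bijective.1 (πinj g))
      map_one' := Equiv.ext fun i => ptinj (by
        show pt (π 1 i) = pt i
        rw [hπ, map_one, MulAut.one_apply])
      map_mul' := fun g k => Equiv.ext fun i => ptinj (by
        show pt (π (g * k) i) = pt (π g (π k i))
        rw [hπ, hπ, hπ, map_mul, MulAut.mul_apply]) }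
  have hρ : Function.Injective ρ := by
    rw [injective_iff_map_eq_one]
    intro g hg
    apply hinj
    rw [map_one]
    have hptfix : ∀ i, act g (pt i) = pt i := fun i => by
      rw [← hπ]; exact congrArg pt (congrArg (fun σ : Equiv.Perm (Fin 5) => σ i) hg)
    let S := MonoidHom.eqLocus (act g).toMonoidHom (MonoidHom.id W)
    -- the points generate
    have hS : 16 ≤ Nat.card S := by
      let F : Finset W := insert 1 (Finset.univ.image pt ∪
        ((Finset.univ.filter fun p : Fin 5 × Fin 5 => p.1 < p.2).image fun p => pt p.1 * pt p.2))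
      have hF : F.card = 16 := by
        rw [Finset.card_insert_of_notMem, Finset.card_union_of_disjoint,
          Finset.card_image_of_injective _ ptinj, Finset.card_image_of_injOn, Finset.card_univ, Fintype.card_fin]
        · rfl
        · intro p hp p' hp' he
          simp only [Finset.coe_filter, Finset.mem_univ, true_and, Set.mem_setOf_eq] at hp hp'
          rcases hpairs _ _ _ _ hp.ne hp'.ne he with ⟨a, b⟩ | ⟨a, b⟩
          · exact Prod.ext a b
          · rw [a, b] at hp; exact absurd hp (not_lt.2 hp'.le)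
        · refine Finset.disjoint_left.2 fun y hy hy' => ?_
          obtain ⟨k, -, rfl⟩ := Finset.mem_image.1 hy
          obtain ⟨p, hp, he⟩ := Finset.mem_image.1 hy'
          exact hnp _ _ (Finset.mem_filter.1 hp).2.ne (by rw [he]; show q ((α ^ (k : ℕ)) xo) = e₁; rw [hαq])
        · intro hy
          rcases Finset.mem_union.1 hy with hy | hy
          · obtain ⟨k, -, hk⟩ := Finset.mem_image.1 hy; exact ptne k hk
          · obtain ⟨p, hp, he⟩ := Finset.mem_image.1 hy
            exact hnone _ _ (Finset.mem_filter.1 hp).2.ne he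
      have hsub : (F : Set W) ⊆ (S : Set W) := by
        intro y hy
        simp only [F, Finset.coe_insert, Finset.coe_union, Finset.coe_image, Set.mem_insert_iff, Set.mem_union,
          Set.mem_image] at hy
        rcases hy with rfl | ⟨k, -, rfl⟩ | ⟨p, -, rfl⟩
        · exact S.one_mem
        · exact hptfix k
        · exact S.mul_mem (hptfix _) (hptfix _)
      have := Set.ncard_le_ncard hsub (Set.toFinite _)
      rw [Set.ncard_coe_finset, hF, ← Nat.card_coe_set_eq] at this
      exact this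
    have htop : S = ⊤ := Subgroup.eq_top_of_card_eq _ (le_antisymm (Subgroup.card_le_card_group _) (hW16 ▸ hS))
    exact MulEquiv.ext fun x => by
      have : x ∈ S := htop ▸ Subgroup.mem_top x
      exact this
  refine affine_solvable ρ hρ fun g i => pentagon true (ρ g) (fun a b => ?_) i
  by_cases hab : a = b
  · exact Or.inr hab
  refine Or.inl ?_
  have hne : ρ g a ≠ ρ g b := fun e => hab ((ρ g).injective e)
  have key : q (pt (ρ g a) * pt (ρ g b)) = q (pt a * pt b) := by
    show q (pt (π g a) * pt (π g b)) = _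
    rw [hπ, hπ, ← map_mul, hq]
  simp only [beq_true, decide_eq_decide]
  exact ⟨fun hd => hoff a b hab (key ▸ hv _ _ hd), fun hd => hoff _ _ hne (key.trans (hv _ _ hd))⟩

end CfsgLib.AnisotropicPencil
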