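import Mathlib

/-! Field automorphisms of a finite field of characteristic 2 span the additive endomorphisms;
biadditive maps and quadratic maps in terms of automorphisms. (helper7) -/

set_option autoImplicit false
set_option linter.style.haveILetI false
set_option linter.unusedSectionVars false
set_option maxHeartbeats 400000

namespace CfsgLib.AutSpan

variable {F : Type*} [Field F] [Fintype F] [CharP F 2]

theorem linearIndependent_aut :
    LinearIndependent F (fun σ : F ≃+* F => ((σ : F →+* F) : F → F)) := by
  refine (linearIndependent_monoidHom F F).comp (fun σ : F ≃+* F => ((σ : F →+* F) : F →* F)) ?_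
  intro σ τ h
  ext x
  exact DFunLike.congr_fun h x

theorem exists_coeff [Fintype (F ≃+* F)] (f : F →+ F) :
    ∃ c : (F ≃+* F) → F, ∀ x : F, f x = ∑ σ, c σ * σ x := by
  classical
  letI : Algebra (ZMod 2) F := ZMod.algebra F 2
  haveI := Fact.mk Nat.prime_two
  let v : (F ≃+* F) → (F →ₗ[ZMod 2] F) :=
    fun σ => AddMonoidHom.toZModLinearMap 2 (σ : F →+* F).toAddMonoidHom
  let coe : (F →ₗ[ZMod 2] F) →ₗ[F] (F → F) :=
    { toFun := fun g => (g : F → F), map_add' := fun _ _ => rfl, map_smul' := fun _ _ => rfl }
  have hli : LinearIndependent F v := LinearIndependent.of_comp coe linearIndependent_aut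
  have hcard : Fintype.card (F ≃+* F) = Module.finrank F (F →ₗ[ZMod 2] F) := by
    rw [Module.finrank_linearMap, Module.finrank_self, mul_one, ← Nat.card_eq_fintype_card,
      ← IsGalois.card_aut_eq_finrank (ZMod 2) F]
    refine Nat.card_congr
      { toFun := fun σ => AlgEquiv.ofRingEquiv (f := σ)
          (fun a => RingHom.congr_fun (RingHom.ext_zmod ((σ : F →+* F).comp (algebraMap (ZMod 2) F))
            (algebraMap (ZMod 2) F)) a)
        invFun := fun σ => σ.toRingEquiv
        left_inv := fun _ => rfl
        right_inv := fun _ => rfl }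
  haveI : Module.Finite F (F →ₗ[ZMod 2] F) :=
    Module.finite_of_finrank_pos (hcard ▸ Fintype.card_pos)
  have hspan := hli.span_eq_top_of_card_eq_finrank hcard
  have hmem : AddMonoidHom.toZModLinearMap 2 f ∈ Submodule.span F (Set.range v) :=
    hspan ▸ Submodule.mem_top
  obtain ⟨c, hc⟩ := (Submodule.mem_span_range_iff_exists_fun F).mp hmem
  refine ⟨c, fun x => ?_⟩
  have := LinearMap.congr_fun hc x
  simp only [LinearMap.coe_sum, Finset.sum_apply, LinearMap.smul_apply, smul_eq_mul] at this
  exact this.symm

theorem coeff_unique [Fintype (F ≃+* F)] {c d : (F ≃+* F) → F}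
    (h : ∀ x : F, ∑ σ, c σ * σ x = ∑ σ, d σ * σ x) : c = d := by
  funext σ
  have hli := linearIndependent_aut (F := F)
  rw [Fintype.linearIndependent_iff] at hli
  refine sub_eq_zero.mp (hli (fun τ => c τ - d τ) ?_ σ)
  funext x
  simp [sub_mul, Finset.sum_apply, h x]

theorem exists_bicoeff [Fintype (F ≃+* F)] (B : F →+ F →+ F) :
    ∃ c : (F ≃+* F) × (F ≃+* F) → F, ∀ x y : F, B x y = ∑ p, c p * (p.1 x * p.2 y) := by
  choose c hc using fun y => exists_coeff (B.flip y)
  have hadd : ∀ y z, c (y + z) = c y + c z := fun y z => coeff_unique fun x => by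
    rw [← hc]
    simp only [map_add, AddMonoidHom.add_apply, hc, Pi.add_apply, add_mul, Finset.sum_add_distrib]
  choose e he using fun σ : F ≃+* F => exists_coeff
    (AddMonoidHom.mk' (fun y => c y σ) (fun y z => congrFun (hadd y z) σ))
  refine ⟨fun p => e p.1 p.2, fun x y => ?_⟩
  rw [Fintype.sum_prod_type]
  refine (hc y x).trans (Finset.sum_congr rfl fun σ _ => ?_)
  have := he σ y
  simp only [AddMonoidHom.mk'_apply] at this
  rw [this, Finset.sum_mul]
  exact Finset.sum_congr rfl fun τ _ => by ring

theorem exists_quadratic [Fintype (F ≃+* F)] (q : F → F)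
    (hq : ∀ x y z : F,
      q (x + y + z) + q (x + y) + q (x + z) + q (y + z) + q x + q y + q z = 0) :
    ∃ c : (F ≃+* F) × (F ≃+* F) → F, ∀ x : F, q x = ∑ p, c p * (p.1 x * p.2 x) := by
  classical
  letI : Algebra (ZMod 2) F := ZMod.algebra F 2
  haveI := Fact.mk Nat.prime_two
  have h2 : (2 : F) = 0 := CharTwo.two_eq_zero
  have h0 : q 0 = 0 := by
    have := hq 0 0 0
    simp only [add_zero] at this
    linear_combination this - 3 * q 0 * h2
  let B : F → F → F := fun x y => q (x + y) + q x + q y
  have hBadd : ∀ x y z, B x (y + z) = B x y + B x z := fun x y z => by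
    simp only [B, ← add_assoc]
    linear_combination hq x y z - (q (x + y) + q (x + z) + q x + q y + q z) * h2
  have hBcomm : ∀ x y, B x y = B y x := fun x y => by simp only [B, add_comm y x]; ring
  have hBself : ∀ x, B x x = 0 := fun x => by
    simp only [B, CharTwo.add_self_eq_zero, h0, zero_add]
  let Bl : F →ₗ[ZMod 2] F →ₗ[ZMod 2] F :=
    AddMonoidHom.toZModLinearMap 2 (AddMonoidHom.mk'
      (fun x => AddMonoidHom.toZModLinearMap 2 (AddMonoidHom.mk' (B x) (hBadd x)))
      (fun x y => LinearMap.ext fun z => by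
        show B (x + y) z = B x z + B y z
        rw [hBcomm, hBadd, hBcomm z x, hBcomm z y]))
  let b := Module.finBasis (ZMod 2) F
  let M : _ → _ → F := fun i j => if i < j then B (b i) (b j) else if i = j then q (b i) else 0
  let B' : F →ₗ[ZMod 2] F →ₗ[ZMod 2] F :=
    b.constr (ZMod 2) (fun i => b.constr (ZMod 2) (fun j => M i j))
  have hB'b : ∀ i j, B' (b i) (b j) = M i j := fun i j => by
    simp only [B', Module.Basis.constr_basis]
  have hC : Bl + B' + B'.flip = 0 := by
    refine b.ext fun i => b.ext fun j => ?_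
    show B (b i) (b j) + B' (b i) (b j) + B' (b j) (b i) = (0 : F)
    rw [hB'b, hB'b]
    rcases lt_trichotomy i j with h | h | h
    · simp [M, h, h.not_gt, h.ne', CharTwo.add_self_eq_zero]
    · subst h
      simp [M, hBself, CharTwo.add_self_eq_zero]
    · simp [M, h, h.not_gt, h.ne', hBcomm (b i), CharTwo.add_self_eq_zero]
  have hd : ∀ x y, q (x + y) + B' (x + y) (x + y) = q x + B' x x + (q y + B' y y) := fun x y => by
    have h : B x y + B' x y + B' y x = 0 := LinearMap.congr_fun (LinearMap.congr_fun hC x) y
    simp only [B] at h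
    simp only [map_add, LinearMap.add_apply]
    linear_combination h - (q x + q y) * h2
  have hzero : AddMonoidHom.toZModLinearMap 2 (AddMonoidHom.mk' (fun x => q x + B' x x) hd) = 0 := by
    refine b.ext fun i => ?_
    show q (b i) + B' (b i) (b i) = 0
    simp [hB'b, M, CharTwo.add_self_eq_zero]
  obtain ⟨c, hc⟩ := exists_bicoeff
    (AddMonoidHom.mk' (fun x => (B' x).toAddMonoidHom) (fun x y => by ext z; simp))
  refine ⟨c, fun x => ?_⟩
  have h : q x + B' x x = 0 := LinearMap.congr_fun hzero x
  rw [CharTwo.add_eq_zero.mp h]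
  exact hc x x

end CfsgLib.AutSpan
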