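import Mathlib
import Cfsg.Agent.Lib.Involution

/-! Groups with a Klein four Sylow 2-subgroup. -/

namespace CfsgLib.KleinSylow

open CfsgLib.Involution

variable {G : Type*} [Group G] [Finite G]

/-- Conjugation by the normalizer either fixes a Klein four Sylow 2-subgroup pointwise or fuses all
involutions. -/
theorem dichotomy (P : Sylow 2 G) (hP : IsKleinFour (P : Subgroup G)) :
    (Subgroup.normalizer ((P : Subgroup G) : Set G) ≤ Subgroup.centralizer ((P : Subgroup G) : Set G) ∧
      ∀ x ∈ P, ∀ y ∈ P, IsConj x y → x = y) ∨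
    ∀ s t : G, orderOf s = 2 → orderOf t = 2 → IsConj s t := by
  classical
  haveI := hP
  haveI hcomm : IsMulCommutative (P : Subgroup G) :=
    ⟨⟨mul_comm_of_exponent_two IsKleinFour.exponent_two⟩⟩
  set N := Subgroup.normalizer ((P : Subgroup G) : Set G) with hN
  by_cases hfix : N ≤ Subgroup.centralizer ((P : Subgroup G) : Set G)
  · refine Or.inl ⟨hfix, fun x hx y hy hxy => ?_⟩
    obtain ⟨g, hg⟩ := isConj_iff.1 hxy.symm
    obtain ⟨n, hn, hn'⟩ := P.conj_eq_normalizer_conj_of_mem y g⁻¹ hy (by simpa [hg] using hx)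
    rw [inv_inv, hg] at hn'
    have := Subgroup.mem_centralizer_iff.1 (hfix hn) y hy
    rw [hn', mul_assoc, this, inv_mul_cancel_left]
  right
  obtain ⟨n, hn, hnC⟩ := SetLike.not_le_iff_exists.1 hfix
  rw [Subgroup.mem_centralizer_iff] at hnC
  push Not at hnC
  obtain ⟨a, ha, hna⟩ := hnC
  have haP : a ∈ (P : Subgroup G) := ha
  have hsq : ∀ x ∈ (P : Subgroup G), x * x = 1 := fun x hx =>
    congrArg Subtype.val (IsKleinFour.mul_self (⟨x, hx⟩ : (P : Subgroup G)))
  have hconjP : ∀ m ∈ N, ∀ x ∈ (P : Subgroup G), m * x * m⁻¹ ∈ (P : Subgroup G) := fun m hm x hx =>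
    (Subgroup.mem_normalizer_iff.1 hm x).1 hx
  have hab : ∀ x ∈ (P : Subgroup G), ∀ y ∈ (P : Subgroup G), x * y = y * x := fun x hx y hy =>
    congrArg Subtype.val (mul_comm' (⟨x, hx⟩ : (P : Subgroup G)) ⟨y, hy⟩)
  set b := n * a * n⁻¹ with hb
  have hbP : b ∈ (P : Subgroup G) := hconjP n hn a haP
  have ha1 : a ≠ 1 := fun h => hna (by rw [h, one_mul, mul_one])
  have hba : b ≠ a := fun h => hna (by
    rw [hb, mul_inv_eq_iff_eq_mul] at h
    exact h.symm)
  have hb1 : b ≠ 1 := fun h => ha1 (by rw [hb] at h; exact conj_eq_one_iff.1 h)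
  have hthird : ∀ x ∈ (P : Subgroup G), x = 1 ∨ x = a ∨ x = b ∨ x = a * b := by
    intro x hx
    by_contra h
    push Not at h
    have hc : (({1, a, b, a * b, x} : Finset G)).card = 5 := by
      have h1 : a * b ≠ 1 := fun e => hba (by
        rw [eq_inv_of_mul_eq_one_right e]; exact inv_eq_of_mul_eq_one_right (hsq a haP))
      have h2 : a * b ≠ a := fun e => hb1 (mul_eq_left.1 e)
      have h3 : a * b ≠ b := fun e => ha1 (mul_eq_right.1 e)
      simp [Finset.card_insert_of_notMem, ha1.symm, hb1.symm, hba.symm, h1.symm, h2.symm,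
        h3.symm, Ne.symm h.1, Ne.symm h.2.1, Ne.symm h.2.2.1, Ne.symm h.2.2.2]
    have hle : (({1, a, b, a * b, x} : Finset G) : Set G) ⊆ ((P : Subgroup G) : Set G) := by
      intro z hz
      simp only [Finset.coe_insert, Finset.coe_singleton, Set.mem_insert_iff, Set.mem_singleton_iff] at hz
      rcases hz with rfl | rfl | rfl | rfl | rfl
      exacts [one_mem _, haP, hbP, mul_mem haP hbP, hx]
    have h4 := Set.ncard_le_ncard hle (Set.toFinite _)
    rw [Set.ncard_coe_finset, hc, ← Nat.card_coe_set_eq] at h4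
    exact absurd h4 (by rw [show Nat.card ((P : Subgroup G) : Set G) = 4 from hP.card_four]; decide)
  have hc : n * b * n⁻¹ = a * b := by
    have hnb := hconjP n hn b hbP
    rcases hthird _ hnb with h | h | h | h
    · exact absurd (conj_eq_one_iff.1 h) hb1
    · exfalso
      -- `n` would swap `a` and `b`; so does a 2-element of the normalizer, which centralizes `P`
      obtain ⟨e, m, hm, hord⟩ := Nat.exists_eq_two_pow_mul_odd (orderOf_pos n).ne'
      have hsw : ∀ k : ℕ, n ^ (2 * k + 1) * a * (n ^ (2 * k + 1))⁻¹ = b := by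
        intro k
        induction k with
        | zero => simp [hb]
        | succ k ih =>
          rw [show 2 * (k + 1) + 1 = 2 + (2 * k + 1) by ring, pow_add,
            show n ^ 2 * n ^ (2 * k + 1) * a * (n ^ 2 * n ^ (2 * k + 1))⁻¹ =
              n * (n * (n ^ (2 * k + 1) * a * (n ^ (2 * k + 1))⁻¹) * n⁻¹) * n⁻¹ by group, ih, h, hb]
      have h2 : IsPGroup 2 (Subgroup.zpowers (n ^ m)) := by
        refine IsPGroup.of_card (n := e) ?_
        rw [Nat.card_zpowers, orderOf_pow_of_dvd hm.pos.ne' (hord ▸ dvd_mul_left _ _), hord,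
          Nat.mul_div_cancel _ hm.pos]
      have hle : Subgroup.zpowers (n ^ m) ≤ N := Subgroup.zpowers_le.2 (pow_mem hn m)
      have hsup := P.is_maximal' (h2.to_sup_of_normal_right' P.2 hle) le_sup_right
      have hnP : n ^ m ∈ (P : Subgroup G) :=
        hsup ▸ Subgroup.mem_sup_left (Subgroup.mem_zpowers _)
      obtain ⟨k, hk⟩ := hm
      have h5 := hsw k
      rw [← hk, hab _ hnP a haP, mul_inv_cancel_right] at h5
      exact hba h5.symm
    · exfalso
      have : b = a := by
        rw [hb] at h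
        have := mul_left_cancel (mul_right_cancel h)
        exact this
      exact hba this
    · exact h
  have hall : ∀ x ∈ (P : Subgroup G), x ≠ 1 → IsConj a x := by
    intro x hx hx1
    rcases hthird x hx with rfl | rfl | rfl | rfl
    · exact absurd rfl hx1
    · exact IsConj.refl _
    · exact isConj_iff.2 ⟨n, hb.symm⟩
    · exact (isConj_iff.2 ⟨n, hb.symm⟩ : IsConj a b).trans (isConj_iff.2 ⟨n, hc⟩)
  have hinv : ∀ s : G, orderOf s = 2 → IsConj a s := by
    intro s hs
    obtain ⟨Q, hsQ, -⟩ := exists_sylow_mem_pair hs hs (Commute.refl s)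
    obtain ⟨g, hg⟩ := MulAction.exists_smul_eq G Q P
    have hgP : g * s * g⁻¹ ∈ (P : Subgroup G) := by
      rw [← hg]
      exact Subgroup.mem_map_of_mem _ hsQ
    exact (hall _ hgP (ne_one (orderOf_conj' hs))).trans (isConj_iff.2 ⟨g, rfl⟩ : IsConj s _).symm
  exact fun s t hs ht => (hinv s hs).symm.trans (hinv t ht)

theorem card_classes (P : Sylow 2 G) (hP : IsKleinFour (P : Subgroup G)) :
    ((∀ s t : G, orderOf s = 2 → orderOf t = 2 → IsConj s t) →
      Nat.card {C : ConjClasses G // ∃ t : G, orderOf t = 2 ∧ ConjClasses.mk t = C} = 1) ∧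
    ((∀ x ∈ P, ∀ y ∈ P, IsConj x y → x = y) →
      Nat.card {C : ConjClasses G // ∃ t : G, orderOf t = 2 ∧ ConjClasses.mk t = C} = 3) := by
  classical
  haveI := hP
  have hord : ∀ x : {x : (P : Subgroup G) // x ≠ 1}, orderOf ((x.1 : (P : Subgroup G)) : G) = 2 :=
    fun x => orderOf_eq_two (congrArg Subtype.val (IsKleinFour.mul_self x.1))
      fun h => x.2 (Subtype.ext h)
  let f : {x : (P : Subgroup G) // x ≠ 1} →
      {C : ConjClasses G // ∃ t : G, orderOf t = 2 ∧ ConjClasses.mk t = C} :=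
    fun x => ⟨ConjClasses.mk ((x.1 : (P : Subgroup G)) : G), _, hord x, rfl⟩
  have hsurj : Function.Surjective f := by
    rintro ⟨_, t, ht, rfl⟩
    obtain ⟨Q, htQ, -⟩ := exists_sylow_mem_pair ht ht (Commute.refl t)
    obtain ⟨g, hg⟩ := MulAction.exists_smul_eq G Q P
    have hgP : g * t * g⁻¹ ∈ (P : Subgroup G) := by
      rw [← hg]
      exact Subgroup.mem_map_of_mem _ htQ
    exact ⟨⟨⟨_, hgP⟩, fun h => ne_one (orderOf_conj' ht) (congrArg Subtype.val h)⟩,
      Subtype.ext (ConjClasses.mk_eq_mk_iff_isConj.2 (isConj_iff.2 ⟨g, rfl⟩ : IsConj t _).symm)⟩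
  haveI := Fintype.ofFinite (P : Subgroup G)
  have h3 : Nat.card {x : (P : Subgroup G) // x ≠ 1} = 3 := by
    rw [Nat.card_eq_fintype_card, Fintype.card_subtype_compl, Fintype.card_subtype_eq,
      ← Nat.card_eq_fintype_card, IsKleinFour.card_four]
  refine ⟨fun hall => ?_, fun hfix => ?_⟩
  · rw [Nat.card_eq_one_iff_unique]
    refine ⟨⟨?_⟩, ?_⟩
    · rintro ⟨_, s, hs, rfl⟩ ⟨_, t, ht, rfl⟩
      exact Subtype.ext (ConjClasses.mk_eq_mk_iff_isConj.2 (hall s t hs ht))
    · obtain ⟨x⟩ := (Nat.card_pos_iff.1 (by rw [h3]; decide :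
        0 < Nat.card {x : (P : Subgroup G) // x ≠ 1})).1
      exact ⟨f x⟩
  · rw [← h3]
    refine (Nat.card_eq_of_bijective f ⟨fun x y h => ?_, hsurj⟩).symm
    exact Subtype.ext (Subtype.ext (hfix _ x.1.2 _ y.1.2
      (ConjClasses.mk_eq_mk_iff_isConj.1 (congrArg Subtype.val h))))

end CfsgLib.KleinSylow
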