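import Mathlib
import Cfsg.Prelude.Def_OddOrderLocal
import Cfsg.Agent.S0658
import Cfsg.Agent.Lib.CNGroup
import Cfsg.Agent.Lib.OddStable
import Cfsg.Agent.Lib.OddQuad
import Cfsg.Agent.Lib.GenFitting
import Cfsg.Agent.Lib.Core
import Cfsg.Agent.Lib.GroupB.ZJThompson
import Cfsg.Agent.Lib.GroupB.FpfPQ
import Cfsg.Agent.Lib.GroupB.Frobenius
import Cfsg.Agent.Lib.UniqueOrderP
import Cfsg.Agent.Lib.FocalTransfer
import Cfsg.Agent.Lib.Fusion.Group

/-! Maximal nilpotent subgroups of minimal simple CN-groups of odd order are TI (Feit–Hall–Thompson). -/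

set_option autoImplicit false

namespace CfsgLib.CNOdd

open CfsgLib.CNGroup CfsgLib.Fusion
open scoped Pointwise commutatorElement

universe u

variable {G : Type u} [Group G] [Finite G]

theorem isCyclic_of_fpf {p : ℕ} [Fact p.Prime] (hp2 : p ≠ 2) {Q K : Subgroup G} (hQ : IsPGroup p Q)
    (hK : K ≠ ⊥) (hQK : Q ≤ Subgroup.normalizer (K : Set G))
    (hfpf : ∀ a ∈ Q, a ≠ 1 → K ⊓ Subgroup.centralizer {a} = ⊥) : IsCyclic Q := by
  refine (CfsgLib.UniqueOrderP.cyclic_or_quaternion hQ fun x y hx hy => ?_).resolve_right fun h => hp2 h.1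
  haveI : Nontrivial Q := ⟨⟨x, 1, fun e => (Fact.out : p.Prime).ne_one (by rw [← hx, e, orderOf_one])⟩⟩
  haveI := hQ.center_nontrivial
  obtain ⟨z, hz⟩ : ∃ z : Subgroup.center Q, orderOf z = p := by
    obtain ⟨n, hn0, hn⟩ := (hQ.to_subgroup (Subgroup.center Q)).nontrivial_iff_card.mp inferInstance
    exact exists_prime_orderOf_dvd_card' p (hn ▸ dvd_pow_self p hn0.ne')
  have key : ∀ w : Q, orderOf w = p → Subgroup.zpowers w = Subgroup.zpowers (z : Q) := by
    intro w hw
    have hzw : ((z : Q) : G) * w = (w : G) * ((z : Q) : G) :=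
      congrArg Subtype.val (Subgroup.mem_center_iff.mp z.2 w).symm
    let B : Subgroup G := Subgroup.closure {((z : Q) : G), (w : G)}
    have hB : IsMulCommutative B := Subgroup.isMulCommutative_closure (by
      intro a ha b hb
      simp only [Set.mem_insert_iff, Set.mem_singleton_iff] at ha hb
      rcases ha with rfl | rfl <;> rcases hb with rfl | rfl <;> first | rfl | exact hzw | exact hzw.symm)
    have hBQ : B ≤ Q := (Subgroup.closure_le _).2 (by
      intro a ha
      simp only [Set.mem_insert_iff, Set.mem_singleton_iff] at ha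
      rcases ha with rfl | rfl <;> exact SetLike.coe_mem _)
    haveI := CfsgLib.Solvable.Fpf.isCyclic hB hK (hBQ.trans hQK) (fun a ha => hfpf a (hBQ ha))
    have hzB : ((z : Q) : G) ∈ B := Subgroup.subset_closure (Set.mem_insert _ _)
    have hwB : (w : G) ∈ B := Subgroup.subset_closure (Set.mem_insert_of_mem _ rfl)
    have hzo : orderOf (⟨_, hzB⟩ : B) = p := by rw [Subgroup.orderOf_mk, Subgroup.orderOf_coe, Subgroup.orderOf_coe, hz]
    have hwo : orderOf (⟨_, hwB⟩ : B) = p := by rw [Subgroup.orderOf_mk, Subgroup.orderOf_coe, hw]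
    refine Subgroup.eq_of_le_of_card_ge ?_ (by rw [Nat.card_zpowers, Nat.card_zpowers, hw, Subgroup.orderOf_coe, hz])
    rw [Subgroup.zpowers_le]
    obtain ⟨i, hi⟩ := Subgroup.mem_zpowers_iff.mp (CfsgLib.UniqueOrderP.uniq_of_cyclic (G := B) (p := p) _ _ hzo hwo)
    exact Subgroup.mem_zpowers_iff.mpr ⟨i, Subtype.ext (by simpa using congrArg Subtype.val hi)⟩
  rw [key x hx, ← key y hy]
  exact Subgroup.mem_zpowers y

theorem not_isNilpotent (hG : Cfsg.IsMinSimpleOddOrder G) : ¬ Group.IsNilpotent G := by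
  intro hn
  haveI := hG.2.1
  rcases (inferInstance : (Subgroup.center G).Normal).eq_bot_or_eq_top with h | h
  · haveI := hn
    exact Group.IsNilpotent.center_ne_bot (G := G) h
  · exact hG.2.2.1 ⟨⟨fun a b => Subgroup.mem_center_iff.1 (h ▸ Subgroup.mem_top b) a⟩⟩

theorem ne_top (hG : Cfsg.IsMinSimpleOddOrder G) {H : Subgroup G} (hH : Group.IsNilpotent H) : H ≠ ⊤ := by
  rintro rfl
  haveI := hH
  exact not_isNilpotent hG (Group.nilpotent_of_mulEquiv (G := (⊤ : Subgroup G)) Subgroup.topEquiv)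

theorem maxNilp_ne_bot (hG : Cfsg.IsMinSimpleOddOrder G) {H : Subgroup G} (hH : IsMaxNilp H) : H ≠ ⊥ := by
  rintro rfl
  haveI := hG.2.1
  obtain ⟨x, hx⟩ := exists_ne (1 : G)
  have := hH.2 (Subgroup.zpowers x) (by
    letI : CommGroup (Subgroup.zpowers x) := IsMulCommutative.instCommGroup
    exact CommGroup.isNilpotent) bot_le
  exact hx (Subgroup.mem_bot.1 (this ▸ Subgroup.mem_zpowers x))

/-- Proper normalisers of nontrivial proper subgroups. -/
theorem normalizer_ne_top (hG : Cfsg.IsMinSimpleOddOrder G) {H : Subgroup G} (h1 : H ≠ ⊥) (h2 : H ≠ ⊤) :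
    Subgroup.normalizer (H : Set G) ≠ ⊤ := fun h => by
  haveI := hG.2.1
  rcases (Subgroup.normalizer_eq_top_iff.1 h).eq_bot_or_eq_top with e | e
  · exact h1 e
  · exact h2 e

/-- Centralisers in a maximal nilpotent `p`-subgroup are `p`-groups. -/
theorem isPGroup_centralizer (hCN : Cfsg.IsCNGroup G) {p : ℕ} [Fact p.Prime] {H : Subgroup G}
    (hH : IsMaxNilp H) (hHp : IsPGroup p H) {x : G} (hx : x ∈ H) (hx1 : x ≠ 1) :
    IsPGroup p (Subgroup.centralizer ({x} : Set G)) := by
  haveI : Nontrivial H := ⟨⟨⟨x, hx⟩, 1, fun e => hx1 (congrArg Subtype.val e)⟩⟩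
  obtain ⟨n, hn0, hn⟩ := hHp.nontrivial_iff_card.mp inferInstance
  obtain ⟨z, hzH, hzo, hzc⟩ := exists_central hH.1 (Fact.out : p.Prime) (hn ▸ dvd_pow_self p hn0.ne')
  have hz1 : z ≠ 1 := fun e => (Fact.out : p.Prime).ne_one (by rw [← hzo, e, orderOf_one])
  set C := Subgroup.centralizer ({x} : Set G) with hC
  refine IsPGroup.of_card (n := (Nat.card C).primeFactorsList.length)
    (Nat.eq_prime_pow_of_unique_prime_dvd Nat.card_pos.ne' fun {r} hr hrC => ?_)
  by_contra hrp
  haveI := Fact.mk hr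
  obtain ⟨c, hc⟩ := exists_prime_orderOf_dvd_card' (G := C) r hrC
  have hzC : z ∈ C := Subgroup.mem_centralizer_singleton_iff.2 (hzc x hx).symm
  have h1 : (c : G) * z = z * (c : G) := commute_of_coprime (hCN x hx1) c.2 hzC (by
    rw [Subgroup.orderOf_coe, hc, hzo]
    exact (Nat.coprime_primes hr (Fact.out : p.Prime)).2 hrp)
  have h2 : (c : G) ∈ H := centralizer_eq hCN hH hz1 hzc ▸ Subgroup.mem_centralizer_singleton_iff.2 h1
  obtain ⟨j, hj⟩ := IsPGroup.iff_orderOf.1 hHp ⟨c, h2⟩
  rw [Subgroup.orderOf_mk, Subgroup.orderOf_coe, hc] at hj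
  exact hrp ((Nat.prime_dvd_prime_iff_eq hr (Fact.out : p.Prime)).1 (hr.dvd_of_dvd_pow hj.dvd))

open CfsgLib.ThompsonNPC CfsgLib.Glauberman in
/-- A Sylow subgroup which is a maximal nilpotent subgroup is a TI subgroup. -/
theorem sylow_ti (hG : Cfsg.IsMinSimpleOddOrder G) (hCN : Cfsg.IsCNGroup G) {p : ℕ} [Fact p.Prime]
    (P : Sylow p G) (hP : IsMaxNilp (P : Subgroup G)) (g : G)
    (hg : (P : Subgroup G).map (MulAut.conj g).toMonoidHom ≠ P) :
    (P : Subgroup G) ⊓ (P : Subgroup G).map (MulAut.conj g).toMonoidHom = ⊥ := by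
  have hP1 : (P : Subgroup G) ≠ ⊥ := maxNilp_ne_bot hG hP
  have hPtop : (P : Subgroup G) ≠ ⊤ := ne_top hG hP.1
  have hpd : p ∣ Nat.card G := by
    haveI := (Subgroup.nontrivial_iff_ne_bot _).2 hP1
    obtain ⟨n, hn0, hn⟩ := P.2.nontrivial_iff_card.mp inferInstance
    exact (hn ▸ dvd_pow_self p hn0.ne' : p ∣ Nat.card (P : Subgroup G)).trans (Subgroup.card_subgroup_dvd_card _)
  have hp2 : p ≠ 2 := fun h => Nat.not_even_iff_odd.2 hG.1 (even_iff_two_dvd.2 (h ▸ hpd))
  have hC := fun x (hx : x ∈ (P : Subgroup G)) hx1 => isPGroup_centralizer hCN hP P.2 hx hx1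
  have hΦle : ∀ T : Subgroup G, Z (J p T) ≤ T := fun T => (Z_le _).trans (J_le p _)
  have hΦne : ∀ T : Subgroup G, IsPGroup p T → T ≠ ⊥ → Z (J p T) ≠ ⊥ := fun T hT h1 =>
    Z_ne_bot (hT.to_le (J_le p T)) (J_ne_bot dvd_rfl hT h1)
  have hΦnorm : ∀ T : Subgroup G,
      Subgroup.normalizer (T : Set G) ≤ Subgroup.normalizer (Z (J p T) : Set G) := fun T =>
    (normalizer_le_normalizer_J p T).trans (normalizer_le_normalizer_Z _)
  -- all local subgroups are controlled by the normaliser of the centre of the Thompson subgroup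
  have hNQ : ∀ Q : Subgroup G, Q ≤ (P : Subgroup G) → Q ≠ ⊥ →
      Subgroup.normalizer (Q : Set G) ≤ Subgroup.normalizer (Z (J p (P : Subgroup G)) : Set G) := by
    intro Q hQ hQ1
    refine Cfsg.Agent.S0658.normalizer_le P (fun T => Z (J p T)) hΦle hΦne hΦnorm ?_ _ Q hQ hQ1 rfl
    intro X hX hX1 hi
    let M := Subgroup.normalizer (X : Set G)
    have hMtop : M ≠ ⊤ := normalizer_ne_top hG hX1 fun e => hPtop (top_le_iff.1 (e ▸ hX))
    haveI : Group.IsSolvable M := hG.2.2.2 M hMtop
    have hO : Cfsg.pPrimeCore p M = ⊥ := by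
      rw [Subgroup.eq_bot_iff_forall]
      intro c hc
      by_contra hc1
      obtain ⟨x, hx, hx1⟩ := X.bot_or_exists_ne_one.resolve_left hX1
      haveI : (X.subgroupOf M).Normal := Subgroup.normal_in_normalizer
      have hdisj : Disjoint (Cfsg.pPrimeCore p M) (X.subgroupOf M) := by
        obtain ⟨n, hn⟩ := ((P.2.to_le hX).comap_subtype (K := M)).exists_card_eq
        refine disjoint_iff.2 (Subgroup.inf_eq_bot_of_coprime ?_)
        rw [show Nat.card (X.subgroupOf M) = p ^ n from hn]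
        exact (CfsgLib.Core.card_pPrimeCore_coprime p).pow_right n
      have h1 := Subgroup.commute_of_normal_of_disjoint _ _ inferInstance inferInstance hdisj c
        ⟨x, Subgroup.le_normalizer hx⟩ hc hx
      obtain ⟨j, hj⟩ := IsPGroup.iff_orderOf.1 (hC x (hX hx) hx1)
        ⟨c, Subgroup.mem_centralizer_singleton_iff.2 (congrArg Subtype.val h1.eq)⟩
      rw [Subgroup.orderOf_mk, Subgroup.orderOf_coe] at hj
      refine hc1 (orderOf_eq_one_iff.1 (Nat.eq_one_of_dvd_coprimes
        ((CfsgLib.Core.card_pPrimeCore_coprime (G := M) p).pow_right j) ?_ hj.dvd))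
      have h2 := orderOf_dvd_natCard (⟨c, hc⟩ : ↥(Cfsg.pPrimeCore p M))
      rwa [Subgroup.orderOf_mk] at h2
    have hodd : Odd (Nat.card M) := hG.1.of_dvd_nat (Subgroup.card_subgroup_dvd_card M)
    have hT : IsPGroup p ↥((P : Subgroup G) ⊓ M) := P.2.to_le inf_le_left
    obtain ⟨Ts, hTs⟩ := (exists_sylow_iff (p := p) (inf_le_right : (P : Subgroup G) ⊓ M ≤ M)).mpr ⟨hT, hi⟩
    have hn := CfsgLib.GroupB.ZJThompson.normal_of_stable hp2 Ts (CfsgLib.OddStable.stable hp2 hodd)
      (CfsgLib.OddQuad.centralizer_pCore_le hO)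
    intro m hm
    show m ∈ Subgroup.normalizer (Z (J p ((P : Subgroup G) ⊓ M)) : Set G)
    rw [show Z (J p ((P : Subgroup G) ⊓ M)) = (Z (J p (Ts : Subgroup M))).map M.subtype by
      rw [Z_map (injOn_of_injective M.subtype_injective _), J_map p (injOn_of_injective M.subtype_injective _),
        hTs, Subgroup.map_subgroupOf_eq_of_le inf_le_right]]
    refine Subgroup.mem_normalizer_fintype ?_
    rintro _ ⟨z, hz, rfl⟩
    exact ⟨⟨m, hm⟩ * z * ⟨m, hm⟩⁻¹, hn.conj_mem z hz ⟨m, hm⟩, rfl⟩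
  set N := Subgroup.normalizer (Z (J p (P : Subgroup G)) : Set G) with hN
  have hPnN : Subgroup.normalizer ((P : Subgroup G) : Set G) ≤ N := hΦnorm _
  have hPN : (P : Subgroup G) ≤ N := Subgroup.le_normalizer.trans hPnN
  have hPi : ¬ p ∣ (P : Subgroup G).relIndex N := fun hd =>
    P.not_dvd_index (hd.trans (Dvd.intro _ (Subgroup.relIndex_mul_index hPN)))
  -- every Sylow subgroup meeting `P` lies in `N`
  have hR : ∀ (k : ℕ) (R : Subgroup G), IsPGroup p R → Nat.card R = Nat.card (P : Subgroup G) →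
      (P : Subgroup G) ⊓ R ≠ ⊥ → Nat.card (P : Subgroup G) - Nat.card ↥((P : Subgroup G) ⊓ R) = k → R ≤ N := by
    intro k
    induction k using Nat.strong_induction_on with
    | _ k ih =>
    intro R hRp hRc hne hk
    by_cases hDP : (P : Subgroup G) ⊓ R = R
    · exact (inf_eq_right.1 hDP).trans hPN
    have hlt : (P : Subgroup G) ⊓ R < R := lt_of_le_of_ne inf_le_right hDP
    have hU := lt_normalizerIn p hRp hlt
    have hUN : Cfsg.FusionSystem.normalizerIn R ((P : Subgroup G) ⊓ R) ≤ N :=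
      inf_le_right.trans (hNQ _ inf_le_left hne)
    obtain ⟨h, hh, hle⟩ := exists_conj_le (X := (P : Subgroup G)) (H := N) P.2 hPi
      (hRp.to_le (inf_le_left : Cfsg.FusionSystem.normalizerIn R ((P : Subgroup G) ⊓ R) ≤ R)) hUN
    have hlt2 : Nat.card ↥((P : Subgroup G) ⊓ R) < Nat.card ↥((P : Subgroup G) ⊓ cj h R) := by
      refine lt_of_lt_of_le (Set.Finite.card_lt_card (Set.toFinite _) hU) ?_
      change Nat.card ↥(Cfsg.FusionSystem.normalizerIn R ((P : Subgroup G) ⊓ R)) ≤ _
      rw [← card_cj h (Cfsg.FusionSystem.normalizerIn R ((P : Subgroup G) ⊓ R))]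
      exact Subgroup.card_le_of_le (le_inf hle (cj_mono h inf_le_left))
    have hle2 : Nat.card ↥((P : Subgroup G) ⊓ cj h R) ≤ Nat.card (P : Subgroup G) := Subgroup.card_le_of_le inf_le_left
    have hne2 : (P : Subgroup G) ⊓ cj h R ≠ ⊥ := fun e => by
      rw [e, Subgroup.card_bot] at hlt2
      have := Nat.card_pos (α := ↥((P : Subgroup G) ⊓ R))
      omega
    have hRN := ih _ (by omega) (cj h R) (hRp.map _) ((card_cj h R).trans hRc) hne2 rfl
    intro r hr
    have h1 : h * r * h⁻¹ ∈ N := hRN ⟨r, hr, rfl⟩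
    have h2 := N.mul_mem (N.mul_mem (N.inv_mem hh) h1) hh
    simpa [mul_assoc] using h2
  -- conjugations between nontrivial elements of `P` happen in `N`
  have hstr : ∀ x ∈ (P : Subgroup G), x ≠ 1 → ∀ g : G, g * x * g⁻¹ ∈ (P : Subgroup G) → g ∈ N := by
    intro x hx hx1 g hgx
    have hne : (P : Subgroup G) ⊓ cj g (P : Subgroup G) ≠ ⊥ := fun e => hx1 (by
      have : g * x * g⁻¹ ∈ (P : Subgroup G) ⊓ cj g (P : Subgroup G) := ⟨hgx, x, hx, rfl⟩
      rw [e, Subgroup.mem_bot] at this
      calc x = g⁻¹ * (g * x * g⁻¹) * g := by group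
        _ = 1 := by rw [this]; group)
    have hRN := hR _ _ (P.2.map _) (card_cj g _) hne rfl
    obtain ⟨n, hn, hle⟩ := exists_conj_le (X := (P : Subgroup G)) (H := N) P.2 hPi (P.2.map _) hRN
    have heq : cj (n * g) (P : Subgroup G) = P := Subgroup.eq_of_le_of_card_ge
      (cj_le_iff.2 fun y hy => by
        have := cj_le_iff.1 hle (g * y * g⁻¹) ⟨y, hy, rfl⟩
        simpa [mul_assoc, mul_inv_rev] using this) (le_of_eq (card_cj _ _).symm)
    have h3 : n * g ∈ N := hPnN (Subgroup.mem_normalizer_iff_map_conj_eq.2 heq)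
    have h4 := N.mul_mem (N.inv_mem hn) h3
    rwa [inv_mul_cancel_left] at h4
  by_cases hnorm : N ≤ Subgroup.normalizer ((P : Subgroup G) : Set G)
  · rw [eq_bot_iff]
    rintro w ⟨hw, v, hv, rfl⟩
    rw [Subgroup.mem_bot]
    by_contra hw1
    exact hg (Subgroup.mem_normalizer_iff_map_conj_eq.1
      (hnorm (hstr v hv (fun e => hw1 (by rw [e, map_one])) g hw)))
  exfalso
  have hNtop : N ≠ ⊤ :=
    normalizer_ne_top hG (hΦne _ P.2 hP1) fun e => hPtop (top_le_iff.1 (e ▸ hΦle _))
  haveI hNs : Group.IsSolvable N := hG.2.2.2 N hNtop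
  haveI := hG.2.1
  have hcomm : commutator G = ⊤ := by
    rcases (inferInstance : (commutator G).Normal).eq_bot_or_eq_top with h | h
    · exfalso
      refine hG.2.2.1 ⟨⟨fun a b => commutatorElement_eq_one_iff_mul_comm.1 (Subgroup.mem_bot.1 ?_)⟩⟩
      rw [← h, commutator_def]
      exact Subgroup.commutator_mem_commutator (Subgroup.mem_top a) (Subgroup.mem_top b)
    · exact h
  have hPN' : (P : Subgroup G) ≤ ⁅N, N⁆ := by
    have h1 : Subgroup.focalSubgroup (P : Subgroup G) ≤ ⁅(P : Subgroup G), N⁆ := by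
      refine CfsgLib.FocalTransfer.focal_le_commutator_of_control fun x hx g hgx => ?_
      by_cases hx1 : x = 1
      · exact ⟨1, one_mem _, by simp [hx1]⟩
      · exact ⟨g, hstr x hx hx1 g hgx, rfl⟩
    calc (P : Subgroup G) = commutator G ⊓ (P : Subgroup G) := by rw [hcomm, top_inf_eq]
      _ ≤ ⁅(P : Subgroup G), N⁆ := by rw [Subgroup.commutator_inf_eq_focalSubgroup P]; exact h1
      _ ≤ ⁅N, N⁆ := Subgroup.commutator_mono hPN le_rfl
  let PN : Sylow p N := P.subtype hPN
  set K := Cfsg.pCore p N with hK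
  set f := QuotientGroup.mk' K with hf
  set F := Cfsg.fittingSubgroup (N ⧸ K) with hF
  haveI : Group.IsSolvable (N ⧸ K) := Group.isSolvable_of_surjective (QuotientGroup.mk'_surjective K)
  haveI : Group.IsNilpotent F := CfsgLib.Core.isNilpotent_fittingSubgroup
  haveI : F.Normal := CfsgLib.Core.fittingSubgroup_normal
  have hFp : ¬ p ∣ Nat.card F := by
    intro hd
    obtain ⟨S⟩ : Nonempty (Sylow p F) := inferInstance
    have h1 : (S : Subgroup F).map F.subtype ≤ ⊥ := by
      rw [← CfsgLib.Core.pCore_quotient_eq_bot (G := N) p]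
      refine le_trans ?_ (CfsgLib.Core.pCore_subgroup_map_le p F)
      haveI : (S : Subgroup F).Normal := sylow_normal inferInstance S
      exact Subgroup.map_mono (CfsgLib.Core.le_pCore inferInstance S.2)
    have h2 : Nat.card (S : Subgroup F) = 1 := by
      rw [← Subgroup.card_map_of_injective F.subtype_injective]
      exact Subgroup.card_eq_one.2 (le_bot_iff.1 h1)
    refine S.not_dvd_index ?_
    have h3 := Subgroup.card_mul_index (S : Subgroup F)
    rw [h2, one_mul] at h3
    rw [h3]; exact hd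
  haveI : IsZGroup F := by
    refine ⟨fun q hq S => ?_⟩
    haveI := Fact.mk hq
    by_cases hqp : q = p
    · subst hqp
      haveI : Subsingleton S := by
        rw [← Finite.card_le_one_iff_subsingleton]
        obtain ⟨n, hn⟩ := S.2.exists_card_eq
        rcases n.eq_zero_or_pos with rfl | hn0
        · exact le_of_eq (by simpa using hn)
        · exact absurd ((hn ▸ dvd_pow_self q hn0.ne' : q ∣ Nat.card (S : Subgroup F)).trans
            (Subgroup.card_subgroup_dvd_card _)) hFp
      infer_instance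
    by_cases hq2 : q = 2
    · haveI : Subsingleton S := by
        rw [← Finite.card_le_one_iff_subsingleton]
        obtain ⟨n, hn⟩ := S.2.exists_card_eq
        rcases n.eq_zero_or_pos with rfl | hn0
        · exact le_of_eq (by simpa using hn)
        · refine absurd hG.1 (Nat.not_odd_iff_even.2 (even_iff_two_dvd.2 ?_))
          have h2 : q ∣ Nat.card (S : Subgroup F) := hn ▸ dvd_pow_self q hn0.ne'
          have h3 : Nat.card (S : Subgroup F) ∣ Nat.card G :=
            (((Subgroup.card_subgroup_dvd_card _).trans (Subgroup.card_subgroup_dvd_card F)).trans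
              (Subgroup.card_quotient_dvd_card K)).trans (Subgroup.card_subgroup_dvd_card N)
          exact hq2 ▸ h2.trans h3
      infer_instance
    let W := F.comap f
    let fW : W →* F := (f.comp W.subtype).codRestrict F fun w => w.2
    have hfW : Function.Surjective fW := by
      intro y
      obtain ⟨w, hw⟩ := QuotientGroup.mk'_surjective K y.1
      exact ⟨⟨w, show f w ∈ F by rw [hf, hw]; exact y.2⟩, Subtype.ext hw⟩
    obtain ⟨S0⟩ : Nonempty (Sylow q W) := inferInstance
    let ι : W →* G := N.subtype.comp W.subtype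
    have hι : Function.Injective ι := N.subtype_injective.comp W.subtype_injective
    obtain ⟨x, hx, hx1⟩ := (P : Subgroup G).bot_or_exists_ne_one.resolve_left hP1
    have hKP : K ≤ (PN : Subgroup N) := CfsgLib.Core.pCore_le_sylow PN
    have hK1 : K.map N.subtype ≠ ⊥ := by
      intro e
      refine hΦne _ P.2 hP1 (le_bot_iff.1 (e ▸ ?_))
      intro z hz
      refine ⟨⟨z, Subgroup.le_normalizer hz⟩, ?_, rfl⟩
      have hn : ((Z (J p (P : Subgroup G))).subgroupOf N).Normal := Subgroup.normal_in_normalizer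
      exact CfsgLib.Core.le_pCore hn ((P.2.to_le (hΦle _)).comap_subtype) hz
    haveI : IsCyclic ↥((S0 : Subgroup W).map ι) := by
      refine isCyclic_of_fpf hq2 (S0.2.map ι) hK1 ?_ ?_
      · rintro _ ⟨w, -, rfl⟩
        refine Subgroup.mem_normalizer_fintype ?_
        rintro _ ⟨k, hk, rfl⟩
        exact ⟨(w : N) * k * (w : N)⁻¹, (Cfsg.pCore_normal p _).conj_mem k hk w, rfl⟩
      · rintro a ⟨w, hw, rfl⟩ ha1
        rw [Subgroup.eq_bot_iff_forall]
        rintro v ⟨⟨k, hk, rfl⟩, hvc⟩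
        by_contra hv1
        have hvP : N.subtype k ∈ (P : Subgroup G) := hKP hk
        obtain ⟨j, hj⟩ := IsPGroup.iff_orderOf.1 (hC _ hvP hv1) ⟨ι w, Subgroup.mem_centralizer_singleton_iff.2
          (Subgroup.mem_centralizer_singleton_iff.1 hvc).symm⟩
        obtain ⟨i, hi⟩ := IsPGroup.iff_orderOf.1 S0.2 ⟨w, hw⟩
        rw [Subgroup.orderOf_mk, orderOf_injective ι hι] at hj
        rw [Subgroup.orderOf_mk] at hi
        exact ha1 (orderOf_eq_one_iff.1 (by
          rw [orderOf_injective ι hι]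
          exact Nat.eq_one_of_dvd_coprimes (((Nat.coprime_primes hq (Fact.out : p.Prime)).2 hqp).pow i j)
            hi.dvd hj.dvd))
    haveI : IsCyclic ↥(S0 : Subgroup W) :=
      isCyclic_of_surjective ((S0 : Subgroup W).equivMapOfInjective ι hι).symm (MulEquiv.surjective _)
    haveI : IsCyclic ↥((S0 : Subgroup W).map fW) :=
      isCyclic_of_surjective (fW.subgroupMap (S0 : Subgroup W)) (fW.subgroupMap_surjective _)
    haveI : IsCyclic ↥((S0.mapSurjective hfW : Sylow q F) : Subgroup F) := by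
      rw [Sylow.coe_mapSurjective]; infer_instance
    exact isCyclic_of_surjective ((S0.mapSurjective hfW).equiv S) (MulEquiv.surjective _)
  have hFc : commutator (N ⧸ K) ≤ F := by
    rw [commutator_def, Subgroup.commutator_le]
    intro a _ b _
    refine CfsgLib.GenFitting.solvableRadical_inf_centralizer_le
      ⟨(le_sSup (⟨inferInstance, inferInstance⟩ : (⊤ : Subgroup (N ⧸ K)).Normal ∧ Group.IsSolvable ↥(⊤ : Subgroup (N ⧸ K))) :
        ⊤ ≤ Cfsg.solvableRadical (N ⧸ K)) (Subgroup.mem_top _), ?_⟩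
    show ⁅a, b⁆ ∈ Subgroup.centralizer (F : Set (N ⧸ K))
    rw [Subgroup.mem_centralizer_iff]
    intro y hy
    have h1 : MulAut.conjNormal (H := F) ⁅a, b⁆ = 1 := by
      refine (IsCyclic.mulAutMulEquiv F).injective ?_
      rw [map_one, map_commutatorElement, map_commutatorElement, commutatorElement_eq_one_iff_mul_comm]
      exact mul_comm _ _
    have h2 := congrArg Subtype.val (DFunLike.congr_fun h1 (⟨y, hy⟩ : F))
    rw [MulAut.conjNormal_apply] at h2
    simp only [MulAut.one_apply] at h2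
    exact (mul_inv_eq_iff_eq_mul.1 h2).symm
  have hPf : (PN : Subgroup N).map f ≤ F := by
    refine le_trans ?_ hFc
    refine le_trans (Subgroup.map_mono (?_ : (PN : Subgroup N) ≤ commutator N)) ?_
    · intro y hy
      have h1 : (y : G) ∈ ⁅N, N⁆ := hPN' hy
      rw [← Subgroup.map_subtype_commutator] at h1
      obtain ⟨y', hy', he⟩ := h1
      rwa [Subtype.ext he] at hy'
    · rw [commutator_def, commutator_def, Subgroup.map_commutator]
      exact Subgroup.commutator_mono le_top le_top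
  have hPK : (PN : Subgroup N) ≤ K := by
    intro y hy
    rw [← QuotientGroup.eq_one_iff, ← orderOf_eq_one_iff]
    obtain ⟨i, hi⟩ := IsPGroup.iff_orderOf.1 (PN.2.map f) ⟨f y, Subgroup.mem_map_of_mem f hy⟩
    rw [Subgroup.orderOf_mk] at hi
    refine Nat.eq_one_of_dvd_coprimes (((Fact.out : p.Prime).coprime_iff_not_dvd.2 hFp).pow_left i) hi.dvd ?_
    have := orderOf_dvd_natCard (⟨f y, hPf (Subgroup.mem_map_of_mem f hy)⟩ : F)
    rwa [Subgroup.orderOf_mk] at this
  apply hnorm
  intro m hm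
  refine Subgroup.mem_normalizer_fintype fun x hx => ?_
  have h1 := CfsgLib.Core.pCore_le_sylow PN
    ((Cfsg.pCore_normal p _).conj_mem (⟨x, hPN hx⟩ : N) (hPK hx) ⟨m, hm⟩)
  exact h1

end CfsgLib.CNOdd
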