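import Mathlib
import Cfsg.Agent.Lib.CNOdd

/-! Maximal subgroups of minimal simple CN-groups of odd order. -/

set_option autoImplicit false

namespace CfsgLib.CNOdd

open CfsgLib.CNGroup
open scoped Pointwise commutatorElement

universe u

variable {G : Type u} [Group G] [Finite G]

theorem ti (hG : Cfsg.IsMinSimpleOddOrder G) (hCN : Cfsg.IsCNGroup G) {H : Subgroup G} (hH : IsMaxNilp H)
    (g : G) (hg : H.map (MulAut.conj g).toMonoidHom ≠ H) : H ⊓ H.map (MulAut.conj g).toMonoidHom = ⊥ := by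
  have h1 : Nat.card H ≠ 1 := fun h => maxNilp_ne_bot hG hH (Subgroup.card_eq_one.1 h)
  by_cases hpp : IsPrimePow (Nat.card H)
  · obtain ⟨p, k, hp, hk, he⟩ := (isPrimePow_nat_iff _).1 hpp
    haveI := Fact.mk hp
    have hHp : IsPGroup p H := IsPGroup.of_card he.symm
    have hi : ¬ p ∣ H.index := fun h => hp.not_dvd_one
      ((coprime_index hCN hH).gcd_eq_one ▸ Nat.dvd_gcd (he ▸ dvd_pow_self p hk.ne') h)
    exact sylow_ti hG hCN (hHp.toSylow hi) hH g hg
  · exact inf_conj_eq_bot hCN hH hpp h1 g hg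

theorem centralizer_le' (hG : Cfsg.IsMinSimpleOddOrder G) (hCN : Cfsg.IsCNGroup G) {H : Subgroup G}
    (hH : IsMaxNilp H) {x : G} (hx : x ∈ H) (hx1 : x ≠ 1) : Subgroup.centralizer ({x} : Set G) ≤ H :=
  centralizer_le_of_ti hCN hH (ti hG hCN hH) hx hx1

/-- Two maximal nilpotent subgroups with a common nontrivial element are equal. -/
theorem eq_of_common (hG : Cfsg.IsMinSimpleOddOrder G) (hCN : Cfsg.IsCNGroup G) {H H' : Subgroup G}
    (hH : IsMaxNilp H) (hH' : IsMaxNilp H') {x : G} (hx : x ∈ H) (hx' : x ∈ H') (hx1 : x ≠ 1) : H = H' := by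
  obtain ⟨q, hq, hqH⟩ := Nat.exists_prime_and_dvd fun h => maxNilp_ne_bot hG hH' (Subgroup.card_eq_one.1 h)
  obtain ⟨z, hzH', hzo, hzc⟩ := exists_central hH'.1 hq hqH
  have hz1 : z ≠ 1 := fun e => hq.ne_one (by rw [← hzo, e, orderOf_one])
  have hzH : z ∈ H := centralizer_le' hG hCN hH hx hx1 (Subgroup.mem_centralizer_singleton_iff.2 (hzc x hx').symm)
  exact hH'.2 H hH.1 (centralizer_eq hCN hH' hz1 hzc ▸ centralizer_le' hG hCN hH hzH hz1)

theorem isMaxNilp_map {H : Subgroup G} (hH : IsMaxNilp H) (g : G) :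
    IsMaxNilp (H.map (MulAut.conj g).toMonoidHom) := by
  refine ⟨CfsgLib.CNQuotient.isNilpotent_map _ hH.1, fun L hL hle => ?_⟩
  have h1 := hH.2 (L.map (MulAut.conj g⁻¹).toMonoidHom) (CfsgLib.CNQuotient.isNilpotent_map _ hL)
    (fun x hx => ⟨g * x * g⁻¹, hle ⟨x, hx, rfl⟩, by simp [mul_assoc]⟩)
  refine le_antisymm (fun y hy => ?_) hle
  exact ⟨g⁻¹ * y * g, h1 ▸ ⟨y, hy, by simp⟩, by simp [mul_assoc]⟩

theorem exists_conj_common (hCN : Cfsg.IsCNGroup G) {H H' : Subgroup G} (hH : IsMaxNilp H)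
    {r : ℕ} (hr : r.Prime) (hrH : r ∣ Nat.card H) (hrH' : r ∣ Nat.card H') :
    ∃ g : G, ∃ x ∈ H, x ≠ 1 ∧ x ∈ H'.map (MulAut.conj g).toMonoidHom := by
  haveI := Fact.mk hr
  obtain ⟨S⟩ : Nonempty (Sylow r H) := inferInstance
  have hi : ¬ r ∣ ((S : Subgroup H).map H.subtype).index := by
    rw [Subgroup.index_map_subtype]
    intro h
    rcases (Nat.Prime.dvd_mul hr).1 h with h | h
    · exact S.not_dvd_index h
    · exact hr.not_dvd_one ((coprime_index hCN hH).gcd_eq_one ▸ Nat.dvd_gcd hrH h)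
  obtain ⟨z, hz⟩ := exists_prime_orderOf_dvd_card' (G := H') r hrH'
  obtain ⟨T, hT⟩ := (IsPGroup.of_card (p := r) (n := 1) (G := Subgroup.zpowers (z : G)) (by
    rw [Nat.card_zpowers, Subgroup.orderOf_coe, hz, pow_one])).exists_le_sylow
  obtain ⟨g, hg⟩ := MulAction.exists_smul_eq G T ((S.2.map H.subtype).toSylow hi)
  refine ⟨g, g * (z : G) * g⁻¹, ?_, ?_, ⟨z, z.2, rfl⟩⟩
  · have h1 : g * (z : G) * g⁻¹ ∈ ((g • T : Sylow r G) : Subgroup G) :=
      ⟨(z : G), hT (Subgroup.mem_zpowers _), rfl⟩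
    rw [hg] at h1
    exact Subgroup.map_subtype_le _ h1
  · intro e
    have h2 : (z : G) = 1 := by
      calc (z : G) = g⁻¹ * (g * (z : G) * g⁻¹) * g := by group
        _ = 1 := by rw [e]; group
    exact hr.ne_one (by rw [← hz, ← Subgroup.orderOf_coe, h2, orderOf_one])

theorem conj_or_coprime (hG : Cfsg.IsMinSimpleOddOrder G) (hCN : Cfsg.IsCNGroup G) {H H' : Subgroup G}
    (hH : IsMaxNilp H) (hH' : IsMaxNilp H') :
    (∃ g : G, H' = H.map (MulAut.conj g).toMonoidHom) ∨ (Nat.card H).Coprime (Nat.card H') := by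
  by_cases h : (Nat.card H).Coprime (Nat.card H')
  · exact Or.inr h
  obtain ⟨r, hr, h1, h2⟩ := Nat.Prime.not_coprime_iff_dvd.1 h
  obtain ⟨g, x, hx, hx1, hxg⟩ := exists_conj_common hCN hH' hr h2 h1
  exact Or.inl ⟨g, eq_of_common hG hCN hH' (isMaxNilp_map hH g) hx hxg hx1⟩

/-- An element of prime power order in the normaliser, for a prime of the subgroup, lies in it. -/
theorem mem_of_normalizer (hCN : Cfsg.IsCNGroup G) {H : Subgroup G} (hH : IsMaxNilp H) {r i : ℕ}
    (hr : r.Prime) (hrH : r ∣ Nat.card H) {c : G} (hc : c ∈ Subgroup.normalizer (H : Set G))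
    (hi : orderOf c = r ^ i) : c ∈ H := by
  let N := Subgroup.normalizer (H : Set G)
  haveI : (H.subgroupOf N).Normal := Subgroup.normal_in_normalizer
  have hcop : ¬ r ∣ (H.subgroupOf N).index := fun h => hr.not_dvd_one (by
    have h2 : r ∣ H.index := h.trans (Subgroup.relIndex_dvd_index_of_le Subgroup.le_normalizer)
    exact (coprime_index hCN hH).gcd_eq_one ▸ Nat.dvd_gcd hrH h2)
  have h3 : (QuotientGroup.mk' (H.subgroupOf N) ⟨c, hc⟩) = 1 := by
    rw [← orderOf_eq_one_iff]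
    refine Nat.eq_one_of_dvd_coprimes ((hr.coprime_iff_not_dvd.2 hcop).pow_left i) ?_
      (orderOf_dvd_natCard _)
    exact (orderOf_map_dvd _ _).trans (by rw [Subgroup.orderOf_mk, hi])
  exact (QuotientGroup.eq_one_iff (N := H.subgroupOf N) (⟨c, hc⟩ : N)).1 h3

theorem lt_normalizer (hG : Cfsg.IsMinSimpleOddOrder G) (hCN : Cfsg.IsCNGroup G) {H : Subgroup G}
    (hH : IsMaxNilp H) : H < Subgroup.normalizer (H : Set G) := by
  refine lt_of_le_of_ne Subgroup.le_normalizer fun hN => ?_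
  have hF : Cfsg.IsFrobeniusComplement H := by
    refine ⟨maxNilp_ne_bot hG hH, ne_top hG hH.1, fun g hg => ?_⟩
    rw [Subgroup.pointwise_smul_def]
    refine ti hG hCN hH g fun e => hg ?_
    rw [hN, Subgroup.mem_normalizer_iff_map_conj_eq]
    exact e
  obtain ⟨K, -, hKn, hKc⟩ := CfsgLib.GroupB.Frobenius.exists_kernel_subgroup hF
  haveI := hG.2.1
  rcases hKn.eq_bot_or_eq_top with h | h
  · exact ne_top hG hH.1 (by simpa [h, Subgroup.isComplement'_bot_left] using hKc)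
  · exact maxNilp_ne_bot hG hH (by simpa [h, Subgroup.isComplement'_top_left] using hKc)

theorem normalizer_ne_top' (hG : Cfsg.IsMinSimpleOddOrder G) {H : Subgroup G} (hH : IsMaxNilp H) :
    Subgroup.normalizer (H : Set G) ≠ ⊤ :=
  normalizer_ne_top hG (maxNilp_ne_bot hG hH) (ne_top hG hH.1)

theorem exists_compl (hG : Cfsg.IsMinSimpleOddOrder G) (hCN : Cfsg.IsCNGroup G) {H : Subgroup G}
    (hH : IsMaxNilp H) :
    ∃ E : Subgroup G, Cfsg.IsComplIn H E (Subgroup.normalizer (H : Set G)) ∧ E ≠ ⊥ ∧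
      ∀ e ∈ E, e ≠ 1 → H ⊓ Subgroup.centralizer ({e} : Set G) = ⊥ := by
  have hle : H ≤ Subgroup.normalizer (H : Set G) := Subgroup.le_normalizer
  haveI : (H.subgroupOf (Subgroup.normalizer (H : Set G))).Normal := Subgroup.normal_in_normalizer
  obtain ⟨E, hE⟩ := Subgroup.exists_right_complement'_of_coprime
    (N := H.subgroupOf (Subgroup.normalizer (H : Set G))) (by
    rw [Nat.card_congr (Subgroup.subgroupOfEquivOfLe hle).toEquiv]
    exact (coprime_index hCN hH).coprime_dvd_right (Subgroup.relIndex_dvd_index_of_le hle))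
  have hinf : H ⊓ E.map (Subgroup.normalizer (H : Set G)).subtype = ⊥ := by
    rw [eq_bot_iff]
    rintro _ ⟨hx, e, he, rfl⟩
    rw [Subgroup.mem_bot, Subgroup.subtype_apply, OneMemClass.coe_eq_one]
    exact Subgroup.disjoint_def.1 hE.disjoint hx he
  refine ⟨E.map (Subgroup.normalizer (H : Set G)).subtype, ⟨hle, Subgroup.map_subtype_le _, hinf, ?_⟩, ?_, ?_⟩
  · intro m hm
    obtain ⟨⟨⟨a, ha⟩, ⟨b, hb⟩⟩, hab⟩ := hE.2 ⟨m, hm⟩
    exact ⟨a, ha, b, ⟨b, hb, rfl⟩, (congrArg Subtype.val hab).symm⟩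
  · intro h
    rw [Subgroup.map_eq_bot_iff_of_injective _ (Subgroup.normalizer (H : Set G)).subtype_injective] at h
    rw [h, Subgroup.isComplement'_bot_right, Subgroup.subgroupOf_eq_top] at hE
    exact (lt_normalizer hG hCN hH).not_ge hE
  · intro e he he1
    rw [eq_bot_iff]
    rintro v ⟨hv, hvc⟩
    rw [Subgroup.mem_bot]
    by_contra hv1
    have h1 : e ∈ H := centralizer_le' hG hCN hH hv hv1
      (Subgroup.mem_centralizer_singleton_iff.2 (Subgroup.mem_centralizer_singleton_iff.1 hvc).symm)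
    have h2 : e ∈ H ⊓ E.map (Subgroup.normalizer (H : Set G)).subtype := ⟨h1, he⟩
    rw [hinf] at h2
    exact he1 h2

/-- Every maximal subgroup is the normaliser of a maximal nilpotent subgroup. -/
theorem exists_of_isCoatom (hG : Cfsg.IsMinSimpleOddOrder G) (hCN : Cfsg.IsCNGroup G) {M : Subgroup G}
    (hM : IsCoatom M) : ∃ H : Subgroup G, IsMaxNilp H ∧ M = Subgroup.normalizer (H : Set G) := by
  haveI : Group.IsSolvable M := hG.2.2.2 M hM.1
  set F := Cfsg.fittingSubgroup M with hF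
  haveI : Group.IsNilpotent F := CfsgLib.Core.isNilpotent_fittingSubgroup
  obtain ⟨H, hFH, hH⟩ := exists_ge (CfsgLib.CNQuotient.isNilpotent_map M.subtype (A := F) inferInstance)
  refine ⟨H, hH, ?_⟩
  by_cases hF1 : F = ⊥
  · have hMb : M ≤ Subgroup.normalizer (H : Set G) := by
      intro m hm
      have h1 : (⟨m, hm⟩ : M) ∈ F := CfsgLib.GenFitting.solvableRadical_inf_centralizer_le
        ⟨(le_sSup (⟨inferInstance, inferInstance⟩ : (⊤ : Subgroup M).Normal ∧ Group.IsSolvable ↥(⊤ : Subgroup M)) :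
          ⊤ ≤ Cfsg.solvableRadical M) (Subgroup.mem_top _), by
          show (⟨m, hm⟩ : M) ∈ Subgroup.centralizer (F : Set M)
          rw [hF1, Subgroup.mem_centralizer_iff]
          intro y hy
          rw [Subgroup.mem_bot.1 hy, one_mul, mul_one]⟩
      exact Subgroup.le_normalizer (hFH ⟨_, h1, rfl⟩)
    exact (hM.le_iff.1 hMb).elim (fun h => absurd h (normalizer_ne_top' hG hH)) Eq.symm
  · haveI : F.Normal := CfsgLib.Core.fittingSubgroup_normal
    obtain ⟨⟨v, hvM⟩, hv, hv1⟩ := F.bot_or_exists_ne_one.resolve_left hF1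
    have hMb : M ≤ Subgroup.normalizer (H : Set G) := by
      intro m hm
      rw [Subgroup.mem_normalizer_iff_map_conj_eq]
      by_contra hne
      have h1 : m⁻¹ * v * m ∈ H := hFH ⟨(⟨m, hm⟩ : M)⁻¹ * ⟨v, hvM⟩ * ⟨m, hm⟩, by
        simpa using (inferInstance : F.Normal).conj_mem _ hv (⟨m, hm⟩ : M)⁻¹, rfl⟩
      have h2 : v ∈ H ⊓ H.map (MulAut.conj m).toMonoidHom :=
        ⟨hFH ⟨_, hv, rfl⟩, m⁻¹ * v * m, h1, by simp [mul_assoc]⟩
      rw [ti hG hCN hH m hne, Subgroup.mem_bot] at h2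
      exact hv1 (Subtype.ext h2)
    exact (hM.le_iff.1 hMb).elim (fun h => absurd h (normalizer_ne_top' hG hH)) Eq.symm

theorem isCoatom_normalizer (hG : Cfsg.IsMinSimpleOddOrder G) (hCN : Cfsg.IsCNGroup G) {H : Subgroup G}
    (hH : IsMaxNilp H) : IsCoatom (Subgroup.normalizer (H : Set G)) := by
  obtain ⟨M, hM, hle⟩ := (eq_top_or_exists_le_coatom (Subgroup.normalizer (H : Set G))).resolve_left
    (normalizer_ne_top' hG hH)
  obtain ⟨H', hH', rfl⟩ := exists_of_isCoatom hG hCN hM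
  suffices h : H = H' by rw [h]; exact hM
  by_cases hcom : ∃ r : ℕ, r.Prime ∧ r ∣ Nat.card H ∧ r ∣ Nat.card H'
  · obtain ⟨r, hr, hrH, hrH'⟩ := hcom
    obtain ⟨z, hzH, hzo, -⟩ := exists_central hH.1 hr hrH
    exact eq_of_common hG hCN hH hH' hzH
      (mem_of_normalizer hCN hH' hr hrH' (hle (Subgroup.le_normalizer hzH)) (i := 1) (by rw [hzo, pow_one]))
      fun e => hr.ne_one (by rw [← hzo, e, orderOf_one])
  exfalso
  have hint : H ⊓ H' = ⊥ := Subgroup.inf_eq_bot_of_coprime (Nat.coprime_of_dvd fun r hr h1 h2 => hcom ⟨r, hr, h1, h2⟩)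
  let V := H' ⊓ Subgroup.centralizer (H' : Set G)
  have hV1 : V ≠ ⊥ := by
    obtain ⟨q, hq, hqd⟩ := Nat.exists_prime_and_dvd fun h => maxNilp_ne_bot hG hH' (Subgroup.card_eq_one.1 h)
    obtain ⟨z, hz, hzo, hzc⟩ := exists_central hH'.1 hq hqd
    intro h
    have h2 : z ∈ V := ⟨hz, Subgroup.mem_centralizer_iff.2 fun y hy => hzc y hy⟩
    rw [h, Subgroup.mem_bot] at h2
    exact hq.ne_one (by rw [← hzo, h2, orderOf_one])
  have hVc : IsMulCommutative V :=
    ⟨⟨fun a b => Subtype.ext (Subgroup.mem_centralizer_iff.1 b.2.2 a a.2.1)⟩⟩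
  have hAV : Subgroup.normalizer (H : Set G) ≤ Subgroup.normalizer (V : Set G) := by
    intro a ha
    refine Subgroup.mem_normalizer_fintype ?_
    rintro v ⟨hv, hvc⟩
    have h' := Subgroup.mem_normalizer_iff.1 (hle ha)
    refine ⟨(h' v).1 hv, Subgroup.mem_centralizer_iff.2 fun y hy => ?_⟩
    have hy' : a⁻¹ * y * a ∈ H' := (h' _).2 (by simpa [mul_assoc] using hy)
    have h2 := Subgroup.mem_centralizer_iff.1 hvc _ hy'
    calc y * (a * v * a⁻¹) = a * ((a⁻¹ * y * a) * v) * a⁻¹ := by group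
      _ = a * (v * (a⁻¹ * y * a)) * a⁻¹ := by rw [h2]
      _ = a * v * a⁻¹ * y := by group
  have hfpf : ∀ a ∈ Subgroup.normalizer (H : Set G), a ≠ 1 → V ⊓ Subgroup.centralizer ({a} : Set G) = ⊥ := by
    intro a ha ha1
    rw [eq_bot_iff]
    rintro v ⟨⟨hv, -⟩, hvc⟩
    rw [Subgroup.mem_bot]
    by_contra hv1
    have haH' : a ∈ H' := centralizer_le' hG hCN hH' hv hv1
      (Subgroup.mem_centralizer_singleton_iff.2 (Subgroup.mem_centralizer_singleton_iff.1 hvc).symm)
    obtain ⟨h, hh, hh1⟩ := H.bot_or_exists_ne_one.resolve_left (maxNilp_ne_bot hG hH)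
    have hc : a * h * a⁻¹ * h⁻¹ ∈ H ⊓ H' :=
      ⟨H.mul_mem ((Subgroup.mem_normalizer_iff.1 ha h).1 hh) (H.inv_mem hh), by
        simpa [mul_assoc] using H'.mul_mem haH'
          ((Subgroup.mem_normalizer_iff.1 (hle (Subgroup.le_normalizer hh)) a⁻¹).1 (H'.inv_mem haH'))⟩
    rw [hint, Subgroup.mem_bot] at hc
    have hcomm : a * h = h * a := by
      calc a * h = (a * h * a⁻¹ * h⁻¹) * (h * a) := by group
        _ = h * a := by rw [hc, one_mul]
    have h3 : a ∈ H ⊓ H' := ⟨centralizer_le' hG hCN hH hh hh1 (Subgroup.mem_centralizer_singleton_iff.2 hcomm), haH'⟩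
    rw [hint, Subgroup.mem_bot] at h3
    exact ha1 h3
  haveI := hH.1
  haveI : IsZGroup H := by
    refine ⟨fun q hq S => ?_⟩
    haveI := Fact.mk hq
    by_cases hq2 : q = 2
    · haveI : Subsingleton S := by
        rw [← Finite.card_le_one_iff_subsingleton]
        obtain ⟨n, hn⟩ := S.2.exists_card_eq
        rcases n.eq_zero_or_pos with rfl | hn0
        · exact le_of_eq (by simpa using hn)
        · exact absurd hG.1 (Nat.not_odd_iff_even.2 (even_iff_two_dvd.2
            (hq2 ▸ (hn ▸ dvd_pow_self q hn0.ne' : q ∣ Nat.card (S : Subgroup H)).trans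
              ((Subgroup.card_subgroup_dvd_card _).trans (Subgroup.card_subgroup_dvd_card H)))))
      infer_instance
    haveI : IsCyclic ↥((S : Subgroup H).map H.subtype) :=
      isCyclic_of_fpf hq2 (S.2.map _) hV1
        ((Subgroup.map_subtype_le _).trans (Subgroup.le_normalizer.trans hAV))
        (fun a ha => hfpf a (Subgroup.le_normalizer (Subgroup.map_subtype_le _ ha)))
    exact isCyclic_of_surjective ((S : Subgroup H).equivMapOfInjective _ H.subtype_injective).symm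
      (MulEquiv.surjective _)
  obtain ⟨q, hq, hqH⟩ := Nat.exists_prime_and_dvd fun h => maxNilp_ne_bot hG hH (Subgroup.card_eq_one.1 h)
  haveI := Fact.mk hq
  obtain ⟨a, haH, hao, -⟩ := exists_central hH.1 hq hqH
  have hne : H.relIndex (Subgroup.normalizer (H : Set G)) ≠ 1 := fun h =>
    (lt_normalizer hG hCN hH).not_ge (Subgroup.relIndex_eq_one.1 h)
  obtain ⟨r, hr, hrd⟩ := Nat.exists_prime_and_dvd hne
  haveI := Fact.mk hr
  obtain ⟨⟨b, hbN⟩, hbo⟩ := exists_prime_orderOf_dvd_card' (G := Subgroup.normalizer (H : Set G)) r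
    (hrd.trans (Subgroup.relIndex_dvd_card _ _))
  rw [Subgroup.orderOf_mk] at hbo
  have hn : ∀ u ∈ Subgroup.zpowers a, b * u * b⁻¹ ∈ Subgroup.zpowers a := by
    rintro _ ⟨i, rfl⟩
    have hba : b * a * b⁻¹ ∈ H := (Subgroup.mem_normalizer_iff.1 hbN a).1 haH
    obtain ⟨j, hj⟩ := Subgroup.mem_zpowers_iff.1 (CfsgLib.UniqueOrderP.uniq_of_cyclic (G := H) (p := q)
      ⟨a, haH⟩ ⟨_, hba⟩ (by rw [Subgroup.orderOf_mk, hao]) (by
        rw [Subgroup.orderOf_mk, ← MulAut.conj_apply, MulEquiv.orderOf_eq, hao]))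
    refine ⟨j * i, ?_⟩
    have hj' : a ^ j = b * a * b⁻¹ := by simpa using congrArg Subtype.val hj
    show a ^ (j * i) = b * a ^ i * b⁻¹
    rw [zpow_mul, hj', conj_zpow]
  have hab := CfsgLib.GroupB.FpfPQ.commute hVc hV1 hAV hfpf (Subgroup.le_normalizer haH) hbN
    (by rw [hao]; exact hq) (by rw [hbo]; exact hr) hn
  have ha1 : a ≠ 1 := fun e => hq.ne_one (by rw [← hao, e, orderOf_one])
  have hbH : b ∈ H := centralizer_le' hG hCN hH haH ha1 (Subgroup.mem_centralizer_singleton_iff.2 hab.symm.eq)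
  have hrH : r ∣ Nat.card H := by
    rw [← hbo, ← Subgroup.orderOf_mk b hbH]
    exact orderOf_dvd_natCard _
  exact hr.not_dvd_one ((coprime_index hCN hH).gcd_eq_one ▸
    Nat.dvd_gcd hrH (hrd.trans (Subgroup.relIndex_dvd_index_of_le Subgroup.le_normalizer)))

/-- The Fitting Hall subgroup of the normaliser is the maximal nilpotent subgroup. -/
theorem fittingHallOf_normalizer (hCN : Cfsg.IsCNGroup G) {H : Subgroup G} (hH : IsMaxNilp H) :
    Cfsg.fittingHallOf (Subgroup.normalizer (H : Set G)) = H := by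
  have hle : H ≤ Subgroup.normalizer (H : Set G) := Subgroup.le_normalizer
  have hn : (H.subgroupOf (Subgroup.normalizer (H : Set G))).Normal := Subgroup.normal_in_normalizer
  have hnil : Group.IsNilpotent ↥(H.subgroupOf (Subgroup.normalizer (H : Set G))) := by
    haveI := hH.1
    exact Group.nilpotent_of_mulEquiv (G := H) (Subgroup.subgroupOfEquivOfLe hle).symm
  refine le_antisymm ?_ ?_
  · have h1 : H ≤ Cfsg.fittingOf (Subgroup.normalizer (H : Set G)) := by
      intro x hx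
      exact ⟨⟨x, hle hx⟩, CfsgLib.Core.le_fittingSubgroup hn hnil hx, rfl⟩
    have h2 := hH.2 _ (CfsgLib.CNQuotient.isNilpotent_map _
      (CfsgLib.Core.isNilpotent_fittingSubgroup (G := Subgroup.normalizer (H : Set G)))) h1
    refine le_trans (Subgroup.map_mono ?_) h2.le
    exact sSup_le fun N hN => CfsgLib.Core.le_fittingSubgroup hN.1 hN.2.1
  · intro x hx
    refine ⟨⟨x, hle hx⟩, (le_sSup ⟨hn, hnil, ?_⟩ : H.subgroupOf _ ≤ Cfsg.fittingHall _) hx, rfl⟩
    rw [Nat.card_congr (Subgroup.subgroupOfEquivOfLe hle).toEquiv]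
    exact (coprime_index hCN hH).coprime_dvd_right (Subgroup.relIndex_dvd_index_of_le hle)

end CfsgLib.CNOdd
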