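import Mathlib
import Cfsg.Agent.Lib.GroupB.Coprime
import Cfsg.Agent.Lib.LocalBasic

/-! Completeness of a system of fixed-point subgroups inside a solvable coprime group (owner helper5). -/

set_option autoImplicit false
set_option linter.unusedSectionVars false
set_option linter.style.haveILetI false

namespace CfsgLib.CoprimeSignalizer

open CfsgLib.GroupB.Coprime
open scoped commutatorElement

variable {G : Type*} [Group G]

/-- Elements of `N_G(N)` whose commutators with every element of `S` lie in `N`. -/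
def commPre (N : Subgroup G) (S : Set G) : Subgroup G where
  carrier := {x | x ∈ Subgroup.normalizer (N : Set G) ∧ ∀ s ∈ S, x * s * x⁻¹ * s⁻¹ ∈ N}
  mul_mem' := by
    intro x y hx hy
    refine ⟨mul_mem hx.1 hy.1, fun s hs => ?_⟩
    have h1 := (Subgroup.mem_normalizer_iff.mp hx.1 _).mp (hy.2 s hs)
    rw [show x * y * s * (x * y)⁻¹ * s⁻¹ = x * (y * s * y⁻¹ * s⁻¹) * x⁻¹ * (x * s * x⁻¹ * s⁻¹) by group]
    exact mul_mem h1 (hx.2 s hs)
  one_mem' := ⟨one_mem _, fun s _ => by simp [one_mem]⟩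
  inv_mem' := by
    intro x hx
    refine ⟨inv_mem hx.1, fun s hs => ?_⟩
    have h1 := (Subgroup.mem_normalizer_iff.mp (inv_mem hx.1) _).mp (inv_mem (hx.2 s hs))
    rwa [show x⁻¹ * (x * s * x⁻¹ * s⁻¹)⁻¹ * x⁻¹⁻¹ = x⁻¹ * s * x⁻¹⁻¹ * s⁻¹ by group] at h1

theorem le_commPre_symm {N : Subgroup G} {V W : Subgroup G} (hW : W ≤ Subgroup.normalizer (N : Set G))
    (h : V ≤ commPre N (W : Set G)) : W ≤ commPre N (V : Set G) := fun w hw =>
  ⟨hW hw, fun v hv => by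
    have := inv_mem ((h hv).2 w hw)
    rwa [show (v * w * v⁻¹ * w⁻¹)⁻¹ = w * v * w⁻¹ * v⁻¹ by group] at this⟩

theorem le_commPre_of_commutator_le {N V W : Subgroup G} (hV : V ≤ Subgroup.normalizer (N : Set G))
    (h : ⁅V, W⁆ ≤ N) : V ≤ commPre N (W : Set G) := fun v hv =>
  ⟨hV hv, fun w hw => by
    have := h (Subgroup.commutator_mem_commutator hv hw)
    rwa [commutatorElement_def] at this⟩

theorem normalizer_iSup_ge {ι : Sort*} {B : Subgroup G} {f : ι → Subgroup G}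
    (h : ∀ i, B ≤ Subgroup.normalizer (f i : Set G)) : B ≤ Subgroup.normalizer ((⨆ i, f i : Subgroup G) : Set G) :=
  fun b hb => CfsgLib.LocalBasic.mem_normalizer_of_conj_map_eq (by
    rw [Subgroup.map_iSup]
    exact iSup_congr fun i => CfsgLib.LocalBasic.conj_map_eq_of_mem_normalizer (h i hb))

/-- A solvable group has an abelian normal section just above any proper normal subgroup. -/
theorem exists_abelian_section {A X P : Subgroup G} [Group.IsSolvable ↥X] (hPX : P ≤ X)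
    (hXP : X ≤ Subgroup.normalizer (P : Set G)) (hAP : A ≤ Subgroup.normalizer (P : Set G))
    (hAX : A ≤ Subgroup.normalizer (X : Set G)) (hne : P ≠ X) :
    ∃ R : Subgroup G, P < R ∧ R ≤ X ∧ X ≤ Subgroup.normalizer (R : Set G) ∧
      A ≤ Subgroup.normalizer (R : Set G) ∧ ⁅R, R⁆ ≤ P := by
  obtain ⟨D, hD⟩ : ∃ D : ℕ → Subgroup G, D = fun n => (derivedSeries ↥X n).map X.subtype := ⟨_, rfl⟩
  have hsucc : ∀ n, D (n + 1) = ⁅D n, D n⁆ := fun n => by
    simp only [hD]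
    exact Subgroup.map_commutator _ _ _
  have h0 : D 0 = X := by
    simp [hD, ← MonoidHom.range_eq_map]
  have hDX : ∀ n, D n ≤ X := fun n => by
    simp only [hD]; exact Subgroup.map_subtype_le _
  have hnorm : ∀ n, X ⊔ A ≤ Subgroup.normalizer (D n : Set G) := by
    intro n
    induction n with
    | zero => rw [h0]; exact sup_le Subgroup.le_normalizer hAX
    | succ n ih => rw [hsucc]; exact CfsgLib.LocalBasic.normalizer_commutator_ge ih ih
  classical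
  obtain ⟨n, hn⟩ := Group.IsSolvable.solvable (G := ↥X)
  have hex : ∃ m, D m ≤ P := ⟨n, by simp [hD, hn]⟩
  obtain ⟨k, hk⟩ : ∃ k, Nat.find hex = k + 1 := by
    refine Nat.exists_eq_succ_of_ne_zero fun h => hne (le_antisymm hPX ?_)
    have := Nat.find_spec hex
    rwa [h, h0] at this
  have hkP : ¬ D k ≤ P := Nat.find_min hex (by omega)
  have hsP : ⁅D k, D k⁆ ≤ P := by
    rw [← hsucc, ← hk]; exact Nat.find_spec hex
  refine ⟨P ⊔ D k, lt_of_le_of_ne le_sup_left fun h => hkP (le_sup_right.trans h.ge), sup_le hPX (hDX k),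
    CfsgLib.LocalBasic.normalizer_sup_ge hXP (le_sup_left.trans (hnorm k)),
    CfsgLib.LocalBasic.normalizer_sup_ge hAP (le_sup_right.trans (hnorm k)), ?_⟩
  have hR : P ⊔ D k ≤ Subgroup.normalizer (P : Set G) := (sup_le hPX (hDX k)).trans hXP
  have hP' : P ≤ commPre P ((P ⊔ D k : Subgroup G) : Set G) := fun x hx =>
    ⟨Subgroup.le_normalizer hx, fun s hs => by
      have h1 := (Subgroup.mem_normalizer_iff.mp (hR hs) _).mp (inv_mem hx)
      rw [show x * s * x⁻¹ * s⁻¹ = x * (s * x⁻¹ * s⁻¹) by group]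
      exact mul_mem hx h1⟩
  have hDk : D k ≤ commPre P ((P ⊔ D k : Subgroup G) : Set G) := by
    have hbase : D k ≤ commPre P (D k : Set G) := le_commPre_of_commutator_le ((hDX k).trans hXP) hsP
    refine le_commPre_symm ((hDX k).trans hXP) (sup_le (fun x hx => ?_) hbase)
    exact ⟨Subgroup.le_normalizer hx, fun s hs => (hP' hx).2 s (Subgroup.mem_sup_right hs)⟩
  refine Subgroup.commutator_le.mpr fun x hx y hy => ?_
  rw [commutatorElement_def]
  exact ((sup_le hP' hDk) hx).2 y hy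

/-- Completeness inside a solvable coprime group: if the `W H` (`H ∈ 𝓗`) generate `X`, are fixed by `H`, and any two
of them lie in a subgroup `T` normalized by `C_X(H)` and `C_X(H')` whose `H''`-fixed points are inside `W H''`,
then `X ∩ C(H) ≤ W H` for every `H ∈ 𝓗`. -/
theorem centralizer_le [Finite G] {A X : Subgroup G} [Group.IsSolvable ↥X] (hAc : IsMulCommutative ↥A)
    (hAX : A ≤ Subgroup.normalizer (X : Set G)) (hcop : (Nat.card ↥A).Coprime (Nat.card ↥X))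
    (𝓗 : Set (Subgroup G)) (h𝓗 : ∀ H ∈ 𝓗, H ≤ A) (W : Subgroup G → Subgroup G)
    (hW : ∀ H ∈ 𝓗, W H ≤ X ⊓ Subgroup.centralizer (H : Set G) ∧ A ≤ Subgroup.normalizer (W H : Set G))
    (hgen : X ≤ ⨆ H : 𝓗, W H)
    (hgenV : ∀ V : Subgroup G, V ≤ X → A ≤ Subgroup.normalizer (V : Set G) →
      V ≤ ⨆ H : 𝓗, V ⊓ Subgroup.centralizer ((H : Subgroup G) : Set G))
    (hpair : ∀ H ∈ 𝓗, ∀ H' ∈ 𝓗, ∃ T : Subgroup G, W H ≤ T ∧ W H' ≤ T ∧ A ≤ Subgroup.normalizer (T : Set G) ∧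
      X ⊓ Subgroup.centralizer (H : Set G) ≤ Subgroup.normalizer (T : Set G) ∧
      ∀ H'' ∈ 𝓗, T ⊓ X ⊓ Subgroup.centralizer (H'' : Set G) ≤ W H'') :
    ∀ H ∈ 𝓗, X ⊓ Subgroup.centralizer (H : Set G) ≤ W H := by
  obtain ⟨𝒮, h𝒮⟩ : ∃ 𝒮 : Set (Subgroup G), 𝒮 = {N : Subgroup G | N ≤ X ∧ X ≤ Subgroup.normalizer (N : Set G) ∧
      A ≤ Subgroup.normalizer (N : Set G) ∧ ∀ H ∈ 𝓗, N ⊓ Subgroup.centralizer (H : Set G) ≤ W H} := ⟨_, rfl⟩
  have hne : 𝒮.Nonempty := ⟨⊥, by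
    rw [h𝒮]
    exact ⟨bot_le, le_top.trans (Subgroup.normalizer_eq_top _).ge,
      le_top.trans (Subgroup.normalizer_eq_top _).ge, fun H _ => inf_le_left.trans bot_le⟩⟩
  obtain ⟨N, hN, hNmax⟩ := 𝒮.toFinite.exists_maximal hne
  rw [h𝒮] at hN hNmax
  obtain ⟨hNX, hXN, hAN, hNW⟩ := hN
  suffices N = X by
    intro H hH
    rw [← this]
    exact hNW H hH
  -- small lemma: an `A`-invariant subgroup of `T ∩ X` meeting each `W H''` inside `N` lies in `N`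
  have hsmall : ∀ P : Subgroup G, P ≤ X → A ≤ Subgroup.normalizer (P : Set G) → (∀ H ∈ 𝓗, P ⊓ W H ≤ N) →
      ∀ T : Subgroup G, A ≤ Subgroup.normalizer (T : Set G) →
      (∀ H'' ∈ 𝓗, T ⊓ X ⊓ Subgroup.centralizer (H'' : Set G) ≤ W H'') → T ⊓ P ≤ N := by
    intro P hPX hAP hP T hAT hT
    refine (hgenV (T ⊓ P) (inf_le_right.trans hPX) (CfsgLib.LocalBasic.normalizer_inf_ge hAT hAP)).trans
      (iSup_le fun H => ?_)
    rintro x ⟨⟨hxT, hxP⟩, hxH⟩
    exact hP H H.2 ⟨hxP, hT H H.2 ⟨⟨hxT, hPX hxP⟩, hxH⟩⟩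
  obtain ⟨𝒯, h𝒯⟩ : ∃ 𝒯 : Set (Subgroup G), 𝒯 = {P : Subgroup G | N ≤ P ∧ P ≤ X ∧
      X ≤ Subgroup.normalizer (P : Set G) ∧ A ≤ Subgroup.normalizer (P : Set G) ∧ ∀ H ∈ 𝓗, P ⊓ W H ≤ N} := ⟨_, rfl⟩
  obtain ⟨P, hP, hPmax⟩ := 𝒯.toFinite.exists_maximal ⟨N, by rw [h𝒯]; exact ⟨le_rfl, hNX, hXN, hAN, fun H _ => inf_le_left⟩⟩
  rw [h𝒯] at hP hPmax
  obtain ⟨hNP, hPX, hXP, hAP, hPW⟩ := hP
  by_cases hPeq : P = X
  · refine le_antisymm hNX (hgen.trans (iSup_le fun H => ?_))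
    exact (le_inf (hPeq ▸ (hW H H.2).1.trans inf_le_left) le_rfl).trans (hPW H H.2)
  exfalso
  obtain ⟨R, hPR, hRX, hXR, hAR, hRR⟩ := exists_abelian_section hPX hXP hAP hAX hPeq
  obtain ⟨R₀, hR₀⟩ : ∃ R₀, R₀ = N ⊔ ⨆ H : 𝓗, R ⊓ W H := ⟨_, rfl⟩
  have hNR₀ : N ≤ R₀ := hR₀ ▸ le_sup_left
  have hWR₀ : ∀ H ∈ 𝓗, R ⊓ W H ≤ R₀ := fun H hH =>
    (le_iSup (fun K : 𝓗 => R ⊓ W K) ⟨H, hH⟩).trans (hR₀ ▸ le_sup_right)
  have hR₀R : R₀ ≤ R := hR₀ ▸ sup_le (hNP.trans hPR.le) (iSup_le fun _ => inf_le_left)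
  have hAR₀ : A ≤ Subgroup.normalizer (R₀ : Set G) := hR₀ ▸ CfsgLib.LocalBasic.normalizer_sup_ge hAN
    (normalizer_iSup_ge fun H => CfsgLib.LocalBasic.normalizer_inf_ge hAR (hW H H.2).2)
  -- commutators of the generators
  have hgenR₀ : ∀ H ∈ 𝓗, ∀ H' ∈ 𝓗, ∀ x ∈ R ⊓ W H, ∀ w ∈ W H',
      ∃ T : Subgroup G, A ≤ Subgroup.normalizer (T : Set G) ∧
        (∀ H'' ∈ 𝓗, T ⊓ X ⊓ Subgroup.centralizer (H'' : Set G) ≤ W H'') ∧ x * w * x⁻¹ * w⁻¹ ∈ T := by
    intro H hH H' hH' x hx w hw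
    obtain ⟨T, hT1, hT2, hT3, -, hT5⟩ := hpair H hH H' hH'
    exact ⟨T, hT3, hT5, mul_mem (mul_mem (mul_mem (hT1 hx.2) (hT2 hw)) (inv_mem (hT1 hx.2))) (inv_mem (hT2 hw))⟩
  have hXR₀ : X ≤ Subgroup.normalizer (R₀ : Set G) := by
    refine hgen.trans (iSup_le fun H' => ?_)
    intro w hw
    refine CfsgLib.LocalBasic.mem_normalizer_of_conj_map_eq (Subgroup.eq_of_le_of_card_ge ?_ ?_)
    · conv_lhs => rw [hR₀]
      rw [Subgroup.map_sup, Subgroup.map_iSup,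
        CfsgLib.LocalBasic.conj_map_eq_of_mem_normalizer (hXN ((hW H' H'.2).1 hw).1)]
      refine sup_le hNR₀ (iSup_le fun H => ?_)
      rintro _ ⟨x, hx, rfl⟩
      obtain ⟨T, hT3, hT5, hc⟩ := hgenR₀ H H.2 H' H'.2 x hx w hw
      have hcR : x * w * x⁻¹ * w⁻¹ ∈ R := by
        have := (Subgroup.mem_normalizer_iff.mp (hXR ((hW H' H'.2).1 hw).1) _).mp (inv_mem hx.1)
        rw [show x * w * x⁻¹ * w⁻¹ = x * (w * x⁻¹ * w⁻¹) by group]
        exact mul_mem hx.1 this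
      have hle : T ⊓ R ≤ R₀ := (hgenV (T ⊓ R) (inf_le_right.trans hRX)
        (CfsgLib.LocalBasic.normalizer_inf_ge hT3 hAR)).trans (iSup_le fun K => by
          rintro y ⟨⟨hyT, hyR⟩, hyK⟩
          exact hWR₀ K K.2 ⟨hyR, hT5 K K.2 ⟨⟨hyT, hRX hyR⟩, hyK⟩⟩)
      show w * x * w⁻¹ ∈ R₀
      rw [show w * x * w⁻¹ = (x * w * x⁻¹ * w⁻¹)⁻¹ * x by group]
      exact mul_mem (inv_mem (hle ⟨hc, hcR⟩)) (hWR₀ H H.2 hx)
    · rw [Subgroup.card_map_of_injective (MulEquiv.injective _)]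
  have hR₀N : R₀ ≤ Subgroup.normalizer (N : Set G) := (hR₀R.trans hRX).trans hXN
  have hab : R₀ ≤ commPre N (R₀ : Set G) := by
    have hNc : ∀ S : Subgroup G, S ≤ Subgroup.normalizer (N : Set G) → N ≤ commPre N (S : Set G) :=
      fun S hS x hx => ⟨Subgroup.le_normalizer hx, fun s hs => by
        have h1 := (Subgroup.mem_normalizer_iff.mp (hS hs) _).mp (inv_mem hx)
        rw [show x * s * x⁻¹ * s⁻¹ = x * (s * x⁻¹ * s⁻¹) by group]
        exact mul_mem hx h1⟩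
    conv_lhs => rw [hR₀]
    refine sup_le (hNc _ hR₀N) (iSup_le fun H => ?_)
    have hRW : R ⊓ W H ≤ Subgroup.normalizer (N : Set G) := (hWR₀ H H.2).trans hR₀N
    refine le_commPre_symm hRW ?_
    conv_lhs => rw [hR₀]
    refine sup_le (hNc _ hRW) (iSup_le fun H' x hx => ⟨hR₀N (hWR₀ H' H'.2 hx), fun w hw => ?_⟩)
    obtain ⟨T, hT3, hT5, hc⟩ := hgenR₀ H' H'.2 H H.2 x hx w hw.2
    refine hsmall P hPX hAP hPW T hT3 hT5 ⟨hc, ?_⟩
    have := hRR (Subgroup.commutator_mem_commutator hx.1 hw.1)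
    rwa [commutatorElement_def] at this
  -- averaging over `H` modulo `N`
  haveI hNn : (N.subgroupOf R₀).Normal := (Subgroup.normal_subgroupOf_iff_le_normalizer hNR₀).mpr hR₀N
  letI : CommGroup (↥R₀ ⧸ N.subgroupOf R₀) :=
    { (inferInstance : Group (↥R₀ ⧸ N.subgroupOf R₀)) with
      mul_comm := fun u v => by
        induction u using QuotientGroup.induction_on with
        | _ u =>
          induction v using QuotientGroup.induction_on with
          | _ v =>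
            rw [← QuotientGroup.mk_mul, ← QuotientGroup.mk_mul, QuotientGroup.eq, Subgroup.mem_subgroupOf]
            have := (hab (inv_mem v.2)).2 (u.1⁻¹) (inv_mem u.2)
            simpa [mul_assoc] using this }
  have hcopN : ∀ {H U : Subgroup G}, H ≤ A → U ≤ X → (Nat.card ↥H).Coprime (Nat.card ↥U) := fun hH hU =>
    (hcop.coprime_dvd_left (Subgroup.card_dvd_of_le hH)).coprime_dvd_right (Subgroup.card_dvd_of_le hU)
  have hR₀S : ∀ H ∈ 𝓗, R₀ ⊓ Subgroup.centralizer (H : Set G) ≤ W H := by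
    intro H hH
    haveI := Fintype.ofFinite ↥H
    have hsolH : Group.IsSolvable ↥H := by
      refine Group.isSolvable_of_comm fun a b => Subtype.ext ?_
      have := hAc.is_comm.comm (⟨a, h𝓗 H hH a.2⟩ : ↥A) ⟨b, h𝓗 H hH b.2⟩
      simpa [Subtype.ext_iff] using this
    have hconj : ∀ h : ↥H, ∀ x : ↥R₀, (h : G) * x * (h : G)⁻¹ ∈ R₀ := fun h x =>
      (Subgroup.mem_normalizer_iff.mp (hAR₀ (h𝓗 H hH h.2)) _).mp x.2
    let f : ↥R₀ →* ↥R₀ ⧸ N.subgroupOf R₀ :=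
      { toFun := fun x => ∏ h : ↥H, ((⟨_, hconj h x⟩ : ↥R₀) : ↥R₀ ⧸ N.subgroupOf R₀)
        map_one' := Finset.prod_eq_one fun h _ => by
          rw [QuotientGroup.eq_one_iff]; simp [Subgroup.mem_subgroupOf, one_mem]
        map_mul' := fun x y => by
          rw [← Finset.prod_mul_distrib]
          refine Finset.prod_congr rfl fun h _ => ?_
          rw [← QuotientGroup.mk_mul]
          congr 1
          apply Subtype.ext
          simp [mul_assoc] }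
    have hfval : ∀ x : ↥R₀, ∀ g : ↥H, f ⟨_, hconj g x⟩ = f x := by
      intro x g
      show (∏ h : ↥H, _) = ∏ h : ↥H, _
      refine (Fintype.prod_equiv (Equiv.mulRight g) _ _ fun h => ?_)
      congr 1
      apply Subtype.ext
      simp [mul_assoc]
    let M : Subgroup (↥R₀ ⧸ N.subgroupOf R₀) :=
      ((R ⊓ W H).subgroupOf R₀).map (QuotientGroup.mk' _)
    have hgens : ∀ x : G, ∀ hx : x ∈ R₀, f ⟨x, hx⟩ ∈ M := by
      suffices h : R₀ ≤ (M.comap f).map R₀.subtype by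
        intro x hx
        obtain ⟨y, hy, rfl⟩ := h hx
        exact hy
      conv_lhs => rw [hR₀]
      refine sup_le (fun x hx => ⟨⟨x, hNR₀ hx⟩, ?_, rfl⟩) (iSup_le fun H' x hx => ⟨⟨x, hWR₀ H' H'.2 hx⟩, ?_, rfl⟩)
      · show f ⟨x, _⟩ ∈ M
        rw [show f ⟨x, hNR₀ hx⟩ = 1 from Finset.prod_eq_one fun h _ => by
          rw [QuotientGroup.eq_one_iff, Subgroup.mem_subgroupOf]
          exact (Subgroup.mem_normalizer_iff.mp (hAN (h𝓗 H hH h.2)) _).mp hx]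
        exact one_mem _
      · show f ⟨x, _⟩ ∈ M
        obtain ⟨U, hU⟩ : ∃ U, U = R ⊓ W H' := ⟨_, rfl⟩
        have hAU : A ≤ Subgroup.normalizer (U : Set G) :=
          hU ▸ CfsgLib.LocalBasic.normalizer_inf_ge hAR (hW H' H'.2).2
        have hUR₀ : U ≤ R₀ := hU ▸ hWR₀ H' H'.2
        have hUX : U ≤ X := hUR₀.trans (hR₀R.trans hRX)
        have hxU : x ∈ U := hU ▸ hx
        have hprod : f ⟨x, hWR₀ H' H'.2 hx⟩ ∈ (U.subgroupOf R₀).map (QuotientGroup.mk' _) :=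
          Subgroup.prod_mem _ fun h _ => ⟨_, Subgroup.mem_subgroupOf.mpr
            ((Subgroup.mem_normalizer_iff.mp (hAU (h𝓗 H hH h.2)) _).mp hxU), rfl⟩
        obtain ⟨z, hz, hzx⟩ := hprod
        have hzU : (z : G) ∈ U := hz
        have hfix : ∀ a ∈ H, (z : G)⁻¹ * a * z * a⁻¹ ∈ N ⊓ U := by
          intro a ha
          have haz : a * z * a⁻¹ ∈ U := (Subgroup.mem_normalizer_iff.mp (hAU (h𝓗 H hH ha)) _).mp hzU
          refine ⟨?_, by rw [show (z : G)⁻¹ * a * z * a⁻¹ = (z : G)⁻¹ * (a * z * a⁻¹) by group]; exact U.mul_mem (U.inv_mem hzU) haz⟩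
          have h1 : ((⟨_, hconj ⟨a, ha⟩ z⟩ : ↥R₀) : ↥R₀ ⧸ N.subgroupOf R₀) = (z : ↥R₀ ⧸ N.subgroupOf R₀) := by
            -- the average is fixed by `H`
            let σ : ↥R₀ →* ↥R₀ :=
              { toFun := fun y => ⟨_, hconj ⟨a, ha⟩ y⟩
                map_one' := Subtype.ext (by simp)
                map_mul' := fun y y' => Subtype.ext (by simp [mul_assoc]) }
            have hσN : N.subgroupOf R₀ ≤ (N.subgroupOf R₀).comap σ := fun y hy =>
              Subgroup.mem_subgroupOf.mpr ((Subgroup.mem_normalizer_iff.mp (hAN (h𝓗 H hH ha)) _).mp hy)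
            have h2 : QuotientGroup.map _ _ σ hσN (f ⟨x, hWR₀ H' H'.2 hx⟩) = f ⟨x, hWR₀ H' H'.2 hx⟩ := by
              show QuotientGroup.map _ _ σ hσN (∏ h : ↥H, _) = ∏ h : ↥H, _
              rw [map_prod]
              refine Fintype.prod_equiv (Equiv.mulLeft ⟨a, ha⟩) _ _ fun h => ?_
              show QuotientGroup.map _ _ σ hσN (QuotientGroup.mk _) = _
              rw [QuotientGroup.map_mk]
              congr 1
              apply Subtype.ext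
              simp [σ, mul_assoc]
            rw [← hzx] at h2
            exact h2
          rw [eq_comm, QuotientGroup.eq, Subgroup.mem_subgroupOf] at h1
          rw [show (z : G)⁻¹ * a * z * a⁻¹ = (z : G)⁻¹ * (a * z * a⁻¹) by group]
          exact h1
        obtain ⟨c, ⟨hcU, hcH⟩, hzc⟩ := exists_fixed_of_coset (A := H)
          (CfsgLib.LocalBasic.normalizer_inf_ge ((h𝓗 H hH).trans hAN) ((h𝓗 H hH).trans hAU))
          (hcopN (h𝓗 H hH) (inf_le_left.trans hNX)) (Or.inr hsolH) ((h𝓗 H hH).trans hAU)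
          (hcopN (h𝓗 H hH) hUX) inf_le_right hzU hfix
        have hcW : c ∈ R ⊓ W H := by
          obtain ⟨T, hT1, hT2, -, -, hT5⟩ := hpair H hH H' H'.2
          have hcU' : c ∈ R ⊓ W H' := hU ▸ hcU
          exact ⟨hcU'.1, hT5 H hH ⟨⟨hT2 hcU'.2, hRX hcU'.1⟩, hcH⟩⟩
        refine ⟨⟨c, hWR₀ H hH hcW⟩, Subgroup.mem_subgroupOf.mpr hcW, ?_⟩
        rw [← hzx]
        refine (QuotientGroup.eq.mpr ?_).symm
        exact Subgroup.mem_subgroupOf.mpr hzc.1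
    rintro x ⟨hx, hxH⟩
    have hpow : ((⟨x, hx⟩ : ↥R₀) : ↥R₀ ⧸ N.subgroupOf R₀) ^ Nat.card ↥H ∈ M := by
      have h1 : f ⟨x, hx⟩ = ((⟨x, hx⟩ : ↥R₀) : ↥R₀ ⧸ N.subgroupOf R₀) ^ Nat.card ↥H := by
        show (∏ h : ↥H, _) = _
        rw [Finset.prod_eq_pow_card (b := ((⟨x, hx⟩ : ↥R₀) : ↥R₀ ⧸ N.subgroupOf R₀)) fun h _ => ?_,
          Finset.card_univ, Nat.card_eq_fintype_card]
        congr 1
        apply Subtype.ext
        show (h : G) * x * (h : G)⁻¹ = x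
        rw [Subgroup.mem_centralizer_iff.mp hxH h h.2, mul_inv_cancel_right]
      exact h1 ▸ hgens x hx
    have hmem : ((⟨x, hx⟩ : ↥R₀) : ↥R₀ ⧸ N.subgroupOf R₀) ∈ M := by
      obtain ⟨j, hj⟩ := exists_pow_eq_self_of_coprime
        (n := Nat.card ↥H) (x := ((⟨x, hx⟩ : ↥R₀) : ↥R₀ ⧸ N.subgroupOf R₀))
        ((hcopN (h𝓗 H hH) (hR₀R.trans hRX)).coprime_dvd_right ((orderOf_dvd_natCard _).trans
          (Subgroup.card_quotient_dvd_card _)))
      exact hj ▸ pow_mem hpow j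
    obtain ⟨c, hc, hcx⟩ := hmem
    have hcW : (c : G) ∈ W H := (Subgroup.mem_subgroupOf.mp hc).2
    have hn : (c : G)⁻¹ * x ∈ N := Subgroup.mem_subgroupOf.mp (QuotientGroup.eq.mp hcx)
    have hnH : (c : G)⁻¹ * x ∈ Subgroup.centralizer (H : Set G) := mul_mem (inv_mem ((hW H hH).1 hcW).2) hxH
    have := mul_mem hcW (hNW H hH ⟨hn, hnH⟩)
    rwa [mul_inv_cancel_left] at this
  have hR₀eq : R₀ ≤ N := hNmax ⟨hR₀R.trans hRX, hXR₀, hAR₀, hR₀S⟩ hNR₀
  exact hPR.not_ge (hPmax ⟨hNP.trans hPR.le, hRX, hXR, hAR, fun H hH => (hWR₀ H hH).trans hR₀eq⟩ hPR.le)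

end CfsgLib.CoprimeSignalizer
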