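import Mathlib

/-! p-groups with a cyclic subgroup of index p. -/

set_option autoImplicit false

namespace CfsgLib.CyclicMax

variable {G : Type*} [Group G] [Finite G]

theorem setup {p : ℕ} [hp : Fact p.Prime] {n : ℕ} (hn : 1 ≤ n) (hG : Nat.card G = p ^ n) (C : Subgroup G)
    (hC : IsCyclic C) (hCi : C.index = p) (hna : ∃ x y : G, x * y ≠ y * x) :
    ∃ (a b : G) (r s : ℤ), orderOf a = p ^ (n - 1) ∧ b ∉ Subgroup.zpowers a ∧ b * a * b⁻¹ = a ^ r ∧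
      b ^ p = a ^ s ∧ a ^ (r ^ p) = a ∧ a ^ r ≠ a ∧ a ^ (r * s) = a ^ s := by
  obtain ⟨⟨a, haC⟩, ha⟩ := IsCyclic.exists_generator (α := C)
  have hCa : C = Subgroup.zpowers a := by
    refine le_antisymm (fun x hx => ?_) (Subgroup.zpowers_le.mpr haC)
    obtain ⟨k, hk⟩ := ha ⟨x, hx⟩
    exact ⟨k, by simpa using congrArg Subtype.val hk⟩
  subst hCa
  have hord : orderOf a = p ^ (n - 1) := by
    have h := Subgroup.card_mul_index (Subgroup.zpowers a)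
    rw [Nat.card_zpowers, hCi, hG, show p ^ n = p ^ (n - 1) * p by rw [← pow_succ, Nat.sub_add_cancel hn]] at h
    exact Nat.eq_of_mul_eq_mul_right hp.out.pos h
  haveI hCn : (Subgroup.zpowers a).Normal := Subgroup.normal_of_index_eq_minFac_card (by
    rw [hCi, hG, hp.out.pow_minFac (by omega)])
  obtain ⟨b, hb⟩ : ∃ b : G, b ∉ Subgroup.zpowers a := by
    by_contra hc
    push Not at hc
    exact hp.out.ne_one (hCi.symm.trans (Subgroup.index_eq_one.mpr ((Subgroup.eq_top_iff' _).mpr hc)))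
  obtain ⟨r, hr⟩ := hCn.conj_mem a (Subgroup.mem_zpowers a) b
  obtain ⟨s, hs⟩ : b ^ p ∈ Subgroup.zpowers a := by
    have := Subgroup.pow_index_mem (Subgroup.zpowers a) b
    rwa [hCi] at this
  change a ^ r = b * a * b⁻¹ at hr
  change a ^ s = b ^ p at hs
  have hpow : ∀ i : ℕ, b ^ i * a * (b ^ i)⁻¹ = a ^ (r ^ i) := by
    intro i
    induction i with
    | zero => simp
    | succ i ih =>
      rw [pow_succ', show b * b ^ i * a * (b * b ^ i)⁻¹ = b * (b ^ i * a * (b ^ i)⁻¹) * b⁻¹ by group, ih, ← conj_zpow,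
        ← hr, ← zpow_mul, pow_succ']
  refine ⟨a, b, r, s, hord, hb, hr.symm, hs.symm, ?_, ?_, ?_⟩
  · rw [← hpow p, ← hs, (Commute.refl a).zpow_left s |>.eq, mul_inv_cancel_right]
  · intro h
    obtain ⟨x, y, hxy⟩ := hna
    apply hxy
    have hab : Commute b a := by
      rw [h] at hr
      exact mul_inv_eq_iff_eq_mul.mp hr.symm
    have htop : Subgroup.zpowers a ⊔ Subgroup.zpowers b = ⊤ := by
      rw [← Subgroup.index_eq_one]
      have h1 := Subgroup.index_dvd_of_le (le_sup_left : Subgroup.zpowers a ≤ Subgroup.zpowers a ⊔ Subgroup.zpowers b)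
      rw [hCi] at h1
      refine ((Nat.dvd_prime hp.out).mp h1).resolve_right fun h2 => hb ?_
      have h3 := Subgroup.eq_of_le_of_card_ge (le_sup_left : Subgroup.zpowers a ≤ Subgroup.zpowers a ⊔ Subgroup.zpowers b) (by
        have e1 := Subgroup.card_mul_index (Subgroup.zpowers a ⊔ Subgroup.zpowers b)
        have e2 := Subgroup.card_mul_index (Subgroup.zpowers a)
        rw [h2] at e1; rw [hCi] at e2
        exact (Nat.eq_of_mul_eq_mul_right hp.out.pos (e1.trans e2.symm)).le)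
      exact h3.symm ▸ Subgroup.mem_sup_right (Subgroup.mem_zpowers b)
    obtain ⟨u, ⟨i, rfl⟩, v, ⟨j, rfl⟩, rfl⟩ := Subgroup.mem_sup_of_normal_left.mp (htop.symm ▸ Subgroup.mem_top x)
    obtain ⟨u, ⟨i', rfl⟩, v, ⟨j', rfl⟩, rfl⟩ := Subgroup.mem_sup_of_normal_left.mp (htop.symm ▸ Subgroup.mem_top y)
    show Commute (a ^ i * b ^ j) (a ^ i' * b ^ j')
    exact (((Commute.refl a).zpow_zpow i i').mul_right (hab.symm.zpow_zpow i j')).mul_left
      ((hab.zpow_zpow j i').mul_right ((Commute.refl b).zpow_zpow j j'))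
  · have h1 : b * a ^ s * b⁻¹ = a ^ s := by rw [hs, ← pow_succ', pow_succ, mul_inv_cancel_right]
    rwa [← conj_zpow, ← hr, ← zpow_mul] at h1

/-- square roots of one modulo a power of two -/
theorem sq_root_two {m : ℕ} {r : ℤ} (hm : 1 ≤ m) (h : (2 : ℤ) ^ m ∣ r ^ 2 - 1) :
    (2 : ℤ) ^ (m - 1) ∣ r - 1 ∨ (2 : ℤ) ^ (m - 1) ∣ r + 1 := by
  rcases Int.even_or_odd r with ⟨k, hk⟩ | ⟨k, hk⟩
  · exfalso
    have h2 : (2 : ℤ) ∣ r ^ 2 - 1 := (dvd_pow_self 2 (by omega)).trans h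
    have : (2 : ℤ) ∣ 1 := by
      have h3 : (2 : ℤ) ∣ r ^ 2 := ⟨2 * k * k, by rw [hk]; ring⟩
      have := dvd_sub h3 h2
      rwa [sub_sub_cancel] at this
    norm_num at this
  · rcases Nat.lt_or_ge m 2 with hm2 | hm2
    · left; rw [show m - 1 = 0 by omega, pow_zero]; exact one_dvd _
    obtain ⟨m', rfl⟩ := Nat.exists_eq_add_of_le hm2
    have h4 : (2 : ℤ) ^ m' ∣ k * (k + 1) := by
      refine Int.dvd_of_mul_dvd_mul_left (a := 4) (by norm_num) ?_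
      rw [show r ^ 2 - 1 = 4 * (k * (k + 1)) by rw [hk]; ring] at h
      rw [show (4 : ℤ) * 2 ^ m' = 2 ^ (2 + m') by rw [pow_add]; norm_num]
      exact h
    rcases Int.even_or_odd k with hk2 | hk2
    · left
      have hc : IsCoprime ((2 : ℤ) ^ m') (k + 1) := by
        refine IsCoprime.pow_left ?_
        obtain ⟨l, hl⟩ := hk2
        exact ⟨-l, 1, by rw [hl]; ring⟩
      obtain ⟨c, hc'⟩ := hc.dvd_of_dvd_mul_right h4
      exact ⟨c, by rw [show 2 + m' - 1 = m' + 1 by omega, hk, hc', pow_succ]; ring⟩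
    · right
      have hc : IsCoprime ((2 : ℤ) ^ m') k := by
        refine IsCoprime.pow_left ?_
        obtain ⟨l, hl⟩ := hk2
        exact ⟨-l, 1, by rw [hl]; ring⟩
      obtain ⟨c, hc'⟩ := hc.dvd_of_dvd_mul_left h4
      exact ⟨c, by rw [show 2 + m' - 1 = m' + 1 by omega, hk, pow_succ]; linear_combination 2 * hc'⟩

theorem two_case {n : ℕ} (hn : 3 ≤ n) (hG : Nat.card G = 2 ^ n) (C : Subgroup G) (hC : IsCyclic C)
    (hCi : C.index = 2) (hna : ∃ x y : G, x * y ≠ y * x) :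
    ∃ a b : G, orderOf a = 2 ^ (n - 1) ∧ b ∉ Subgroup.zpowers a ∧ ((b ^ 2 = 1 ∧ b * a * b⁻¹ = a⁻¹) ∨
      (b ^ 2 = a ^ (2 ^ (n - 2)) ∧ b * a * b⁻¹ = a⁻¹) ∨ (4 ≤ n ∧ b ^ 2 = 1 ∧ b * a * b⁻¹ = a ^ (1 + 2 ^ (n - 2))) ∨
      (4 ≤ n ∧ b ^ 2 = 1 ∧ b * a * b⁻¹ = a ^ (2 ^ (n - 2) - 1))) := by
  haveI : Fact (Nat.Prime 2) := ⟨Nat.prime_two⟩
  obtain ⟨a, b, r, s, hord, hb, hr, hs, hr2, hr1, hrs⟩ := setup (by omega) hG C hC hCi hna
  obtain ⟨e, rfl⟩ := Nat.exists_eq_add_of_le hn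
  have hord' := hord
  rw [show 3 + e - 1 = e + 2 by omega] at hord
  rw [show 3 + e - 2 = e + 1 by omega]
  have hz : ∀ i j : ℤ, a ^ i = a ^ j ↔ (2 : ℤ) ^ (e + 2) ∣ i - j := fun i j => by
    rw [zpow_eq_zpow_iff_modEq, hord, Int.modEq_iff_dvd, Nat.cast_pow, Nat.cast_ofNat, ← dvd_neg, neg_sub]
  have hdv : (2 : ℤ) ^ (e + 2) ∣ r ^ 2 - 1 := (hz _ _).mp (by rw [hr2, zpow_one])
  have hne : ¬ (2 : ℤ) ^ (e + 2) ∣ r - 1 := fun h => hr1 (by rw [(hz r 1).mpr h, zpow_one])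
  have hsd : (2 : ℤ) ^ (e + 2) ∣ r * s - s := (hz _ _).mp hrs
  -- change of representative
  have hmul : ∀ t : ℤ, (b * a ^ t) * a * (b * a ^ t)⁻¹ = a ^ r ∧ (b * a ^ t) ^ 2 = a ^ (r * t + r ^ 2 * t + s) ∧
      b * a ^ t ∉ Subgroup.zpowers a := fun t => by
    have hc : ∀ i : ℤ, b * a ^ i * b⁻¹ = a ^ (r * i) := fun i => by rw [← conj_zpow, hr, ← zpow_mul]
    refine ⟨?_, ?_, fun h => hb ?_⟩
    · rw [show b * a ^ t * a * (b * a ^ t)⁻¹ = b * (a ^ t * a * (a ^ t)⁻¹) * b⁻¹ by group,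
        ((Commute.refl a).zpow_left t).eq, mul_inv_cancel_right, hr]
    · calc (b * a ^ t) ^ 2 = (b * a ^ t * b⁻¹) * (b * (b * a ^ t * b⁻¹) * b⁻¹) * b ^ 2 := by rw [sq, sq]; group
        _ = _ := by rw [hc, hc, hs, ← zpow_add, ← zpow_add, ← mul_assoc, ← pow_two r]
    · have := mul_mem h (inv_mem (zpow_mem (Subgroup.mem_zpowers a) t))
      rwa [mul_inv_cancel_right] at this
  have hP : (2 : ℤ) ^ (e + 2) = 2 * 2 ^ (e + 1) := by rw [pow_succ]; ring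
  rw [hP] at hz hdv hne hsd
  obtain ⟨k, hk⟩ := hsd
  have hcase : (1 ≤ e ∧ ∃ d : ℤ, r = 1 + 2 ^ (e + 1) * (2 * d + 1)) ∨ (∃ d : ℤ, r = -1 + 2 * 2 ^ (e + 1) * d) ∨
      (1 ≤ e ∧ ∃ d : ℤ, r = -1 + 2 ^ (e + 1) * (2 * d + 1)) := by
    have := sq_root_two (m := e + 2) (by omega) (hP.symm ▸ hdv)
    rw [show e + 2 - 1 = e + 1 by omega] at this
    rcases this with ⟨c, hc⟩ | ⟨c, hc⟩ <;> rcases Int.even_or_odd c with ⟨d, hd⟩ | ⟨d, hd⟩
    · exact absurd ⟨d, by rw [hc, hd]; ring⟩ hne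
    · rcases Nat.eq_zero_or_pos e with rfl | he
      · exact Or.inr (Or.inl ⟨d + 1, by linear_combination hc + 2 * hd⟩)
      · exact Or.inl ⟨he, d, by rw [← hd]; linear_combination hc⟩
    · exact Or.inr (Or.inl ⟨d, by linear_combination hc + 2 ^ (e + 1) * hd⟩)
    · rcases Nat.eq_zero_or_pos e with rfl | he
      · exact absurd ⟨d, by linear_combination hc + 2 * hd⟩ hne
      · exact Or.inr (Or.inr ⟨he, d, by rw [← hd]; linear_combination hc⟩)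
  rcases hcase with ⟨he, d, hd⟩ | ⟨d, hd⟩ | ⟨he, d, hd⟩
  · obtain ⟨Q, hQ, hQ2⟩ : ∃ Q : ℤ, (2 : ℤ) ^ (e + 1) = 2 * Q ∧ ∃ Q' : ℤ, Q = 2 * Q' := by
      obtain ⟨f, rfl⟩ := Nat.exists_eq_add_of_le he
      exact ⟨2 * 2 ^ f, by rw [show 1 + f + 1 = f + 2 by omega, pow_succ, pow_succ]; ring, _, rfl⟩
    obtain ⟨Q', rfl⟩ := hQ2
    have hP0 : (2 : ℤ) ^ (e + 1) ≠ 0 := pow_ne_zero _ (by norm_num)
    obtain ⟨s', rfl⟩ : ∃ s' : ℤ, s = 2 * s' := by
      refine ⟨k - d * s, mul_left_cancel₀ hP0 ?_⟩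
      subst hd
      linear_combination hk
    obtain ⟨u, hu, l, hl⟩ : ∃ u : ℤ, r + r ^ 2 = 2 * u ∧ ∃ l : ℤ, u = 2 * l + 1 := by
      refine ⟨r * (1 + 2 * Q' * (2 * d + 1)), by rw [hd, hQ]; ring,
        2 * Q' * (2 * d + 1) * (1 + 2 * Q' * (2 * d + 1)) + Q' * (2 * d + 1), by rw [hd, hQ]; ring⟩
    obtain ⟨x, y, hxy⟩ : IsCoprime u ((2 : ℤ) ^ (e + 1)) := IsCoprime.pow_right ⟨1, -l, by rw [hl]; ring⟩
    obtain ⟨h1, h2, h3⟩ := hmul (-(s' * x))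
    refine ⟨a, b * a ^ (-(s' * x)), hord', h3, Or.inr (Or.inr (Or.inl ⟨by omega, ?_, ?_⟩))⟩
    · rw [h2, ← zpow_zero a]
      exact (hz _ _).mpr ⟨s' * y, by linear_combination (-(2 * s')) * hxy - s' * x * hu⟩
    · rw [h1, ← zpow_natCast a]
      exact (hz _ _).mpr ⟨d, by push_cast; linear_combination hd⟩
  · have hr' : a ^ r = a⁻¹ := by rw [← zpow_neg_one]; exact (hz _ _).mpr ⟨d, by linear_combination hd⟩
    obtain ⟨l, hl⟩ : ∃ l : ℤ, s = 2 ^ (e + 1) * l := by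
      refine ⟨d * s - k, mul_left_cancel₀ (show (2 : ℤ) ≠ 0 by norm_num) ?_⟩
      subst hd
      linear_combination -hk
    refine ⟨a, b, hord', hb, ?_⟩
    rcases Int.even_or_odd l with ⟨m, hm⟩ | ⟨m, hm⟩
    · refine Or.inl ⟨?_, hr.trans hr'⟩
      rw [hs, ← zpow_zero a]; exact (hz _ _).mpr ⟨m, by rw [hl, hm]; ring⟩
    · refine Or.inr (Or.inl ⟨?_, hr.trans hr'⟩)
      rw [hs, ← zpow_natCast a]; exact (hz _ _).mpr ⟨m, by push_cast; rw [hl, hm]; ring⟩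
  · obtain ⟨Q, hQ, hQ2⟩ : ∃ Q : ℤ, (2 : ℤ) ^ (e + 1) = 2 * Q ∧ ∃ Q' : ℤ, Q = 2 * Q' := by
      obtain ⟨f, rfl⟩ := Nat.exists_eq_add_of_le he
      exact ⟨2 * 2 ^ f, by rw [show 1 + f + 1 = f + 2 by omega, pow_succ, pow_succ]; ring, _, rfl⟩
    obtain ⟨Q', rfl⟩ := hQ2
    obtain ⟨l, hl⟩ : (2 : ℤ) ^ (e + 1) ∣ s := by
      have hco : IsCoprime ((2 : ℤ) ^ (e + 1)) (2 * Q' * (2 * d + 1) - 1) := IsCoprime.pow_left ⟨Q' * (2 * d + 1), -1, by ring⟩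
      refine hco.dvd_of_dvd_mul_left ⟨k, mul_left_cancel₀ (show (2 : ℤ) ≠ 0 by norm_num) ?_⟩
      rw [hd, hQ] at hk; rw [hQ]; linear_combination hk
    obtain ⟨h1, h2, h3⟩ := hmul l
    refine ⟨a, b * a ^ l, hord', h3, Or.inr (Or.inr (Or.inr ⟨by omega, ?_, ?_⟩))⟩
    · rw [h2, ← zpow_zero a]
      exact (hz _ _).mpr ⟨l * (2 * Q' * (2 * d + 1) * (2 * d + 1) - d), by
        rw [hl, hd, hQ]; ring⟩
    · rw [h1, ← zpow_natCast a, Nat.cast_sub Nat.one_le_two_pow]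
      exact (hz _ _).mpr ⟨d, by push_cast; linear_combination hd⟩

omit [Finite G] in
theorem one_add_pow (x : ℤ) (q : ℤ) (i : ℕ) : ∃ z : ℤ, (1 + q * x) ^ i = 1 + i * (q * x) + q ^ 2 * z := by
  induction i with
  | zero => exact ⟨0, by simp⟩
  | succ i ih =>
    obtain ⟨z, hz⟩ := ih
    exact ⟨z + (i : ℤ) * x ^ 2 + q * x * z, by rw [pow_succ, hz]; push_cast; ring⟩

omit [Finite G] in
theorem geom_mod {p : ℕ} (hp : Odd p) (x : ℤ) :
    ∃ y : ℤ, ∑ i ∈ Finset.range p, (1 + (p : ℤ) * x) ^ i = p * (1 + p * y) := by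
  choose z hz using fun i => one_add_pow x (p : ℤ) i
  obtain ⟨h, hh⟩ := hp
  refine ⟨x * h + ∑ i ∈ Finset.range p, z i, ?_⟩
  rw [Finset.sum_congr rfl fun i _ => hz i, Finset.sum_add_distrib, Finset.sum_add_distrib, ← Finset.mul_sum,
    ← Finset.sum_mul, Finset.sum_const, Finset.card_range, nsmul_one]
  have h2 : ((∑ i ∈ Finset.range p, (i : ℤ)) : ℤ) = p * h := by
    have h3 := Finset.sum_range_id_mul_two p
    rw [show p - 1 = 2 * h by omega] at h3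
    have h4 : (∑ i ∈ Finset.range p, i) = p * h := by linarith
    rw [← Nat.cast_sum, h4, Nat.cast_mul]
  rw [h2]; ring

theorem odd_case {p : ℕ} [hp : Fact p.Prime] (hp2 : p ≠ 2) {n : ℕ} (hn : 3 ≤ n) (hG : Nat.card G = p ^ n)
    (C : Subgroup G) (hC : IsCyclic C) (hCi : C.index = p) (hna : ∃ x y : G, x * y ≠ y * x) :
    ∃ a b : G, orderOf a = p ^ (n - 1) ∧ orderOf b = p ∧ b ∉ Subgroup.zpowers a ∧
      b * a * b⁻¹ = a ^ (1 + p ^ (n - 2)) := by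
  obtain ⟨a, b, r, s, hord, hb, hr, hs, hr2, hr1, hrs⟩ := setup (by omega) hG C hC hCi hna
  have hodd : Odd p := hp.out.odd_of_ne_two hp2
  obtain ⟨e, rfl⟩ := Nat.exists_eq_add_of_le hn
  have hord' := hord
  rw [show 3 + e - 1 = e + 2 by omega] at hord
  rw [show 3 + e - 2 = e + 1 by omega]
  set P : ℤ := (p : ℤ) ^ (e + 1) with hPd
  have hM : ((p ^ (e + 2) : ℕ) : ℤ) = p * P := by rw [hPd]; push_cast; ring
  have hz : ∀ i j : ℤ, a ^ i = a ^ j ↔ (p : ℤ) * P ∣ i - j := fun i j => by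
    rw [zpow_eq_zpow_iff_modEq, hord, hM, Int.modEq_iff_dvd, ← dvd_neg, neg_sub]
  have hpp : Prime (p : ℤ) := Nat.prime_iff_prime_int.mp hp.out
  have hrp : (p : ℤ) * P ∣ r ^ p - 1 := (hz _ _).mp (by rw [hr2, zpow_one])
  obtain ⟨x, hx⟩ : (p : ℤ) ∣ r - 1 := by
    have h1 : ((r - 1 : ℤ) : ZMod p) = 0 := by
      have h2 : ((r ^ p - 1 : ℤ) : ZMod p) = 0 := (ZMod.intCast_zmod_eq_zero_iff_dvd _ _).mpr ((dvd_mul_right _ P).trans hrp)
      push_cast at h2 ⊢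
      rwa [ZMod.pow_card] at h2
    exact (ZMod.intCast_zmod_eq_zero_iff_dvd _ _).mp h1
  have hr0 : r = 1 + (p : ℤ) * x := by linear_combination hx
  obtain ⟨y, hy⟩ := geom_mod hodd x
  have hcop : ∀ w : ℤ, IsCoprime P (1 + (p : ℤ) * w) := fun w => IsCoprime.pow_left ⟨-w, 1, by ring⟩
  obtain ⟨c, hc⟩ : P ∣ r - 1 := by
    obtain ⟨k, hk⟩ := hrp
    refine (hcop y).dvd_of_dvd_mul_left ⟨k, ?_⟩
    refine mul_left_cancel₀ (hpp.ne_zero) ?_
    have hg := geom_sum_mul (1 + (p : ℤ) * x) p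
    rw [hy, ← hr0, hk] at hg
    linear_combination hg
  have hcp : ¬ (p : ℤ) ∣ c := fun ⟨d, hd⟩ => hr1 (by
    have := (hz r 1).mpr ⟨d, by rw [hc, hd]; ring⟩
    rwa [zpow_one] at this)
  obtain ⟨s1, hs1⟩ : (p : ℤ) ∣ s := by
    obtain ⟨k, hk⟩ := (hz _ _).mp hrs
    have h1 : P * (c * s) = P * (p * k) := by linear_combination hk - s * hc
    exact ((hpp.dvd_or_dvd ⟨k, mul_left_cancel₀ (pow_ne_zero _ hpp.ne_zero) h1⟩).resolve_left hcp)
  obtain ⟨j, hj⟩ : ∃ j : ℕ, (p : ℤ) ∣ (j : ℤ) * c - 1 := by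
    refine ⟨((c : ZMod p)⁻¹).val, (ZMod.intCast_zmod_eq_zero_iff_dvd _ _).mp ?_⟩
    push_cast
    rw [ZMod.natCast_zmod_val, inv_mul_cancel₀ (fun h0 => hcp ((ZMod.intCast_zmod_eq_zero_iff_dvd _ _).mp h0)), sub_self]
  obtain ⟨j1, hj1⟩ := hj
  obtain ⟨z, hz'⟩ := one_add_pow c P j
  set b' := b ^ j with hb'
  have hconj : ∀ i : ℕ, b ^ i * a * (b ^ i)⁻¹ = a ^ (r ^ i) := by
    intro i
    induction i with
    | zero => simp
    | succ i ih =>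
      rw [pow_succ', show b * b ^ i * a * (b * b ^ i)⁻¹ = b * (b ^ i * a * (b ^ i)⁻¹) * b⁻¹ by group, ih, ← conj_zpow,
        hr, ← zpow_mul, pow_succ']
  have hrj : a ^ (r ^ j) = a ^ (1 + P) := by
    refine (hz _ _).mpr ?_
    obtain ⟨q, hq⟩ : (p : ℤ) ∣ P := dvd_pow_self _ (by omega)
    exact ⟨j1 + q * z, by rw [show r = 1 + P * c by linear_combination hc, hz', hq] ; linear_combination (p * q) * hj1⟩
  have hconj' : b' * a * b'⁻¹ = a ^ (1 + P) := by rw [hconj, hrj]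
  obtain ⟨q, hq⟩ : (p : ℤ) ∣ P := dvd_pow_self _ (by omega)
  obtain ⟨y', hy'⟩ := geom_mod hodd q
  obtain ⟨u, v, huv⟩ := hcop y'
  set t : ℤ := -(s1 * j * v) with ht
  have hpw : ∀ i : ℕ, (a ^ t * b') ^ i = a ^ (t * ∑ l ∈ Finset.range i, (1 + (p : ℤ) * q) ^ l) * b' ^ i := by
    intro i
    induction i with
    | zero => simp
    | succ i ih =>
      have hbi : ∀ (l : ℕ) (w : ℤ), b' ^ l * a ^ w * (b' ^ l)⁻¹ = a ^ (w * (1 + (p : ℤ) * q) ^ l) := by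
        intro l
        induction l with
        | zero => intro w; simp
        | succ l ih' =>
          intro w
          rw [pow_succ', show b' * b' ^ l * a ^ w * (b' * b' ^ l)⁻¹ = b' * (b' ^ l * a ^ w * (b' ^ l)⁻¹) * b'⁻¹ by group,
            ih', ← conj_zpow, hconj', hq, ← zpow_mul]
          congr 1; ring
      rw [pow_succ, ih, Finset.sum_range_succ, mul_add, zpow_add, ← hbi i t, pow_succ]
      group
  have hbn : a ^ t * b' ∉ Subgroup.zpowers a := fun h => by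
    apply hb
    have h1 : b' ∈ Subgroup.zpowers a := by
      have := mul_mem (inv_mem (zpow_mem (Subgroup.mem_zpowers a) t)) h
      rwa [inv_mul_cancel_left] at this
    have h2 : b ^ p ∈ Subgroup.zpowers a := hs ▸ zpow_mem (Subgroup.mem_zpowers a) s
    have hjp : Nat.Coprime p j := hp.out.coprime_iff_not_dvd.mpr fun hd => hpp.not_dvd_one (by
      have := dvd_sub ((Int.natCast_dvd_natCast.mpr hd).mul_right c) (Dvd.intro j1 hj1.symm)
      rwa [sub_sub_cancel] at this)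
    have h3 : b = (b ^ p) ^ Nat.gcdA p j * (b ^ j) ^ Nat.gcdB p j := by
      rw [← zpow_natCast, ← zpow_mul, ← zpow_natCast b j, ← zpow_mul, ← zpow_add, ← Nat.gcd_eq_gcd_ab, hjp.gcd_eq_one]
      simp
    rw [h3]
    exact mul_mem (zpow_mem h2 _) (zpow_mem h1 _)
  refine ⟨a, a ^ t * b', hord', orderOf_eq_prime ?_ (fun h => hbn (h ▸ one_mem _)), hbn, ?_⟩
  · rw [hpw p, hy', hb', ← pow_mul, mul_comm j p, pow_mul, hs, ← zpow_natCast (a ^ s), ← zpow_mul, ← zpow_add, ← zpow_zero a]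
    refine (hz _ _).mpr ⟨s1 * j * u, ?_⟩
    rw [ht, hs1]
    linear_combination (-(p : ℤ) * s1 * j) * huv
  · rw [show a ^ t * b' * a * (a ^ t * b')⁻¹ = a ^ t * (b' * a * b'⁻¹) * (a ^ t)⁻¹ by group, hconj',
      ← zpow_add, ← zpow_neg, ← zpow_add, ← zpow_natCast a]
    congr 1
    rw [hPd]; push_cast; ring

end CfsgLib.CyclicMax
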