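import Mathlib
import Cfsg.Prelude.Def_OddOrderLocal
import Cfsg.Prelude.Def_OddOrderChar
import Cfsg.Agent.Lib.TIInduce
import Cfsg.Agent.Lib.CharAbelian
import Cfsg.Agent.Lib.Virtual
import Cfsg.Agent.S1504

/-! The set `V = W \ (W₁ ∪ W₂)` of a self-normalising cyclic subgroup. -/

set_option autoImplicit false

namespace CfsgLib.CyclicTI

open Cfsg CfsgLib.Chars CfsgLib.Virtual

universe u

variable {G : Type u} [Group G]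

/-- The generalized character `(1-φ)(1-ψ)`. -/
def alpha {W : Type u} [Group W] (φ ψ : W →* ℂˣ) : W → ℂ :=
  fun w => 1 - (φ w : ℂ) - (ψ w : ℂ) + (φ w : ℂ) * (ψ w : ℂ)

def homFun {W : Type u} [Group W] (φ : W →* ℂˣ) : W → ℂ := fun w => (φ w : ℂ)

theorem alpha_eq {W : Type u} [Group W] (φ ψ : W →* ℂˣ) :
    alpha φ ψ = homFun 1 - homFun φ - homFun ψ + homFun (φ * ψ) := by
  funext w; simp [alpha, homFun]

theorem hom_mul_one {W : Type u} [Group W] (a : W →* ℂˣ) : a * 1 = a := MonoidHom.ext fun _ => mul_one _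

theorem hom_one_mul {W : Type u} [Group W] (a : W →* ℂˣ) : 1 * a = a := MonoidHom.ext fun _ => one_mul _

theorem inner_homFun {W : Type u} [Group W] [Fintype W] [DecidableEq (W →* ℂˣ)] (a b : W →* ℂˣ) :
    classInner (homFun a) (homFun b) = if a = b then 1 else 0 := by
  classical
  exact (classInner_irr (homIrr a) (homIrr b)).trans (if_congr homIrr_injective.eq_iff rfl rfl)

theorem hom_ext_sup {W₁ W₂ : Subgroup G} {a b : ↥(W₁ ⊔ W₂) →* ℂˣ}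
    (h1 : ∀ w : ↥(W₁ ⊔ W₂), (w : G) ∈ W₁ → a w = b w) (h2 : ∀ w : ↥(W₁ ⊔ W₂), (w : G) ∈ W₂ → a w = b w) : a = b := by
  have h : W₁ ⊔ W₂ ≤ (a.eqLocus b).map (W₁ ⊔ W₂).subtype :=
    sup_le (fun x hx => ⟨⟨x, le_sup_left (b := W₂) hx⟩, h1 _ hx, rfl⟩) (fun x hx => ⟨⟨x, le_sup_right (a := W₁) hx⟩, h2 _ hx, rfl⟩)
  refine MonoidHom.ext fun w => ?_
  obtain ⟨v, hv, e⟩ := h w.2
  obtain rfl : v = w := Subtype.ext e
  exact hv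

/-- Products of a character trivial on `W₂` with one trivial on `W₁` determine the factors. -/
theorem pair_inj {W₁ W₂ : Subgroup G} {a b c d : ↥(W₁ ⊔ W₂) →* ℂˣ}
    (ha : ∀ w : ↥(W₁ ⊔ W₂), (w : G) ∈ W₂ → a w = 1) (hb : ∀ w : ↥(W₁ ⊔ W₂), (w : G) ∈ W₂ → b w = 1)
    (hc : ∀ w : ↥(W₁ ⊔ W₂), (w : G) ∈ W₁ → c w = 1) (hd : ∀ w : ↥(W₁ ⊔ W₂), (w : G) ∈ W₁ → d w = 1) :
    a * c = b * d ↔ a = b ∧ c = d := by
  refine ⟨fun h => ?_, fun ⟨e, e'⟩ => by rw [e, e']⟩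
  have hab : a = b := hom_ext_sup (fun w hw => by simpa [hc w hw, hd w hw] using DFunLike.congr_fun h w)
    (fun w hw => by rw [ha w hw, hb w hw])
  subst hab
  exact ⟨rfl, mul_left_cancel h⟩

theorem alpha_gram [Finite G] {W₁ W₂ : Subgroup G} [Fintype ↥(W₁ ⊔ W₂)] [DecidableEq (↥(W₁ ⊔ W₂) →* ℂˣ)]
    {φ φ' ψ ψ' : ↥(W₁ ⊔ W₂) →* ℂˣ}
    (hφ : φ ≠ 1) (hφ' : φ' ≠ 1) (hψ : ψ ≠ 1) (hψ' : ψ' ≠ 1)
    (hφ₂ : ∀ w : ↥(W₁ ⊔ W₂), (w : G) ∈ W₂ → φ w = 1 ∧ φ' w = 1)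
    (hψ₁ : ∀ w : ↥(W₁ ⊔ W₂), (w : G) ∈ W₁ → ψ w = 1 ∧ ψ' w = 1) :
    classInner (alpha φ ψ) (homFun 1) = 1 ∧
    classInner (alpha φ ψ) (alpha φ' ψ') = 1 + (if φ = φ' then 1 else 0) + (if ψ = ψ' then 1 else 0) +
      (if φ = φ' then 1 else 0) * (if ψ = ψ' then 1 else 0) := by
  have o : ∀ w : ↥(W₁ ⊔ W₂), (w : G) ∈ W₁ → (1 : ↥(W₁ ⊔ W₂) →* ℂˣ) w = 1 := fun _ _ => rfl
  have o' : ∀ w : ↥(W₁ ⊔ W₂), (w : G) ∈ W₂ → (1 : ↥(W₁ ⊔ W₂) →* ℂˣ) w = 1 := fun _ _ => rfl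
  have a := fun w hw => (hφ₂ w hw).1
  have a' := fun w hw => (hφ₂ w hw).2
  have c := fun w hw => (hψ₁ w hw).1
  have c' := fun w hw => (hψ₁ w hw).2
  have key : ∀ x y x' y' : ↥(W₁ ⊔ W₂) →* ℂˣ, (∀ w : ↥(W₁ ⊔ W₂), (w : G) ∈ W₂ → x w = 1 ∧ x' w = 1) →
      (∀ w : ↥(W₁ ⊔ W₂), (w : G) ∈ W₁ → y w = 1 ∧ y' w = 1) →
      classInner (homFun (x * y)) (homFun (x' * y')) = (if x = x' then 1 else 0) * (if y = y' then 1 else 0) := by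
    intro x y x' y' hx hy
    rw [inner_homFun]
    have := pair_inj (fun w hw => (hx w hw).1) (fun w hw => (hx w hw).2) (fun w hw => (hy w hw).1) (fun w hw => (hy w hw).2)
    by_cases e : x = x' <;> by_cases e' : y = y' <;> simp [this, e, e']
  obtain ⟨P, hP⟩ : ∃ P : Set (↥(W₁ ⊔ W₂) →* ℂˣ), P = {x | ∀ w : ↥(W₁ ⊔ W₂), (w : G) ∈ W₂ → x w = 1} := ⟨_, rfl⟩
  obtain ⟨Q, hQ⟩ : ∃ Q : Set (↥(W₁ ⊔ W₂) →* ℂˣ), Q = {x | ∀ w : ↥(W₁ ⊔ W₂), (w : G) ∈ W₁ → x w = 1} := ⟨_, rfl⟩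
  have hk : ∀ x y x' y', x ∈ P → x' ∈ P → y ∈ Q → y' ∈ Q →
      classInner (homFun (x * y)) (homFun (x' * y')) = (if x = x' then 1 else 0) * (if y = y' then 1 else 0) := by
    subst hP hQ
    exact fun x y x' y' h1 h2 h3 h4 => key x y x' y' (fun w hw => ⟨h1 w hw, h2 w hw⟩) (fun w hw => ⟨h3 w hw, h4 w hw⟩)
  have p1 : (1 : ↥(W₁ ⊔ W₂) →* ℂˣ) ∈ P := hP ▸ o'
  have q1 : (1 : ↥(W₁ ⊔ W₂) →* ℂˣ) ∈ Q := hQ ▸ o
  have pa : φ ∈ P := hP ▸ a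
  have pa' : φ' ∈ P := hP ▸ a'
  have qc : ψ ∈ Q := hQ ▸ c
  have qc' : ψ' ∈ Q := hQ ▸ c'
  have e1 : ∀ x y : ↥(W₁ ⊔ W₂) →* ℂˣ,
      alpha x y = homFun (1 * 1) - homFun (x * 1) - homFun (1 * y) + homFun (x * y) := fun x y => by
    rw [alpha_eq, hom_mul_one x, hom_one_mul y, hom_one_mul]
  have e3 : homFun (1 : ↥(W₁ ⊔ W₂) →* ℂˣ) = homFun (1 * 1) := by rw [hom_one_mul]
  constructor
  · rw [e1, e3]
    simp only [ci_add_left, ci_sub_left]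
    rw [hk 1 1 1 1 p1 p1 q1 q1, hk φ 1 1 1 pa p1 q1 q1, hk 1 ψ 1 1 p1 p1 qc q1, hk φ ψ 1 1 pa p1 qc q1]
    simp [hφ, hψ]
  · rw [e1, e1]
    simp only [ci_add_left, ci_sub_left, ci_add_right, ci_sub_right]
    rw [hk 1 1 1 1 p1 p1 q1 q1, hk φ 1 1 1 pa p1 q1 q1, hk 1 ψ 1 1 p1 p1 qc q1, hk φ ψ 1 1 pa p1 qc q1,
      hk 1 1 φ' 1 p1 pa' q1 q1, hk φ 1 φ' 1 pa pa' q1 q1, hk 1 ψ φ' 1 p1 pa' qc q1, hk φ ψ φ' 1 pa pa' qc q1,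
      hk 1 1 1 ψ' p1 p1 q1 qc', hk φ 1 1 ψ' pa p1 q1 qc', hk 1 ψ 1 ψ' p1 p1 qc qc', hk φ ψ 1 ψ' pa p1 qc qc',
      hk 1 1 φ' ψ' p1 pa' q1 qc', hk φ 1 φ' ψ' pa pa' q1 qc', hk 1 ψ φ' ψ' p1 pa' qc qc', hk φ ψ φ' ψ' pa pa' qc qc']
    simp only [↓reduceIte, if_neg hφ, if_neg hψ, if_neg hφ'.symm, if_neg hψ'.symm]
    ring

theorem conj_mem_of_cyclic [Finite G] {W A : Subgroup G} [IsCyclic ↥W] (hA : A ≤ W) {g : G}
    (hg : ∀ x ∈ W, g * x * g⁻¹ ∈ W) {a : G} (ha : a ∈ A) : g * a * g⁻¹ ∈ A := by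
  classical
  haveI := Fintype.ofFinite ↥W
  let s : Finset ↥W := Finset.univ.filter fun x => (x : G) ∈ A
  let t : Finset ↥W := Finset.univ.filter fun x => x ^ Nat.card A = 1
  have hst : s ⊆ t := fun x hx => by
    simp only [s, t, Finset.mem_filter, Finset.mem_univ, true_and] at hx ⊢
    refine Subtype.ext ?_
    have := congrArg Subtype.val (pow_card_eq_one' (x := (⟨(x : G), hx⟩ : A)))
    simp only [SubmonoidClass.coe_pow, OneMemClass.coe_one] at this ⊢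
    exact this
  have hs : s.card = Nat.card A := by
    rw [← Fintype.card_subtype, ← Nat.card_eq_fintype_card]
    exact Nat.card_congr (Subgroup.subgroupOfEquivOfLe hA).toEquiv
  have ht : t.card ≤ Nat.card A := IsCyclic.card_pow_eq_one_le Nat.card_pos
  have := Finset.eq_of_subset_of_card_le hst (by rw [hs]; exact ht)
  have hm : (⟨g * a * g⁻¹, hg a (hA ha)⟩ : ↥W) ∈ t := by
    simp only [t, Finset.mem_filter, Finset.mem_univ, true_and]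
    refine Subtype.ext ?_
    have h1 := congrArg Subtype.val (pow_card_eq_one' (x := (⟨a, ha⟩ : A)))
    simp only [SubmonoidClass.coe_pow, OneMemClass.coe_one] at h1 ⊢
    rw [conj_pow, h1, mul_one, mul_inv_cancel]
  rw [← this] at hm
  simpa [s] using hm

/-- The set `W \ (W₁ ∪ W₂)` is TI with normaliser `W`. -/
theorem ti [Finite G] {W₁ W₂ : Subgroup G} (hW : IsSelfNormalizingCyclic W₁ W₂) {g : G} (hg : g ∉ W₁ ⊔ W₂)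
    {t : G} (ht : t ∈ (↑(W₁ ⊔ W₂) : Set G) \ (↑W₁ ∪ ↑W₂)) :
    g * t * g⁻¹ ∉ (↑(W₁ ⊔ W₂) : Set G) \ (↑W₁ ∪ ↑W₂) := by
  obtain ⟨-, -, -, -, hcyc, hN⟩ := hW
  haveI := hcyc
  intro hs
  have hc : ∀ t ∈ (↑(W₁ ⊔ W₂) : Set G) \ (↑W₁ ∪ ↑W₂), ∀ x, x ∈ W₁ ⊔ W₂ ↔ x * t = t * x := fun t ht x => by
    rw [← hN {t} (Set.singleton_subset_iff.2 ht) (Set.singleton_nonempty t), Subgroup.mem_set_normalizer_iff]
    constructor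
    · intro h
      have := (h t).1 rfl
      rw [Set.mem_singleton_iff, mul_inv_eq_iff_eq_mul] at this
      exact this
    · intro h u
      rw [Set.mem_singleton_iff, Set.mem_singleton_iff, mul_inv_eq_iff_eq_mul, ← h, mul_left_cancel_iff]
  have hmap : ∀ x ∈ W₁ ⊔ W₂, g * x * g⁻¹ ∈ W₁ ⊔ W₂ := fun x hx => (hc _ hs _).2 (by
    have h1 := (hc t ht x).1 hx
    rw [show g * x * g⁻¹ * (g * t * g⁻¹) = g * (x * t) * g⁻¹ by group, h1]; group)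
  have hmap' : ∀ x ∈ W₁ ⊔ W₂, g⁻¹ * x * g⁻¹⁻¹ ∈ W₁ ⊔ W₂ := fun x hx => (hc t ht _).2 (by
    have h1 := (hc _ hs x).1 hx
    rw [show g⁻¹ * x * g⁻¹⁻¹ * t = g⁻¹ * (x * (g * t * g⁻¹)) * g by group, h1]; group)
  refine hg ((hN _ subset_rfl ⟨t, ht⟩) ▸ Subgroup.mem_set_normalizer_iff.2 fun u => ?_)
  have e : g⁻¹ * (g * u * g⁻¹) * g⁻¹⁻¹ = u := by group
  constructor
  · rintro ⟨h1, h2⟩
    refine ⟨hmap u h1, fun h => h2 ?_⟩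
    rcases h with h | h
    · have h3 := conj_mem_of_cyclic le_sup_left hmap' h
      rw [e] at h3; exact Or.inl h3
    · have h3 := conj_mem_of_cyclic le_sup_right hmap' h
      rw [e] at h3; exact Or.inr h3
  · rintro ⟨h1, h2⟩
    refine ⟨by have h3 := hmap' _ h1; rwa [e] at h3, fun h => h2 ?_⟩
    rcases h with h | h
    · exact Or.inl (conj_mem_of_cyclic le_sup_left hmap h)
    · exact Or.inr (conj_mem_of_cyclic le_sup_right hmap h)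

theorem alpha_vanish [Finite G] {W₁ W₂ : Subgroup G} (hW : IsSelfNormalizingCyclic W₁ W₂)
    {φ ψ : ↥(W₁ ⊔ W₂) →* ℂˣ} (hφ : ∀ w : ↥(W₁ ⊔ W₂), (w : G) ∈ W₂ → φ w = 1)
    (hψ : ∀ w : ↥(W₁ ⊔ W₂), (w : G) ∈ W₁ → ψ w = 1) (w : ↥(W₁ ⊔ W₂))
    (hw : (w : G) ∉ (↑(W₁ ⊔ W₂) : Set G) \ (↑W₁ ∪ ↑W₂)) : alpha φ ψ w = 0 := by
  refine (Cfsg.Agent.S1504.result W₁ W₂ hW.2.2.1 hW.2.2.2.1).1 φ ψ hφ hψ w ?_
  by_contra h
  exact hw ⟨w.2, fun h' => h h'⟩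

theorem alpha_classFun [Finite G] {W : Subgroup G} (φ ψ : ↥W →* ℂˣ) : IsClassFunction ↥W (alpha φ ψ) := by
  intro a b; simp [alpha, mul_comm, mul_left_comm]

theorem gram_ind [Fintype G] {W₁ W₂ : Subgroup G} [Fintype ↥(W₁ ⊔ W₂)] (hW : IsSelfNormalizingCyclic W₁ W₂)
    {φ φ' ψ ψ' : ↥(W₁ ⊔ W₂) →* ℂˣ}
    (hφ₂ : ∀ w : ↥(W₁ ⊔ W₂), (w : G) ∈ W₂ → φ w = 1 ∧ φ' w = 1)
    (hψ₁ : ∀ w : ↥(W₁ ⊔ W₂), (w : G) ∈ W₁ → ψ w = 1 ∧ ψ' w = 1) :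
    classInner (indFun (W₁ ⊔ W₂) (alpha φ ψ)) (indFun (W₁ ⊔ W₂) (alpha φ' ψ')) =
      classInner (alpha φ ψ) (alpha φ' ψ') := by
  rw [CfsgLib.Chars.frobenius _ _ (indFun_isClassFunction _ _)]
  simp only [classInner]
  refine congrArg _ (Finset.sum_congr rfl fun w _ => ?_)
  by_cases hw : (w : G) ∈ (↑(W₁ ⊔ W₂) : Set G) \ (↑W₁ ∪ ↑W₂)
  · rw [CfsgLib.TIInduce.indFun_eq (W₁ ⊔ W₂) _ (fun g hg t ht h => absurd h (ti hW hg ht)) (alpha φ' ψ')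
      (alpha_classFun _ _) (fun x hx => alpha_vanish hW (fun v hv => (hφ₂ v hv).2) (fun v hv => (hψ₁ v hv).2) x hx) w hw
      (fun e => hw.2 (Or.inl (e ▸ W₁.one_mem)))]
  · rw [alpha_vanish hW (fun v hv => (hφ₂ v hv).1) (fun v hv => (hψ₁ v hv).1) w hw, zero_mul, zero_mul]

end CfsgLib.CyclicTI
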