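import Mathlib
import Cfsg.Agent.Lib.CyclicTI

/-! Linear characters of `W = W₁ × W₂` and the vanishing criterion on `V`. -/

set_option autoImplicit false

namespace CfsgLib.CyclicTI

open Cfsg CfsgLib.Chars CfsgLib.Virtual

universe u

variable {G : Type u} [Group G] [Finite G] {W₁ W₂ : Subgroup G}

theorem exists_proj (hW : IsSelfNormalizingCyclic W₁ W₂) :
    ∃ p₁ p₂ : ↥(W₁ ⊔ W₂) →* ↥(W₁ ⊔ W₂), (∀ x, p₁ x * p₂ x = x) ∧
      (∀ x, (p₁ x : G) ∈ W₁) ∧ (∀ x, (p₂ x : G) ∈ W₂) ∧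
      (∀ x : ↥(W₁ ⊔ W₂), (x : G) ∈ W₁ → p₁ x = x ∧ p₂ x = 1) ∧ (∀ x : ↥(W₁ ⊔ W₂), (x : G) ∈ W₂ → p₁ x = 1 ∧ p₂ x = x) := by
  let m : ↥W₁ × ↥W₂ →* ↥(W₁ ⊔ W₂) :=
    { toFun := fun p => ⟨(p.1 : G) * p.2, Subgroup.mul_mem_sup p.1.2 p.2.2⟩
      map_one' := by ext; simp
      map_mul' := fun p q => by
        ext
        simp only [Prod.fst_mul, Prod.snd_mul, Subgroup.coe_mul]
        rw [mul_assoc (p.1 : G), mul_assoc (p.1 : G), ← mul_assoc (q.1 : G), hW.2.2.2.1 q.1 q.1.2 p.2 p.2.2, mul_assoc (p.2 : G)] }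
  have hm : Function.Bijective m := by
    refine ⟨fun p q h => Subgroup.mul_injective_of_disjoint (disjoint_iff.2 hW.2.2.1) (a₁ := p) (a₂ := q) (congrArg Subtype.val h),
      fun x => ?_⟩
    have hn : W₁ ≤ Subgroup.normalizer (W₂ : Set G) := fun a ha => Subgroup.mem_normalizer_iff.2 fun u => by
      constructor
      · intro hu; rw [hW.2.2.2.1 a ha u hu, mul_inv_cancel_right]; exact hu
      · intro hu
        have := hW.2.2.2.1 a ha _ hu
        rw [show a * u * a⁻¹ * a = a * u by group, mul_left_cancel_iff] at this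
        rwa [this] at hu
    have hx := x.2
    rw [← SetLike.mem_coe, Subgroup.coe_mul_of_left_le_normalizer_right _ _ hn] at hx
    obtain ⟨a, ha, c, hc, e⟩ := hx
    exact ⟨(⟨a, ha⟩, ⟨c, hc⟩), Subtype.ext e⟩
  let e := MulEquiv.ofBijective m hm
  refine ⟨m.comp (((MonoidHom.inl _ _).comp (MonoidHom.fst _ _)).comp e.symm.toMonoidHom),
    m.comp (((MonoidHom.inr _ _).comp (MonoidHom.snd _ _)).comp e.symm.toMonoidHom), fun x => ?_, fun x => ?_, fun x => ?_,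
    fun x hx => ?_, fun x hx => ?_⟩
  · have h := e.apply_symm_apply x
    conv_rhs => rw [← h]
    change m (_, 1) * m (1, _) = m _
    rw [← map_mul]; simp
  · show (m (_, 1) : G) ∈ W₁; simp [m]
  · show (m (1, _) : G) ∈ W₂; simp [m]
  · have he : e.symm x = (⟨x, hx⟩, 1) := e.symm_apply_eq.2 (Subtype.ext (by simp [e, m]))
    refine ⟨?_, ?_⟩
    · show m ((e.symm x).1, 1) = x
      rw [he]; exact Subtype.ext (by simp [m])
    · show m (1, (e.symm x).2) = 1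
      rw [he]; exact map_one m
  · have he : e.symm x = (1, ⟨x, hx⟩) := e.symm_apply_eq.2 (Subtype.ext (by simp [e, m]))
    refine ⟨?_, ?_⟩
    · show m ((e.symm x).1, 1) = 1
      rw [he]; exact map_one m
    · show m (1, (e.symm x).2) = x
      rw [he]; exact Subtype.ext (by simp [m])

theorem mem_of_pow_card {A : Subgroup G} {W : Subgroup G} [IsCyclic ↥W] (hA : A ≤ W) {a : G} (ha : a ∈ W)
    (h : a ^ Nat.card A = 1) : a ∈ A := by
  classical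
  haveI := Fintype.ofFinite ↥W
  let s : Finset ↥W := Finset.univ.filter fun x => (x : G) ∈ A
  let t : Finset ↥W := Finset.univ.filter fun x => x ^ Nat.card A = 1
  have hst : s ⊆ t := fun x hx => by
    simp only [s, t, Finset.mem_filter, Finset.mem_univ, true_and] at hx ⊢
    refine Subtype.ext ?_
    have := congrArg Subtype.val (pow_card_eq_one' (x := (⟨(x : G), hx⟩ : A)))
    simp only [SubmonoidClass.coe_pow, OneMemClass.coe_one] at this ⊢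
    exact this
  have hs : s.card = Nat.card A := by
    rw [← Fintype.card_subtype, ← Nat.card_eq_fintype_card]
    exact Nat.card_congr (Subgroup.subgroupOfEquivOfLe hA).toEquiv
  have ht : t.card ≤ Nat.card A := IsCyclic.card_pow_eq_one_le Nat.card_pos
  have he := Finset.eq_of_subset_of_card_le hst (by rw [hs]; exact ht)
  have : (⟨a, ha⟩ : ↥W) ∈ t := by simp [t, Subtype.ext_iff, h]
  rw [← he] at this
  simpa [s] using this

theorem card_ne (hW : IsSelfNormalizingCyclic W₁ W₂) : Nat.card W₁ ≠ Nat.card W₂ := by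
  intro h
  haveI := hW.2.2.2.2.1
  refine hW.1 ((Subgroup.eq_bot_iff_forall _).2 fun a ha => ?_)
  have h2 : a ∈ W₂ := mem_of_pow_card le_sup_right (Subgroup.mem_sup_left ha) (by
    rw [← h]; exact congrArg Subtype.val (pow_card_eq_one' (x := (⟨a, ha⟩ : W₁))))
  have : a ∈ W₁ ⊓ W₂ := ⟨ha, h2⟩
  rw [hW.2.2.1] at this
  exact Subgroup.mem_bot.1 this

theorem card_trivial_right (hW : IsSelfNormalizingCyclic W₁ W₂) :
    Nat.card {φ : ↥(W₁ ⊔ W₂) →* ℂˣ // ∀ w : ↥(W₁ ⊔ W₂), (w : G) ∈ W₂ → φ w = 1} = Nat.card W₁ := by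
  obtain ⟨p₁, p₂, hsplit, hp₁, hp₂, h1, h2⟩ := exists_proj hW
  haveI := hW.2.2.2.2.1
  letI : CommGroup ↥W₁ :=
    { (inferInstance : Group ↥W₁) with
      mul_comm := fun a b => Subtype.ext (congrArg Subtype.val (IsCyclic.commGroup.mul_comm
        (⟨a, Subgroup.mem_sup_left a.2⟩ : ↥(W₁ ⊔ W₂)) ⟨b, Subgroup.mem_sup_left b.2⟩) :) }
  rw [← CommGroup.card_monoidHom_of_hasEnoughRootsOfUnity ↥W₁ ℂ]
  let i₁ : ↥W₁ →* ↥(W₁ ⊔ W₂) := Subgroup.inclusion le_sup_left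
  let q₁ : ↥(W₁ ⊔ W₂) →* ↥W₁ := ((W₁ ⊔ W₂).subtype.comp p₁).codRestrict W₁ hp₁
  refine Nat.card_congr
    { toFun := fun φ => φ.1.comp i₁
      invFun := fun ψ => ⟨ψ.comp q₁, fun w hw => by
        show ψ (q₁ w) = 1
        rw [show q₁ w = 1 from Subtype.ext (congrArg Subtype.val (h2 w hw).1 :), map_one]⟩
      left_inv := fun φ => Subtype.ext (MonoidHom.ext fun x => by
        show φ.1 (i₁ (q₁ x)) = φ.1 x
        have : i₁ (q₁ x) = p₁ x := Subtype.ext rfl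
        rw [this]
        conv_rhs => rw [← hsplit x, map_mul, φ.2 (p₂ x) (hp₂ x), mul_one])
      right_inv := fun ψ => MonoidHom.ext fun x => by
        show ψ (q₁ (i₁ x)) = ψ x
        exact congrArg ψ (Subtype.ext (congrArg Subtype.val (h1 (i₁ x) x.2).1 :)) }

theorem card_trivial_left (hW : IsSelfNormalizingCyclic W₁ W₂) :
    Nat.card {ψ : ↥(W₁ ⊔ W₂) →* ℂˣ // ∀ w : ↥(W₁ ⊔ W₂), (w : G) ∈ W₁ → ψ w = 1} = Nat.card W₂ := by
  obtain ⟨p₁, p₂, hsplit, hp₁, hp₂, h1, h2⟩ := exists_proj hW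
  haveI := hW.2.2.2.2.1
  letI : CommGroup ↥W₂ :=
    { (inferInstance : Group ↥W₂) with
      mul_comm := fun a b => Subtype.ext (congrArg Subtype.val (IsCyclic.commGroup.mul_comm
        (⟨a, Subgroup.mem_sup_right a.2⟩ : ↥(W₁ ⊔ W₂)) ⟨b, Subgroup.mem_sup_right b.2⟩) :) }
  rw [← CommGroup.card_monoidHom_of_hasEnoughRootsOfUnity ↥W₂ ℂ]
  let i₂ : ↥W₂ →* ↥(W₁ ⊔ W₂) := Subgroup.inclusion le_sup_right
  let q₂ : ↥(W₁ ⊔ W₂) →* ↥W₂ := ((W₁ ⊔ W₂).subtype.comp p₂).codRestrict W₂ hp₂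
  refine Nat.card_congr
    { toFun := fun φ => φ.1.comp i₂
      invFun := fun ψ => ⟨ψ.comp q₂, fun w hw => by
        show ψ (q₂ w) = 1
        rw [show q₂ w = 1 from Subtype.ext (congrArg Subtype.val (h1 w hw).2 :), map_one]⟩
      left_inv := fun φ => Subtype.ext (MonoidHom.ext fun x => by
        show φ.1 (i₂ (q₂ x)) = φ.1 x
        have : i₂ (q₂ x) = p₂ x := Subtype.ext rfl
        rw [this]
        conv_rhs => rw [← hsplit x, map_mul, φ.2 (p₁ x) (hp₁ x), one_mul])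
      right_inv := fun ψ => MonoidHom.ext fun x => by
        show ψ (q₂ (i₂ x)) = ψ x
        exact congrArg ψ (Subtype.ext (congrArg Subtype.val (h2 (i₂ x) x.2).2 :)) }

/-- A function on linear characters that is additive in the two factors gives `0` on `V`. -/
theorem sum_additive_eq_zero [Fintype (↥(W₁ ⊔ W₂) →* ℂˣ)] (hW : IsSelfNormalizingCyclic W₁ W₂)
    (f : (↥(W₁ ⊔ W₂) →* ℂˣ) → ℂ)
    (hf : ∀ a c : ↥(W₁ ⊔ W₂) →* ℂˣ, a ≠ 1 → c ≠ 1 → (∀ w : ↥(W₁ ⊔ W₂), (w : G) ∈ W₂ → a w = 1) →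
      (∀ w : ↥(W₁ ⊔ W₂), (w : G) ∈ W₁ → c w = 1) → f (a * c) = f a + f c - f 1)
    (w : ↥(W₁ ⊔ W₂)) (hw₁ : (w : G) ∉ W₁) (hw₂ : (w : G) ∉ W₂) :
    ∑ ω : ↥(W₁ ⊔ W₂) →* ℂˣ, f ω * (ω w : ℂ) = 0 := by
  classical
  obtain ⟨p₁, p₂, hsplit, hp₁, hp₂, h1, h2⟩ := exists_proj hW
  haveI := hW.2.2.2.2.1
  have hdec : ∀ ω : ↥(W₁ ⊔ W₂) →* ℂˣ, f ω = f (ω.comp p₁) + f (ω.comp p₂) - f 1 := fun ω => by
    have he : ω.comp p₁ * ω.comp p₂ = ω := MonoidHom.ext fun x => by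
      show ω (p₁ x) * ω (p₂ x) = ω x
      rw [← map_mul, hsplit]
    conv_lhs => rw [← he]
    by_cases ha : ω.comp p₁ = 1
    · rw [ha, hom_one_mul]; ring
    by_cases hc : ω.comp p₂ = 1
    · rw [hc, hom_mul_one]; ring
    exact hf _ _ ha hc (fun x hx => by simp [(h2 x hx).1]) (fun x hx => by simp [(h1 x hx).2])
  have htrick : ∀ (p q : ↥(W₁ ⊔ W₂) →* ↥(W₁ ⊔ W₂)) (g : (↥(W₁ ⊔ W₂) →* ℂˣ) → ℂ), (∀ x, q (p x) = 1) → q w ≠ 1 →
      ∑ ω : ↥(W₁ ⊔ W₂) →* ℂˣ, g (ω.comp p) * (ω w : ℂ) = 0 := by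
    intro p q g hqp hqw
    obtain ⟨φ, hφ⟩ : ∃ φ : ↥(W₁ ⊔ W₂) →* ℂˣ, φ (q w) ≠ 1 := by
      letI := IsCyclic.commGroup (α := ↥(W₁ ⊔ W₂))
      exact CommGroup.exists_apply_ne_one_of_hasEnoughRootsOfUnity ↥(W₁ ⊔ W₂) ℂ hqw
    set S := ∑ ω : ↥(W₁ ⊔ W₂) →* ℂˣ, g (ω.comp p) * (ω w : ℂ) with hS
    have hs : S = (φ (q w) : ℂ) * S := by
      conv_lhs => rw [hS, ← Equiv.sum_comp (Equiv.mulLeft (φ.comp q))]
      rw [hS, Finset.mul_sum]
      refine Finset.sum_congr rfl fun ω _ => ?_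
      have : ((Equiv.mulLeft (φ.comp q)) ω).comp p = ω.comp p := MonoidHom.ext fun x => by simp [hqp x]
      rw [this]
      simp [mul_left_comm]
    by_contra hne
    exact hφ (Units.ext (mul_right_cancel₀ hne (by rw [Units.val_one, one_mul]; exact hs.symm)))
  have hw1 : p₁ w ≠ 1 := fun h => hw₂ (by
    have := hsplit w
    rw [h, one_mul] at this
    exact this ▸ hp₂ w)
  have hw2 : p₂ w ≠ 1 := fun h => hw₁ (by
    have := hsplit w
    rw [h, mul_one] at this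
    exact this ▸ hp₁ w)
  have h12 : ∀ x, p₂ (p₁ x) = 1 := fun x => (h1 _ (hp₁ x)).2
  have h21 : ∀ x, p₁ (p₂ x) = 1 := fun x => (h2 _ (hp₂ x)).1
  rw [Finset.sum_congr rfl fun ω _ => by rw [hdec ω, sub_mul, add_mul]]
  rw [Finset.sum_sub_distrib, Finset.sum_add_distrib, htrick p₁ p₂ f h12 hw2, htrick p₂ p₁ f h21 hw1,
    htrick p₁ p₂ (fun _ => f 1) h12 hw2]
  ring

end CfsgLib.CyclicTI
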