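import Cfsg.Agent.Lib.DegreeLayer
import Cfsg.Agent.Lib.LayerStable
import Cfsg.Agent.Lib.IterChief
import Cfsg.Agent.Lib.TransferCritical
import Cfsg.Agent.Lib.Thompson.Kegel

/-! No chief factor of degree below `p` over an abelian `p'`-layer with maximal Sylow subgroup (owner helper5). -/

set_option autoImplicit false
set_option linter.style.haveILetI false

universe u

namespace CfsgLib.LayerStable

open Cfsg CfsgLib.ThompsonNPC CfsgLib.CharP CfsgLib.FunctorNPC
open scoped commutatorElement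

variable {G : Type u} [Group G] [Finite G] {p : ℕ} [hp : Fact p.Prime]

theorem commutator_le_of_degree [(pCore p G).Normal] (hq : PCOn p (⊤ : Subgroup (G ⧸ pCore p G)))
    (T : Sylow p G) (hT : IsCoatom (T : Subgroup G)) {g : G} (hg : g ∈ (T : Subgroup G)) {U V : Subgroup G}
    (hUV : IsChiefFactor U V) (hU : U ≤ pCore p G)
    (hit : iterCommutator U (Subgroup.zpowers g) (p - 1) ≤ V) : ⁅U, Subgroup.zpowers g⁆ ≤ V := by
  classical
  obtain ⟨hVU, hUn, hVn, hch⟩ := hUV
  haveI := hUn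
  haveI := hVn
  set π := QuotientGroup.mk' V
  have hπs : Function.Surjective π := QuotientGroup.mk'_surjective V
  have hπk : π.ker = V := QuotientGroup.ker_mk' V
  set Ub := U.map π with hUb
  haveI hUbn : Ub.Normal := hUn.map π hπs
  have hUbp : IsPGroup p Ub := ((CfsgLib.Core.isPGroup_pCore p).to_le hU).map π
  have hne : Ub ≠ ⊥ := fun h => hVU.not_ge (by rwa [hUb, Subgroup.map_eq_bot_iff, hπk] at h)
  have hmin : ∀ N : Subgroup (G ⧸ V), N.Normal → N ≤ Ub → N = ⊥ ∨ N = Ub := by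
    intro N hN hNU
    have hc : (N.comap π) ≤ U := by
      refine (Subgroup.comap_mono hNU).trans ?_
      rw [hUb, Subgroup.comap_map_eq, hπk, sup_eq_left.mpr hVU.le]
    rcases hch (N.comap π) (hN.comap π) (hπk.symm.le.trans (Subgroup.ker_le_comap π N)) hc with h | h
    · left; rw [← Subgroup.map_comap_eq_self_of_surjective hπs N, h, Subgroup.map_eq_bot_iff, hπk]
    · right; rw [← Subgroup.map_comap_eq_self_of_surjective hπs N, h]
  have hab : ∀ x ∈ Ub, ∀ y ∈ Ub, x * y = y * x := fun x hx y hy =>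
    (CfsgLib.Glauberman.le_centralizer_of_minimal hne hUbp hUbp hmin hy) x hx
  have hexp : ∀ x ∈ Ub, x ^ p = 1 := by
    let Ω : Subgroup (G ⧸ V) :=
      { carrier := {x | x ∈ Ub ∧ x ^ p = 1}
        one_mem' := ⟨Ub.one_mem, one_pow p⟩
        mul_mem' := fun {a b} ha hb => ⟨Ub.mul_mem ha.1 hb.1, by
          rw [(show Commute a b from hab a ha.1 b hb.1).mul_pow, ha.2, hb.2, one_mul]⟩
        inv_mem' := fun {a} ha => ⟨Ub.inv_mem ha.1, by rw [inv_pow, ha.2, inv_one]⟩ }
    have hΩn : Ω.Normal := ⟨fun x hx y => ⟨hUbn.conj_mem x hx.1 y, by rw [conj_pow, hx.2, mul_one, mul_inv_cancel]⟩⟩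
    rcases hmin Ω hΩn (fun x hx => hx.1) with h | h
    · exfalso
      have hd : p ∣ Nat.card Ub := by
        obtain ⟨n, hn⟩ := IsPGroup.iff_card.mp hUbp
        rw [hn]
        refine dvd_pow_self p fun h0 => hne ?_
        exact Subgroup.eq_bot_of_card_eq _ (by rw [hn, h0, pow_zero])
      obtain ⟨x, hx⟩ := exists_prime_orderOf_dvd_card' (G := Ub) p hd
      have h1 : (x : G ⧸ V) ∈ Ω := ⟨x.2, by
        rw [← hx, ← Subgroup.orderOf_coe]; exact pow_orderOf_eq_one _⟩
      rw [h, Subgroup.mem_bot] at h1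
      rw [← Subgroup.orderOf_coe, h1, orderOf_one] at hx
      exact hp.out.ne_one hx.symm
    · exact fun x hx => (h.ge hx).2
  letI : CommGroup Ub := { Ub.toGroup with mul_comm := fun x y => Subtype.ext (hab x x.2 y y.2) }
  let ρ : G →* AddMonoid.End (Additive Ub) := (conjEnd Ub).comp π
  have hker : ∀ x : G, π x ∈ Subgroup.centralizer (Ub : Set (G ⧸ V)) → ρ x = 1 := by
    intro x h
    refine AddMonoidHom.ext fun v => Subtype.ext ?_
    show π x * ((Additive.toMul v : Ub) : G ⧸ V) * (π x)⁻¹ = ((Additive.toMul v : Ub) : G ⧸ V)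
    rw [← Subgroup.mem_centralizer_iff.mp h _ (Additive.toMul v : Ub).2, mul_inv_cancel_right]
  have hR : ((p : ℕ) : AddMonoid.End (Additive Ub)) = 0 := by
    refine AddMonoidHom.ext fun v => ?_
    show p • v = 0
    apply Additive.toMul.injective
    rw [toMul_nsmul, toMul_zero]
    exact Subtype.ext (hexp _ (Additive.toMul v : Ub).2)
  -- the layer
  set θ := QuotientGroup.mk' (pCore p G)
  haveI hKbn := pcore'_normal hq inferInstance
  set K := (pcore' hq).comap θ
  have hKn : K.Normal := inferInstance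
  have hQC : ∀ x ∈ pCore p G, ρ x = 1 := by
    intro x hx
    haveI : ((pCore p G).map π).Normal := (inferInstance : (pCore p G).Normal).map π hπs
    exact hker x (CfsgLib.Glauberman.le_centralizer_of_minimal hne hUbp
      ((CfsgLib.Core.isPGroup_pCore p).map π) hmin ⟨x, hx, rfl⟩)
  have hcomm : ∀ x ∈ K, ∀ y ∈ K, ρ x * ρ y = ρ y * ρ x := by
    intro x hx y hy
    have h1 : ρ ⁅x, y⁆ = 1 := hQC _ ((QuotientGroup.eq_one_iff _).mp (by
      show θ ⁅x, y⁆ = 1
      rw [map_commutatorElement, commutatorElement_eq_one_iff_mul_comm]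
      exact layer_comm hq T hT _ hx _ hy))
    calc ρ x * ρ y = ρ (⁅x, y⁆ * (y * x)) := by rw [← map_mul]; congr 1; rw [commutatorElement_def]; group
      _ = ρ y * ρ x := by rw [map_mul, h1, one_mul, map_mul]
  have hord : ∀ x ∈ K, ∃ n : ℕ, n ≠ 0 ∧ n.Coprime p ∧ ρ (x ^ n) = 1 := fun x hx =>
    ⟨orderOf (θ x), (orderOf_pos _).ne', (show θ x ∈ pcore' hq from hx).2,
      hQC _ ((QuotientGroup.eq_one_iff _).mp (show θ (x ^ orderOf (θ x)) = 1 by rw [map_pow, pow_orderOf_eq_one]))⟩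
  -- `g` has degree below `p`
  set Z := Subgroup.zpowers g
  have hZU : Z ≤ Subgroup.normalizer (U : Set G) := CfsgLib.IterChief.normalizes_of_normal _ U
  have hdiff : ∀ (v : Additive Ub) (n : ℕ), ∃ w : Additive Ub,
      ((Additive.toMul w : Ub) : G ⧸ V) ∈ (iterCommutator U Z n).map π ∧
      ∀ i, (fwdDiff 1)^[n] (fun j => ρ (g ^ j) v) i = ρ (g ^ i) w := by
    intro v n
    induction n with
    | zero => exact ⟨v, (Additive.toMul v : Ub).2, fun i => rfl⟩
    | succ n ih =>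
      obtain ⟨w, hw, hwe⟩ := ih
      refine ⟨ρ g w - w, ?_, fun i => ?_⟩
      · obtain ⟨x, hx, hxe⟩ := hw
        refine ⟨⁅g, x⁆, ?_, ?_⟩
        · show ⁅g, x⁆ ∈ ⁅iterCommutator U Z n, Z⁆
          rw [Subgroup.commutator_comm]
          exact Subgroup.commutator_mem_commutator (Subgroup.mem_zpowers g) hx
        · show π ⁅g, x⁆ = π g * _ * (π g)⁻¹ / _
          rw [map_commutatorElement, hxe, commutatorElement_def, div_eq_mul_inv]
      · rw [Function.iterate_succ', Function.comp_apply]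
        show (fwdDiff 1)^[n] _ (i + 1) - (fwdDiff 1)^[n] _ i = _
        rw [hwe, hwe, map_sub, pow_succ, map_mul]
        rfl
  have hsum : ∑ i ∈ Finset.range p, ρ (g ^ i) = 0 := by
    refine AddMonoidHom.ext fun v => ?_
    obtain ⟨w, hw, hwe⟩ := hdiff v (p - 1)
    have h1 := CfsgLib.TransferCritical.fwdDiff_pred_eq_sum (p := p) (fun j => ρ (g ^ j) v)
      (fun i => Additive.toMul.injective (by rw [toMul_nsmul, toMul_zero]; exact Subtype.ext (hexp _ (Additive.toMul (ρ (g ^ i) v) : Ub).2)))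
    have hw0 : w = 0 := by
      refine Additive.toMul.injective (Subtype.ext ?_)
      have h2 : ((Additive.toMul w : Ub) : G ⧸ V) ∈ V.map π := Subgroup.map_mono hit hw
      rw [(Subgroup.map_eq_bot_iff V).mpr hπk.ge, Subgroup.mem_bot] at h2
      exact h2
    rw [hwe 0, hw0, map_zero] at h1
    refine (AddMonoidHom.finsetSum_apply (fun i => (ρ (g ^ i) : Additive Ub →+ Additive Ub)) (Finset.range p) v).trans ?_
    exact h1.symm
  have hgK := CfsgLib.DegreeLayer.commute_of_sum_eq_zero ρ g hR hsum K (fun x hx => hKn.conj_mem x hx g) hcomm hord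
  -- the part of `T` commuting with the layer
  let L : Subgroup G :=
    { carrier := {t | t ∈ (T : Subgroup G) ∧ ∀ x ∈ K, ρ t * ρ x = ρ x * ρ t}
      one_mem' := ⟨(T : Subgroup G).one_mem, fun x _ => by rw [map_one, one_mul, mul_one]⟩
      mul_mem' := fun {a b} ha hb => ⟨mul_mem ha.1 hb.1, fun x hx => by
        rw [map_mul, mul_assoc, hb.2 x hx, ← mul_assoc, ha.2 x hx, mul_assoc]⟩
      inv_mem' := fun {a} ha => ⟨inv_mem ha.1, fun x hx => by
        calc ρ a⁻¹ * ρ x = ρ a⁻¹ * (ρ x * ρ a) * ρ a⁻¹ := by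
              rw [mul_assoc, mul_assoc, ← map_mul ρ a, mul_inv_cancel, map_one, mul_one]
          _ = ρ x * ρ a⁻¹ := by
              rw [← ha.2 x hx, ← mul_assoc, ← map_mul ρ a⁻¹, inv_mul_cancel, map_one, one_mul]⟩ }
  have hgL : g ∈ L := ⟨hg, hgK⟩
  set F := Ub ⊓ Subgroup.centralizer ((L.map π : Subgroup (G ⧸ V)) : Set (G ⧸ V)) with hF
  have hUT : U ≤ (T : Subgroup G) := hU.trans (CfsgLib.Core.pCore_le_sylow T)
  have hF0 : F ≠ ⊥ := by
    set P := (T : Subgroup G).map π
    have hle : Ub ≤ P := Subgroup.map_mono hUT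
    obtain ⟨z, hz, hz1, -, hzc⟩ := exists_central_of_normal (T.2.map π) (Ub.subgroupOf P) (fun h => hne (by
      rw [← Subgroup.map_subgroupOf_eq_of_le hle, h, Subgroup.map_bot]))
    intro h
    refine hz1 (Subtype.ext ?_)
    have h1 : (z : G ⧸ V) ∈ F := Subgroup.mem_inf.mpr ⟨hz, by
      rintro _ ⟨l, hl, rfl⟩
      exact congrArg Subtype.val (hzc ⟨π l, l, hl.1, rfl⟩)⟩
    rwa [h, Subgroup.mem_bot] at h1
  have hFnorm : ∀ x : G, (x ∈ (T : Subgroup G) ∨ x ∈ K) → ∀ v ∈ F, π x * v * (π x)⁻¹ ∈ F := by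
    intro x hx v hv
    obtain ⟨hvU, hvC⟩ := Subgroup.mem_inf.mp hv
    refine Subgroup.mem_inf.mpr ⟨hUbn.conj_mem v hvU _, ?_⟩
    rintro _ ⟨l, hl, rfl⟩
    rcases hx with hx | hx
    · have hl' : x⁻¹ * l * x ∈ L := by
        refine ⟨mul_mem (mul_mem (inv_mem hx) hl.1) hx, fun y hy => ?_⟩
        have h2 := hl.2 (x * y * x⁻¹) (hKn.conj_mem y hy x)
        calc ρ (x⁻¹ * l * x) * ρ y = ρ x⁻¹ * (ρ l * ρ (x * y * x⁻¹)) * ρ x := by
              simp only [← map_mul]; congr 1; group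
          _ = ρ x⁻¹ * (ρ (x * y * x⁻¹) * ρ l) * ρ x := by rw [h2]
          _ = ρ y * ρ (x⁻¹ * l * x) := by simp only [← map_mul]; congr 1; group
      have h3 := hvC (π (x⁻¹ * l * x)) ⟨_, hl', rfl⟩
      calc π l * (π x * v * (π x)⁻¹) = π x * (π (x⁻¹ * l * x) * v) * (π x)⁻¹ := by
            simp only [map_mul, map_inv]; group
        _ = π x * (v * π (x⁻¹ * l * x)) * (π x)⁻¹ := by rw [h3]
        _ = π x * v * (π x)⁻¹ * π l := by simp only [map_mul, map_inv]; group
    · have h3 := DFunLike.congr_fun (hl.2 x hx) (Additive.ofMul (⟨v, hvU⟩ : Ub))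
      have h4 : π l * (π x * v * (π x)⁻¹) * (π l)⁻¹ = π x * (π l * v * (π l)⁻¹) * (π x)⁻¹ :=
        congrArg (fun z : Additive Ub => ((Additive.toMul z : Ub) : G ⧸ V)) h3
      rw [show π l * v * (π l)⁻¹ = v by rw [hvC (π l) ⟨l, hl, rfl⟩, mul_inv_cancel_right]] at h4
      exact mul_inv_eq_iff_eq_mul.mp h4
  have hFn : F.Normal := by
    set M := (Subgroup.normalizer (F : Set (G ⧸ V))).comap π
    have hmem : ∀ x : G, (x ∈ (T : Subgroup G) ∨ x ∈ K) → x ∈ M := by
      intro x hx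
      refine Subgroup.mem_comap.mpr (Subgroup.mem_normalizer_iff.mpr fun v => ⟨hFnorm x hx v, fun h => ?_⟩)
      have := hFnorm x⁻¹ (hx.imp inv_mem inv_mem) _ h
      simpa [mul_assoc] using this
    have hTM : (T : Subgroup G) ≤ M := fun x hx => hmem x (Or.inl hx)
    rcases hTM.lt_or_eq with h | h
    · rw [← Subgroup.normalizer_eq_top_iff, eq_top_iff]
      intro z _
      obtain ⟨x, rfl⟩ := hπs z
      exact (hT.2 _ h).ge (Subgroup.mem_top x)
    · exfalso
      refine hT.1 (eq_top_iff.mpr fun x _ => ?_)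
      obtain ⟨a, b, -, -, hab, ⟨k, hk⟩, hbc⟩ := exists_mul_parts p x
      have hbT : b ∈ (T : Subgroup G) := h ▸ hmem b (Or.inr ⟨trivial, hbc.coprime_dvd_left (orderOf_map_dvd θ b)⟩)
      have hb1 : b = 1 := eq_one_of_coprime_of_mem T.2 hbT hbc
      rw [hb1, mul_one] at hab
      rw [← hab]
      -- every `p`-element lies in `T`, since its layer part is trivial
      have hKT : ∀ y ∈ K, y ∈ (T : Subgroup G) := fun y hy => h ▸ hmem y (Or.inr hy)
      have htop : pcore' hq ⊔ ((T.mapSurjective (f := θ) (QuotientGroup.mk'_surjective _)) : Subgroup (G ⧸ pCore p G)) = ⊤ :=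
        pcore'_sup_sylow hq _
      have ha : θ a ∈ ((T : Subgroup G).map θ) := by
        have h5 : pcore' hq ≤ (T : Subgroup G).map θ := fun z hz => by
          obtain ⟨y, rfl⟩ := QuotientGroup.mk'_surjective _ z
          exact ⟨y, hKT y hz, rfl⟩
        have h6 : θ a ∈ pcore' hq ⊔ (T : Subgroup G).map θ := htop.ge (Subgroup.mem_top _)
        rwa [sup_eq_right.mpr h5] at h6
      obtain ⟨t, ht, hte⟩ := ha
      have h7 : t⁻¹ * a ∈ pCore p G := (QuotientGroup.eq_one_iff _).mp (by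
        show θ (t⁻¹ * a) = 1
        rw [map_mul, map_inv, hte, inv_mul_cancel])
      simpa using mul_mem ht (CfsgLib.Core.pCore_le_sylow T h7)
  have hFU : F = Ub := (hmin F hFn inf_le_left).resolve_left hF0
  rw [Subgroup.commutator_le]
  intro x hx z hz
  rw [← hπk, MonoidHom.mem_ker, map_commutatorElement, commutatorElement_eq_one_iff_mul_comm]
  have hxF : π x ∈ F := hFU.ge ⟨x, hx, rfl⟩
  exact ((Subgroup.mem_inf.mp hxF).2 (π z) ⟨z, Subgroup.zpowers_le.mpr hgL hz, rfl⟩).symm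

end CfsgLib.LayerStable
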