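import Mathlib

/-! An element of degree below `p` commutes with an abelian `p'`-group that it normalizes (owner helper5). -/

set_option autoImplicit false

namespace CfsgLib.DegreeLayer

open Finset

variable {G R : Type*} [Group G] [Ring R] {p : ℕ} [hp : Fact p.Prime] (ρ : G →* R) (g : G)

/-- Conjugation by the powers of `g`. -/
def tw (i : ℕ) (d : R) : R := ρ (g ^ i) * d * ρ (g ^ i)⁻¹

theorem tw_tw (i j : ℕ) (d : R) : tw ρ g i (tw ρ g j d) = tw ρ g (i + j) d := by
  simp only [tw, pow_add, mul_inv_rev, map_mul, mul_assoc]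

theorem mul_tw (i : ℕ) (d : R) : ρ (g ^ i) * d = tw ρ g i d * ρ (g ^ i) := by
  rw [tw, mul_assoc, ← map_mul, inv_mul_cancel, map_one, mul_one]

theorem tw_zero (d : R) : tw ρ g 0 d = d := by simp [tw]

theorem commute_of_sum_eq_zero (hR : (p : R) = 0) (hsum : ∑ i ∈ range p, ρ (g ^ i) = 0) (K : Subgroup G)
    (hgK : ∀ x ∈ K, g * x * g⁻¹ ∈ K) (hcomm : ∀ x ∈ K, ∀ y ∈ K, ρ x * ρ y = ρ y * ρ x)
    (hord : ∀ x ∈ K, ∃ n : ℕ, n ≠ 0 ∧ n.Coprime p ∧ ρ (x ^ n) = 1) :
    ∀ x ∈ K, ρ g * ρ x = ρ x * ρ g := by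
  classical
  rcases subsingleton_or_nontrivial R with h | h
  · exact fun x _ => Subsingleton.elim _ _
  haveI : CharP R p := (CharP.charP_iff_prime_eq_zero hp.out).mpr hR
  set B := Subring.closure (ρ '' (K : Set G)) with hB
  have hBc : ∀ x ∈ B, ∀ y ∈ B, x * y = y * x := by
    intro x hx y hy
    have hcl : B ≤ Subring.centralizer (ρ '' (K : Set G)) := Subring.closure_le.mpr (by
      rintro _ ⟨a, ha, rfl⟩ _ ⟨b, hb, rfl⟩
      exact hcomm b hb a ha)
    have hcl2 : B ≤ Subring.centralizer (B : Set R) := Subring.closure_le.mpr (by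
      rintro _ ⟨a, ha, rfl⟩ z hz
      exact (hcl hz (ρ a) ⟨a, ha, rfl⟩).symm)
    exact hcl2 hy x hx
  -- `ρ g` has period `p`
  have hgp : ρ (g ^ p) = 1 := by
    have h1 := geom_sum_mul (ρ g) p
    simp only [← map_pow] at h1
    rw [hsum, zero_mul] at h1
    exact (sub_eq_zero.mp h1.symm)
  have hgp' : ρ (g ^ p)⁻¹ = 1 := by
    rw [← mul_one (ρ (g ^ p)⁻¹), ← hgp, ← map_mul, inv_mul_cancel, map_one, hgp]
  have hmul : ∀ q : ℕ, ρ (g ^ (p * q)) = 1 ∧ ρ (g ^ (p * q))⁻¹ = 1 := by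
    intro q
    rw [pow_mul, ← inv_pow, map_pow ρ (g ^ p) q, map_pow ρ (g ^ p)⁻¹ q, hgp, hgp', one_pow]
    exact ⟨rfl, rfl⟩
  have hper : ∀ (i q : ℕ) (d : R), tw ρ g (p * q + i) d = tw ρ g i d := fun i q d => by
    obtain ⟨e1, e2⟩ := hmul q
    simp only [tw, pow_add, mul_inv_rev, map_mul, e1, e2, one_mul, mul_one]
  have hpowK : ∀ (i : ℕ) (x : G), x ∈ K → g ^ i * x * (g ^ i)⁻¹ ∈ K := by
    intro i
    induction i with
    | zero => intro x hx; simpa using hx
    | succ i ih =>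
      intro x hx
      have := hgK _ (ih x hx)
      rw [pow_succ', mul_inv_rev]
      simpa [mul_assoc] using this
  have htwB : ∀ i, ∀ d ∈ B, tw ρ g i d ∈ B := by
    intro i d hd
    induction hd using Subring.closure_induction with
    | mem d hd =>
      obtain ⟨a, ha, rfl⟩ := hd
      refine Subring.subset_closure ⟨g ^ i * a * (g ^ i)⁻¹, hpowK i a ha, ?_⟩
      simp only [tw, map_mul]
    | zero => simp [tw, B.zero_mem]
    | one => rw [tw, mul_one, ← map_mul, mul_inv_cancel, map_one]; exact B.one_mem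
    | add x y _ _ hx hy => simpa [tw, mul_add, add_mul] using B.add_mem hx hy
    | neg x _ hx => simpa [tw] using B.neg_mem hx
    | mul x y _ _ hx hy =>
      have e : tw ρ g i (x * y) = tw ρ g i x * tw ρ g i y := by
        rw [tw, ← mul_assoc, mul_tw, mul_assoc (tw ρ g i x), mul_assoc]
        rfl
      rw [e]; exact B.mul_mem hx hy
  -- `B` is reduced
  have hfix : ∀ d ∈ B, ∃ m, m ≠ 0 ∧ d ^ p ^ m = d := by
    have key : ∀ {d : R} {m : ℕ}, d ^ p ^ m = d → ∀ k, d ^ p ^ (m * k) = d := by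
      intro d m h k
      induction k with
      | zero => simp
      | succ k ih => rw [Nat.mul_succ, pow_add, pow_mul, ih, h]
    intro d hd
    induction hd using Subring.closure_induction with
    | mem d hd =>
      obtain ⟨a, ha, rfl⟩ := hd
      obtain ⟨n, hn0, hnc, hn1⟩ := hord a ha
      refine ⟨n.totient, (Nat.totient_pos.mpr (Nat.pos_of_ne_zero hn0)).ne', ?_⟩
      have h1 : p ^ n.totient ≡ 1 [MOD n] := Nat.ModEq.pow_totient hnc.symm
      obtain ⟨q, hq⟩ := (Nat.modEq_iff_dvd' (Nat.one_le_pow _ _ hp.out.pos)).mp h1.symm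
      have h2 : p ^ n.totient = n * q + 1 := by
        have := Nat.one_le_pow n.totient p hp.out.pos
        omega
      rw [h2, pow_succ, pow_mul, ← map_pow, hn1, one_pow, one_mul]
    | zero => exact ⟨1, one_ne_zero, by simp [hp.out.ne_zero]⟩
    | one => exact ⟨1, one_ne_zero, by simp⟩
    | add x y hx hy hfx hfy =>
      obtain ⟨m, hm0, hm⟩ := hfx
      obtain ⟨l, hl0, hl⟩ := hfy
      refine ⟨m * l, Nat.mul_ne_zero hm0 hl0, ?_⟩
      rw [add_pow_char_pow_of_commute p (m * l) (hBc x hx y hy), key hm l, mul_comm m l, key hl m]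
    | neg x _ hfx =>
      obtain ⟨m, hm0, hm⟩ := hfx
      refine ⟨m, hm0, ?_⟩
      have h1 := add_pow_char_pow_of_commute p m ((Commute.refl x).neg_right)
      rw [add_neg_cancel, zero_pow (pow_ne_zero _ hp.out.ne_zero), hm] at h1
      exact eq_neg_of_add_eq_zero_right h1.symm
    | mul x y hx hy hfx hfy =>
      obtain ⟨m, hm0, hm⟩ := hfx
      obtain ⟨l, hl0, hl⟩ := hfy
      refine ⟨m * l, Nat.mul_ne_zero hm0 hl0, ?_⟩
      rw [(show Commute x y from hBc x hx y hy).mul_pow, key hm l, mul_comm m l, key hl m]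
  have hred : ∀ d ∈ B, ∀ n : ℕ, d ^ n = 0 → d = 0 := by
    intro d hd n hn
    obtain ⟨m, hm0, hm⟩ := hfix d hd
    have key : ∀ k, d ^ p ^ (m * k) = d := by
      intro k
      induction k with
      | zero => simp
      | succ k ih => rw [Nat.mul_succ, pow_add, pow_mul, ih, hm]
    have hle : n ≤ p ^ (m * n) := (Nat.le_mul_of_pos_left n (Nat.pos_of_ne_zero hm0)).trans
      (Nat.lt_pow_self hp.out.one_lt).le
    rw [← key n]
    exact pow_eq_zero_of_le hle hn
  intro a ha
  set c := ρ a with hc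
  have hcB : c ∈ B := Subring.subset_closure ⟨a, ha, rfl⟩
  set y := c - tw ρ g 1 c with hy
  have hyB : y ∈ B := B.sub_mem hcB (htwB 1 c hcB)
  -- elimination
  have main : ∀ n, n < p → ∃ x : ℕ → R, (∀ i, x i ∈ B) ∧ x 0 = y ^ n ∧ (∀ i, 1 ≤ i → i ≤ n → x i = 0) ∧
      ∑ i ∈ range p, x i * ρ (g ^ i) = 0 := by
    intro n
    induction n with
    | zero => exact fun _ => ⟨fun _ => 1, fun _ => B.one_mem, (pow_zero _).symm, fun i h1 h0 => absurd h1 (by omega),
        by simpa using hsum⟩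
    | succ n ih =>
      intro hn
      obtain ⟨x, hxB, hx0, hxz, hxs⟩ := ih (by omega)
      obtain ⟨k, hk⟩ : ∃ k, (n + 1) * k % p = 1 := by
        refine ⟨((n + 1 : ℕ) : ZMod p)⁻¹.val, ?_⟩
        have hne : ((n + 1 : ℕ) : ZMod p) ≠ 0 := by
          rw [Ne, ZMod.natCast_eq_zero_iff]
          exact fun h => absurd (Nat.le_of_dvd (by omega) h) (by omega)
        have h1 := mul_inv_cancel₀ hne
        have h2 := congrArg ZMod.val h1
        rw [ZMod.val_mul, ZMod.val_natCast, ZMod.val_one, Nat.mod_mul_mod] at h2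
        exact h2
      have hjk : tw ρ g ((n + 1) * k) c = tw ρ g 1 c := by
        conv_lhs => rw [← Nat.div_add_mod ((n + 1) * k) p, hk]
        exact hper 1 _ c
      have hdB : ∀ l, tw ρ g ((n + 1) * l) c ∈ B := fun l => htwB _ c hcB
      refine ⟨fun i => x i * ∑ l ∈ range k,
        (tw ρ g i (tw ρ g ((n + 1) * l) c) - tw ρ g (n + 1) (tw ρ g ((n + 1) * l) c)), fun i => ?_, ?_, ?_, ?_⟩
      · exact B.mul_mem (hxB i) (Subring.sum_mem _ fun l _ => B.sub_mem (htwB _ _ (hdB l)) (htwB _ _ (hdB l)))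
      · show x 0 * _ = _
        rw [hx0, pow_succ]
        congr 1
        have e : ∀ l ∈ range k, tw ρ g 0 (tw ρ g ((n + 1) * l) c) - tw ρ g (n + 1) (tw ρ g ((n + 1) * l) c) =
            tw ρ g ((n + 1) * l) c - tw ρ g ((n + 1) * (l + 1)) c := fun l _ => by
          rw [tw_zero, tw_tw]; ring_nf
        rw [sum_congr rfl e, sum_range_sub' (fun l => tw ρ g ((n + 1) * l) c), hy, hjk]
        simp [tw_zero]
      · intro i h1 h2
        show x i * _ = _
        rcases Nat.lt_or_ge i (n + 1) with h | h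
        · rw [hxz i h1 (by omega), zero_mul]
        · rw [show i = n + 1 by omega]
          simp
      · have e : ∀ i ∈ range p, (x i * ∑ l ∈ range k,
            (tw ρ g i (tw ρ g ((n + 1) * l) c) - tw ρ g (n + 1) (tw ρ g ((n + 1) * l) c))) * ρ (g ^ i) =
            ∑ l ∈ range k, ((x i * ρ (g ^ i)) * tw ρ g ((n + 1) * l) c
              - tw ρ g (n + 1) (tw ρ g ((n + 1) * l) c) * (x i * ρ (g ^ i))) := by
          intro i _
          rw [mul_sum, sum_mul]
          refine sum_congr rfl fun l _ => ?_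
          rw [mul_sub, sub_mul, mul_assoc, ← mul_tw, ← mul_assoc,
            hBc _ (hxB i) _ (htwB (n + 1) _ (hdB l)), mul_assoc (tw ρ g (n + 1) _)]
        show ∑ i ∈ range p, (x i * _) * ρ (g ^ i) = 0
        rw [sum_congr rfl e, sum_comm]
        refine sum_eq_zero fun l _ => ?_
        rw [sum_sub_distrib, ← sum_mul, ← mul_sum, hxs, zero_mul, mul_zero, sub_zero]
  obtain ⟨x, -, hx0, hxz, hxs⟩ := main (p - 1) (by have := hp.out.pos; omega)
  have hz : y ^ (p - 1) = 0 := by
    rw [sum_eq_single 0 (fun i hi h0 => by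
      have := mem_range.mp hi
      rw [hxz i (Nat.one_le_iff_ne_zero.mpr h0) (by omega), zero_mul]) (fun h => absurd (mem_range.mpr hp.out.pos) h),
      pow_zero, map_one, mul_one, hx0] at hxs
    exact hxs
  have h1 : c = tw ρ g 1 c := sub_eq_zero.mp (hred y hyB _ hz)
  calc ρ g * c = tw ρ g 1 c * ρ g := by have := mul_tw ρ g 1 c; rwa [pow_one] at this
    _ = c * ρ g := by rw [← h1]

end CfsgLib.DegreeLayer
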