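import Mathlib
import Cfsg.Agent.Lib.CNOdd
import Cfsg.Agent.Lib.GroupB.FpfPQ

/-! Fixed-point-free groups of operators inside CN-groups. -/

set_option autoImplicit false

namespace CfsgLib.FpfCN

universe u

variable {G : Type u} [Group G] [Finite G]

theorem isNilpotent_of_central (hCN : Cfsg.IsCNGroup G) {E : Subgroup G} {c : G} (hc1 : c ≠ 1)
    (hc : ∀ e ∈ E, e * c = c * e) : Group.IsNilpotent E :=
  CfsgLib.CNQuotient.isNilpotent_le (fun e he => Subgroup.mem_centralizer_singleton_iff.2 (hc e he)) (hCN c hc1)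

variable {E V : Subgroup G}

theorem isZGroup (hV : V ≠ ⊥) (hEV : E ≤ Subgroup.normalizer (V : Set G))
    (hfpf : ∀ a ∈ E, a ≠ 1 → V ⊓ Subgroup.centralizer ({a} : Set G) = ⊥) (hodd : Odd (Nat.card E)) :
    IsZGroup E := by
  refine ⟨fun q hq S => ?_⟩
  haveI := Fact.mk hq
  by_cases hq2 : q = 2
  · haveI : Subsingleton S := by
      rw [← Finite.card_le_one_iff_subsingleton]
      obtain ⟨n, hn⟩ := S.2.exists_card_eq
      rcases n.eq_zero_or_pos with rfl | hn0
      · exact le_of_eq (by simpa using hn)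
      · exact absurd hodd (Nat.not_odd_iff_even.2 (even_iff_two_dvd.2
          (hq2 ▸ (hn ▸ dvd_pow_self q hn0.ne' : q ∣ Nat.card (S : Subgroup E)).trans
            (Subgroup.card_subgroup_dvd_card _))))
    infer_instance
  haveI : IsCyclic ↥((S : Subgroup E).map E.subtype) :=
    CfsgLib.CNOdd.isCyclic_of_fpf hq2 (S.2.map _) hV ((Subgroup.map_subtype_le _).trans hEV)
      (fun a ha => hfpf a (Subgroup.map_subtype_le _ ha))
  exact isCyclic_of_surjective ((S : Subgroup E).equivMapOfInjective _ E.subtype_injective).symm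
    (MulEquiv.surjective _)

theorem isCyclic (hCN : Cfsg.IsCNGroup G) (hab : IsMulCommutative V) (hV : V ≠ ⊥)
    (hEV : E ≤ Subgroup.normalizer (V : Set G))
    (hfpf : ∀ a ∈ E, a ≠ 1 → V ⊓ Subgroup.centralizer ({a} : Set G) = ⊥) (hodd : Odd (Nat.card E)) :
    IsCyclic E := by
  haveI := isZGroup hV hEV hfpf hodd
  suffices h : Group.IsNilpotent E by infer_instance
  by_cases hcomm : commutator E = ⊥
  · have hc : ∀ x y : E, x * y = y * x := fun x y => commutatorElement_eq_one_iff_mul_comm.1 (Subgroup.mem_bot.1 (by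
      rw [← hcomm, commutator_def]
      exact Subgroup.commutator_mem_commutator (Subgroup.mem_top x) (Subgroup.mem_top y)))
    letI : CommGroup E := { (inferInstance : Group E) with mul_comm := hc }
    exact CommGroup.isNilpotent
  haveI := IsZGroup.isCyclic_commutator (G := E)
  obtain ⟨r, hr, hrd⟩ := Nat.exists_prime_and_dvd fun h => hcomm (Subgroup.card_eq_one.1 h)
  haveI := Fact.mk hr
  obtain ⟨⟨a, haC⟩, hao⟩ := exists_prime_orderOf_dvd_card' (G := commutator E) r hrd
  rw [Subgroup.orderOf_mk] at hao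
  have hnorm : ∀ e : E, ∀ u ∈ Subgroup.zpowers a, e * u * e⁻¹ ∈ Subgroup.zpowers a := by
    rintro e _ ⟨i, rfl⟩
    have hea : e * a * e⁻¹ ∈ commutator E := (inferInstance : (commutator E).Normal).conj_mem a haC e
    obtain ⟨j, hj⟩ := Subgroup.mem_zpowers_iff.1 (CfsgLib.UniqueOrderP.uniq_of_cyclic (G := commutator E) (p := r)
      ⟨a, haC⟩ ⟨_, hea⟩ (by rw [Subgroup.orderOf_mk, hao]) (by
        rw [Subgroup.orderOf_mk, ← MulAut.conj_apply, MulEquiv.orderOf_eq, hao]))
    refine ⟨j * i, ?_⟩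
    have hj' : a ^ j = e * a * e⁻¹ := by simpa using congrArg Subtype.val hj
    show a ^ (j * i) = e * a ^ i * e⁻¹
    rw [zpow_mul, hj', conj_zpow]
  set C := Subgroup.centralizer ({a} : Set E) with hC
  have hCn : C.Normal := by
    refine ⟨fun c hc e => ?_⟩
    obtain ⟨j, hj⟩ := hnorm e⁻¹ a (Subgroup.mem_zpowers a)
    rw [inv_inv] at hj
    have h1 : c * (e⁻¹ * a * e) = e⁻¹ * a * e * c := by
      rw [← hj]
      exact ((show Commute c a from Subgroup.mem_centralizer_singleton_iff.1 hc).zpow_right j).eq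
    rw [hC, Subgroup.mem_centralizer_singleton_iff]
    calc e * c * e⁻¹ * a = e * (c * (e⁻¹ * a * e)) * e⁻¹ := by group
      _ = e * (e⁻¹ * a * e * c) * e⁻¹ := by rw [h1]
      _ = a * (e * c * e⁻¹) := by group
  have ha1 : a ≠ 1 := fun e => hr.ne_one (by rw [← hao, e, orderOf_one])
  have hCnil : Group.IsNilpotent C := by
    haveI := CfsgLib.CNQuotient.isNilpotent_le (A := C.map E.subtype)
      (B := Subgroup.centralizer ({(a : G)} : Set G)) (by
        rintro _ ⟨c, hc, rfl⟩
        exact Subgroup.mem_centralizer_singleton_iff.2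
          (congrArg Subtype.val (Subgroup.mem_centralizer_singleton_iff.1 hc)))
      (hCN (a : G) (fun e => ha1 (Subtype.ext e)))
    exact Group.nilpotent_of_mulEquiv (G := C.map E.subtype) (C.equivMapOfInjective _ E.subtype_injective).symm
  haveI : IsCyclic C := inferInstance
  -- an element of least prime order is central
  have hE1 : Nat.card E ≠ 1 := fun h => hcomm (by
    haveI := (Nat.card_eq_one_iff_unique.1 h).1
    exact Subsingleton.elim _ _)
  set q := (Nat.card E).minFac with hq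
  have hqp : q.Prime := Nat.minFac_prime hE1
  haveI := Fact.mk hqp
  obtain ⟨c, hco⟩ := exists_prime_orderOf_dvd_card' (G := E) q (Nat.minFac_dvd _)
  have hcC : c ∈ C := by
    rw [hC, Subgroup.mem_centralizer_singleton_iff]
    refine Subtype.ext ?_
    exact (CfsgLib.GroupB.FpfPQ.commute hab hV hEV hfpf (x := (a : G)) (y := (c : G)) a.2 c.2
      (by rw [Subgroup.orderOf_coe, hao]; exact hr) (by rw [Subgroup.orderOf_coe, hco]; exact hqp)
      (by
        rintro _ ⟨i, rfl⟩
        obtain ⟨j, hj⟩ := hnorm c (a ^ i) ⟨i, rfl⟩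
        exact ⟨j, by simpa using congrArg Subtype.val hj⟩)).symm.eq
  have hc1 : c ≠ 1 := fun e => hqp.ne_one (by rw [← hco, e, orderOf_one])
  have hZn : (Subgroup.zpowers c).Normal := by
    refine ⟨fun u hu e => ?_⟩
    obtain ⟨i, rfl⟩ := hu
    have hec : e * c * e⁻¹ ∈ C := hCn.conj_mem c hcC e
    obtain ⟨j, hj⟩ := Subgroup.mem_zpowers_iff.1 (CfsgLib.UniqueOrderP.uniq_of_cyclic (G := C) (p := q)
      ⟨c, hcC⟩ ⟨_, hec⟩ (by rw [Subgroup.orderOf_mk, hco]) (by
        rw [Subgroup.orderOf_mk, ← MulAut.conj_apply, MulEquiv.orderOf_eq, hco]))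
    refine ⟨j * i, ?_⟩
    have hj' : c ^ j = e * c * e⁻¹ := by simpa using congrArg Subtype.val hj
    show c ^ (j * i) = e * c ^ i * e⁻¹
    rw [zpow_mul, hj', conj_zpow]
  haveI := hZn
  refine isNilpotent_of_central hCN (c := (c : G)) (fun e => hc1 (Subtype.ext e)) fun e he => ?_
  have h1 : MulAut.conjNormal (H := Subgroup.zpowers c) (⟨e, he⟩ : E) = 1 := by
    refine orderOf_eq_one_iff.1 (Nat.eq_one_of_dvd_coprimes ?_
      ((orderOf_map_dvd _ _).trans (orderOf_dvd_natCard (⟨e, he⟩ : E))) (orderOf_dvd_natCard _))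
    rw [IsCyclic.card_mulAut, Nat.card_zpowers, hco, Nat.totient_prime hqp]
    refine Nat.coprime_of_dvd fun s hs hs1 hs2 => ?_
    have hA : q ≤ s := hq ▸ Nat.minFac_le_of_dvd hs.two_le hs1
    have hq2 := hqp.two_le
    have hB : s ≤ q - 1 := Nat.le_of_dvd (by omega) hs2
    omega
  have h2 := congrArg Subtype.val (DFunLike.congr_fun h1 (⟨c, Subgroup.mem_zpowers c⟩ : Subgroup.zpowers c))
  rw [MulAut.conjNormal_apply, MulAut.one_apply] at h2
  exact congrArg Subtype.val (mul_inv_eq_iff_eq_mul.1 h2)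

end CfsgLib.FpfCN
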