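import Cfsg.Agent.Lib.Regular.Basic
import Cfsg.Agent.Lib.Regular.ClassLt
import Cfsg.Agent.Lib.PLocal.OddRankTwo
import Cfsg.Prelude.Def_OddOrderLocal

/-! Huppert's criterion for metacyclic `p`-groups (owner helper6). -/

set_option autoImplicit false
set_option linter.style.haveILetI false

universe u

namespace CfsgLib.Huppert

open scoped commutatorElement

variable {p : ℕ} [hpf : Fact p.Prime]

theorem mem_omega {G : Type*} [Group G] {x : G} (hx : x ^ p = 1) : x ∈ Cfsg.omegaOne p (⊤ : Subgroup G) :=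
  Subgroup.subset_closure ⟨trivial, hx⟩

theorem omega_sub {G : Type*} [Group G] [Finite G] (H : Subgroup G) :
    Nat.card ↥(Cfsg.omegaOne p (⊤ : Subgroup H)) ≤ Nat.card ↥(Cfsg.omegaOne p (⊤ : Subgroup G)) := by
  rw [Nat.card_congr ((Cfsg.omegaOne p (⊤ : Subgroup H)).equivMapOfInjective _ H.subtype_injective).toEquiv]
  refine Subgroup.card_le_of_le ?_
  rw [Cfsg.omegaOne, MonoidHom.map_closure, Subgroup.closure_le]
  rintro _ ⟨x, ⟨-, hx⟩, rfl⟩
  exact mem_omega (by rw [← map_pow, hx, map_one])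

theorem lcs_four_eq_bot {G : Type*} [Group G] [Finite G] (hG : IsPGroup p G) (hc : Nat.card G ≤ p ^ 4) :
    (⊤ : Subgroup G).lowerCentralSeries 4 = ⊥ := by
  haveI := hG.isNilpotent
  have hstep : ∀ k, (⊤ : Subgroup G).lowerCentralSeries k ≠ ⊥ →
      Nat.card ↥((⊤ : Subgroup G).lowerCentralSeries (k + 1)) * p ≤ Nat.card ↥((⊤ : Subgroup G).lowerCentralSeries k) := by
    intro k hk
    have hle : (⊤ : Subgroup G).lowerCentralSeries (k + 1) ≤ (⊤ : Subgroup G).lowerCentralSeries k :=
      Subgroup.lowerCentralSeries_antitone _ (Nat.le_succ k)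
    have hne : (⊤ : Subgroup G).lowerCentralSeries (k + 1) ≠ (⊤ : Subgroup G).lowerCentralSeries k := by
      intro e
      apply hk
      obtain ⟨m, hm⟩ := Subgroup.nilpotent_iff_lowerCentralSeries.mp this
      have hst : ∀ j, (⊤ : Subgroup G).lowerCentralSeries (k + j) = (⊤ : Subgroup G).lowerCentralSeries k := by
        intro j
        induction j with
        | zero => rfl
        | succ j ih =>
          calc (⊤ : Subgroup G).lowerCentralSeries (k + (j + 1))
              = ⁅(⊤ : Subgroup G).lowerCentralSeries (k + j), ⊤⁆ := rfl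
            _ = ⁅(⊤ : Subgroup G).lowerCentralSeries k, ⊤⁆ := by rw [ih]
            _ = _ := e
      exact le_bot_iff.mp ((hst m).symm.le.trans
        ((Subgroup.lowerCentralSeries_antitone _ (Nat.le_add_left m k)).trans hm.le))
    obtain ⟨a, ha⟩ := IsPGroup.iff_card.mp (hG.to_subgroup ((⊤ : Subgroup G).lowerCentralSeries (k + 1)))
    obtain ⟨b, hb⟩ := IsPGroup.iff_card.mp (hG.to_subgroup ((⊤ : Subgroup G).lowerCentralSeries k))
    have hlt : Nat.card ↥((⊤ : Subgroup G).lowerCentralSeries (k + 1)) < Nat.card ↥((⊤ : Subgroup G).lowerCentralSeries k) :=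
      lt_of_le_of_ne (Subgroup.card_le_of_le hle) fun e => hne (Subgroup.eq_of_le_of_card_ge hle e.ge)
    rw [ha, hb] at hlt ⊢
    rw [← pow_succ]
    exact Nat.pow_le_pow_right hpf.out.pos ((Nat.pow_lt_pow_iff_right hpf.out.one_lt).mp hlt)
  have key : ∀ k, (⊤ : Subgroup G).lowerCentralSeries k = ⊥ ∨
      Nat.card ↥((⊤ : Subgroup G).lowerCentralSeries k) * p ^ k ≤ p ^ 4 := by
    intro k
    induction k with
    | zero => right; simpa using hc
    | succ k ih =>
      rcases eq_or_ne ((⊤ : Subgroup G).lowerCentralSeries k) ⊥ with h | h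
      · left
        exact le_bot_iff.mp ((Subgroup.lowerCentralSeries_antitone _ (Nat.le_succ k)).trans h.le)
      · right
        calc Nat.card ↥((⊤ : Subgroup G).lowerCentralSeries (k + 1)) * p ^ (k + 1)
            = (Nat.card ↥((⊤ : Subgroup G).lowerCentralSeries (k + 1)) * p) * p ^ k := by ring
          _ ≤ Nat.card ↥((⊤ : Subgroup G).lowerCentralSeries k) * p ^ k := Nat.mul_le_mul_right _ (hstep k h)
          _ ≤ _ := ih.resolve_left h
  rcases key 4 with h | h
  · exact h
  · exact Subgroup.eq_bot_of_card_le _ (Nat.le_of_mul_le_mul_right (by simpa using h) (pow_pos hpf.out.pos 4))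

theorem regular_small {G : Type u} [Group G] [Finite G] (hp : 3 < p) (hG : IsPGroup p G) (hc : Nat.card G ≤ p ^ 4) :
    Cfsg.IsRegularPGroup p G := by
  refine CfsgLib.Regular.regular_of_class _ G rfl hG (le_bot_iff.mp ?_)
  refine (Subgroup.lowerCentralSeries_antitone _ (?_ : 4 ≤ p - 1)).trans (lcs_four_eq_bot hG hc).le
  have h4 : p ≠ 4 := fun h => by have := hpf.out; rw [h] at this; norm_num at this
  omega

theorem exists_coatom_ge {G : Type*} [Group G] [Finite G] {H : Subgroup G} (h : H ≠ ⊤) :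
    ∃ M : Subgroup G, IsCoatom M ∧ H ≤ M := by
  rcases eq_top_or_exists_le_coatom H with e | e
  · exact absurd e h
  · exact e

/-- The elements with `p`-th power in a central subgroup of order `p` form a subgroup of order at most `p ^ 3`. -/
theorem exists_omega_mod (hp : 3 < p) : ∀ (N : ℕ) (R : Type u) [Group R] [Finite R], Nat.card R = N → IsPGroup p R →
    Nat.card ↥(Cfsg.omegaOne p (⊤ : Subgroup R)) ≤ p ^ 2 → ∀ T : Subgroup R, T ≤ Subgroup.center R → Nat.card T = p →
    ∃ M : Subgroup R, (∀ x, x ∈ M ↔ x ^ p ∈ T) ∧ Nat.card M ≤ p ^ 3 := by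
  intro N
  induction N using Nat.strong_induction_on with
  | _ N ih =>
  intro R _ _ hN hR hO T hTc hTp
  classical
  -- proper subgroups
  have hsub : ∀ H : Subgroup R, H ≠ ⊤ → T ≤ H →
      ∃ M : Subgroup R, M ≤ H ∧ (∀ x ∈ H, (x ∈ M ↔ x ^ p ∈ T)) ∧ Nat.card M ≤ p ^ 3 := by
    intro H hH hTH
    obtain ⟨M, hM, hMc⟩ := ih (Nat.card H) (hN ▸ lt_of_le_of_ne (Subgroup.card_le_card_group H)
      fun e => hH (Subgroup.eq_top_of_card_eq H e)) H rfl (hR.to_subgroup H) ((omega_sub H).trans hO) (T.subgroupOf H)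
      (fun x hx => Subgroup.mem_center_iff.mpr fun y => Subtype.ext
        (Subgroup.mem_center_iff.mp (hTc (Subgroup.mem_subgroupOf.mp hx)) y))
      (by rw [Nat.card_congr (Subgroup.subgroupOfEquivOfLe hTH).toEquiv, hTp])
    refine ⟨M.map H.subtype, Subgroup.map_subtype_le M, fun x hx => ?_, ?_⟩
    · constructor
      · rintro ⟨y, hy, rfl⟩
        exact Subgroup.mem_subgroupOf.mp ((hM y).mp hy)
      · intro h
        exact ⟨⟨x, hx⟩, (hM ⟨x, hx⟩).mpr (Subgroup.mem_subgroupOf.mpr h), rfl⟩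
    · rwa [Subgroup.card_map_of_injective H.subtype_injective]
  have hTel : ∀ t ∈ T, t ^ p = 1 := fun t ht => by
    have := pow_card_eq_one' (x := (⟨t, ht⟩ : T))
    rw [hTp] at this
    exact congrArg Subtype.val this
  haveI hTn : T.Normal := ⟨fun t ht g => by
    rw [Subgroup.mem_center_iff.mp (hTc ht) g, mul_inv_cancel_right]; exact ht⟩
  -- closure under products
  have hmul : ∀ x y : R, x ^ p ∈ T → y ^ p ∈ T → (x * y) ^ p ∈ T := by
    intro x y hx hy
    by_cases hH : Subgroup.closure ({x, y} : Set R) ⊔ T = ⊤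
    swap
    · obtain ⟨M, -, hM, -⟩ := hsub _ hH le_sup_right
      have hxH : x ∈ Subgroup.closure ({x, y} : Set R) ⊔ T :=
        Subgroup.mem_sup_left (Subgroup.subset_closure (Set.mem_insert _ _))
      have hyH : y ∈ Subgroup.closure ({x, y} : Set R) ⊔ T :=
        Subgroup.mem_sup_left (Subgroup.subset_closure (Set.mem_insert_of_mem _ rfl))
      exact (hM _ (mul_mem hxH hyH)).mp (mul_mem ((hM x hxH).mpr hx) ((hM y hyH).mpr hy))
    have hreg : Cfsg.IsRegularPGroup p (R ⧸ T) := by
      by_cases hx' : Subgroup.zpowers x ⊔ T = ⊤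
      · refine regular_small hp (hR.to_quotient T) ?_
        let π := QuotientGroup.mk' T
        have hz : Subgroup.zpowers (π x) = ⊤ := by
          rw [← MonoidHom.map_zpowers, ← Subgroup.map_top_of_surjective π (QuotientGroup.mk'_surjective T), ← hx',
            Subgroup.map_sup, QuotientGroup.map_mk'_self, sup_bot_eq]
        rw [← Subgroup.card_top (G := R ⧸ T), ← hz, Nat.card_zpowers]
        refine le_trans (Nat.le_of_dvd hpf.out.pos (orderOf_dvd_of_pow_eq_one ?_)) (Nat.le_self_pow (by norm_num) p)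
        rw [← map_pow]; exact (QuotientGroup.eq_one_iff _).mpr hx
      obtain ⟨H, hH1, hxH⟩ := exists_coatom_ge hx'
      haveI := hR.isNilpotent
      haveI : H.Normal := Subgroup.NormalizerCondition.normal_of_coatom H Group.normalizerCondition_of_isNilpotent hH1
      obtain ⟨M, hMH, hM, hMc⟩ := hsub H hH1.1 (le_sup_right.trans hxH)
      haveI : M.Normal := ⟨fun z hz g => (hM _ (Subgroup.Normal.conj_mem ‹H.Normal› z (hMH hz) g)).mpr (by
        rw [conj_pow]; exact hTn.conj_mem _ ((hM z (hMH hz)).mp hz) g)⟩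
      have hTM : T ≤ M := fun t ht => (hM t ((le_sup_right.trans hxH) ht)).mpr (by rw [hTel t ht]; exact one_mem T)
      have hxM : x ∈ M := (hM x (hxH (Subgroup.mem_sup_left (Subgroup.mem_zpowers x)))).mpr hx
      let π := QuotientGroup.mk' M
      have hz : Subgroup.zpowers (π y) = ⊤ := by
        refine eq_top_iff.mpr ?_
        rw [← Subgroup.map_top_of_surjective π (QuotientGroup.mk'_surjective M), ← hH, Subgroup.map_sup,
          MonoidHom.map_closure]
        refine sup_le ((Subgroup.closure_le _).mpr ?_) ?_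
        · rintro _ ⟨z, hz, rfl⟩
          rcases hz with rfl | rfl
          · show π z ∈ Subgroup.zpowers (π y)
            rw [show π z = 1 from (QuotientGroup.eq_one_iff _).mpr hxM]; exact one_mem _
          · exact Subgroup.mem_zpowers _
        · rintro _ ⟨t, ht, rfl⟩
          rw [show π t = 1 from (QuotientGroup.eq_one_iff _).mpr (hTM ht)]; exact one_mem _
      have hq : Nat.card (R ⧸ M) ≤ p := by
        rw [← Subgroup.card_top (G := R ⧸ M), ← hz, Nat.card_zpowers]
        refine Nat.le_of_dvd hpf.out.pos (orderOf_dvd_of_pow_eq_one ?_)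
        rw [← map_pow]; exact (QuotientGroup.eq_one_iff _).mpr (hTM hy)
      refine regular_small hp (hR.to_quotient T) ((Nat.le_of_dvd Nat.card_pos (Subgroup.card_quotient_dvd_card T)).trans ?_)
      rw [Subgroup.card_eq_card_quotient_mul_card_subgroup M]
      calc Nat.card (R ⧸ M) * Nat.card M ≤ p * p ^ 3 := Nat.mul_le_mul hq hMc
        _ = p ^ 4 := by ring
    rw [← QuotientGroup.eq_one_iff, QuotientGroup.mk_pow]
    have h1 : ((x : R ⧸ T)) ^ p ^ 1 = 1 := by rw [pow_one, ← QuotientGroup.mk_pow]; exact (QuotientGroup.eq_one_iff _).mpr hx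
    have h2 : ((y : R ⧸ T)) ^ p ^ 1 = 1 := by rw [pow_one, ← QuotientGroup.mk_pow]; exact (QuotientGroup.eq_one_iff _).mpr hy
    have := CfsgLib.Regular.torsion_mul hreg 1 h1 h2
    rwa [pow_one, ← QuotientGroup.mk_mul] at this
  let M : Subgroup R :=
    { carrier := {x | x ^ p ∈ T}
      one_mem' := show (1 : R) ^ p ∈ T by rw [one_pow]; exact one_mem T
      mul_mem' := fun hx hy => hmul _ _ hx hy
      inv_mem' := fun {x} hx => show x⁻¹ ^ p ∈ T by rw [inv_pow]; exact inv_mem hx }
  refine ⟨M, fun x => Iff.rfl, ?_⟩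
  by_cases hMtop : M = ⊤
  swap
  · have hTM : T ≤ M := fun t ht => show t ^ p ∈ T by rw [hTel t ht]; exact one_mem T
    obtain ⟨M', -, hM', hc'⟩ := hsub M hMtop hTM
    exact (Subgroup.card_le_of_le fun x hx => (hM' x hx).mpr hx).trans hc'
  by_contra hbig
  rw [not_le, hMtop, Subgroup.card_top] at hbig
  have hall : ∀ x : R, x ^ p ∈ T := fun x => (hMtop ▸ Subgroup.mem_top x : x ∈ M)
  have hR4 : Nat.card R ≤ p ^ 4 := by
    have hT1 : T ≠ ⊤ := fun e => by
      rw [e, Subgroup.card_top] at hTp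
      exact absurd (hTp ▸ hbig) (not_lt.mpr (Nat.le_self_pow (by norm_num) p))
    obtain ⟨H, hH, hTH⟩ := exists_coatom_ge hT1
    obtain ⟨M', -, hM', hc'⟩ := hsub H hH.1 hTH
    have hHc : Nat.card H ≤ p ^ 3 := (Subgroup.card_le_of_le fun x hx => (hM' x hx).mpr (hall x)).trans hc'
    haveI := hR.isNilpotent
    haveI : H.Normal := Subgroup.NormalizerCondition.normal_of_coatom H Group.normalizerCondition_of_isNilpotent hH
    obtain ⟨g, hg⟩ : ∃ g, g ∉ H := by
      by_contra h; push Not at h; exact hH.1 (eq_top_iff.mpr fun x _ => h x)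
    have htop : H ⊔ Subgroup.zpowers g = ⊤ := hH.2 _ (lt_of_le_of_ne le_sup_left fun e =>
      hg (e.symm ▸ Subgroup.mem_sup_right (Subgroup.mem_zpowers g)))
    have hz : Subgroup.zpowers (QuotientGroup.mk' H g) = ⊤ := by
      rw [← MonoidHom.map_zpowers, ← Subgroup.map_top_of_surjective _ (QuotientGroup.mk'_surjective H), ← htop,
        Subgroup.map_sup, QuotientGroup.map_mk'_self, bot_sup_eq]
    rw [Subgroup.card_eq_card_quotient_mul_card_subgroup H, ← Subgroup.card_top (G := R ⧸ H), ← hz, Nat.card_zpowers]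
    calc _ ≤ p * p ^ 3 := Nat.mul_le_mul (Nat.le_of_dvd hpf.out.pos (orderOf_dvd_of_pow_eq_one (by
            rw [← map_pow]; exact (QuotientGroup.eq_one_iff _).mpr ((CfsgLib.Regular.coatom_facts hR hH).2 g)))) hHc
      _ = p ^ 4 := by ring
  have hreg := regular_small hp hR hR4
  haveI := Fintype.ofFinite R
  have hcount : Nat.card R ≤ p ^ 2 * p := by
    rw [Nat.card_eq_fintype_card, ← Finset.card_univ]
    refine le_trans (Finset.card_le_mul_card_image (f := fun x : R => x ^ p) Finset.univ (p ^ 2) fun t ht => ?_) ?_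
    · obtain ⟨a, -, rfl⟩ := Finset.mem_image.mp ht
      refine le_trans ?_ hO
      rw [Nat.card_eq_fintype_card, ← Finset.card_univ]
      refine Finset.card_le_card_of_injOn (fun x => if h : (x * a⁻¹) ^ p = 1 then ⟨x * a⁻¹, mem_omega h⟩ else 1)
        (fun x _ => Finset.mem_univ _) fun x hx y hy hxy => ?_
      have key : ∀ z : R, z ^ p = a ^ p → (z * a⁻¹) ^ p = 1 := fun z hz => by
        have := CfsgLib.Regular.torsion_of_pow_eq hreg 1 (a := z) (b := a) (by rwa [pow_one])
        rwa [pow_one] at this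
      simp only [Finset.coe_filter, Finset.mem_univ, true_and, Set.mem_setOf_eq] at hx hy
      simp only [key x hx, key y hy, dite_true] at hxy
      exact mul_right_cancel (congrArg Subtype.val hxy)
    · refine Nat.mul_le_mul_left _ ?_
      conv_rhs => rw [← hTp]
      rw [Nat.card_eq_fintype_card, ← Finset.card_univ]
      refine Finset.card_le_card_of_injOn (fun t => if h : t ∈ T then ⟨t, h⟩ else 1) (fun _ _ => Finset.mem_univ _)
        fun a ha b hb hab => ?_
      obtain ⟨a', -, rfl⟩ := Finset.mem_image.mp ha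
      obtain ⟨b', -, rfl⟩ := Finset.mem_image.mp hb
      simpa [hall a', hall b'] using hab
  rw [← pow_succ] at hcount
  exact absurd hcount (not_le.mpr hbig)

/-- The bound passes to quotients. -/
theorem omega_quotient (hp : 3 < p) : ∀ (N : ℕ) (R : Type u) [Group R] [Finite R], Nat.card R = N → IsPGroup p R →
    Nat.card ↥(Cfsg.omegaOne p (⊤ : Subgroup R)) ≤ p ^ 2 → ∀ (T : Subgroup R) [T.Normal],
    Nat.card ↥(Cfsg.omegaOne p (⊤ : Subgroup (R ⧸ T))) ≤ p ^ 2 := by
  intro N
  induction N using Nat.strong_induction_on with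
  | _ N ih =>
  intro R _ _ hN hR hO T hTn
  by_cases hT : T = ⊥
  · subst hT
    have e := QuotientGroup.quotientBot (G := R)
    refine le_trans ?_ hO
    rw [Nat.card_congr ((Cfsg.omegaOne p (⊤ : Subgroup (R ⧸ (⊥ : Subgroup R)))).equivMapOfInjective e.toMonoidHom e.injective).toEquiv]
    refine Subgroup.card_le_of_le ?_
    rw [Cfsg.omegaOne, MonoidHom.map_closure, Subgroup.closure_le]
    rintro _ ⟨x, ⟨-, hx⟩, rfl⟩
    exact mem_omega (by rw [← map_pow, hx, map_one])
  have hne := PStep.normal_inf_center_ne_bot hR hTn hT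
  obtain ⟨⟨z, hz⟩, hzo⟩ : ∃ w : ↥(T ⊓ Subgroup.center R : Subgroup R), orderOf w = p := by
    refine exists_prime_orderOf_dvd_card' p ?_
    have : Nontrivial ↥(T ⊓ Subgroup.center R : Subgroup R) := (Subgroup.nontrivial_iff_ne_bot _).mpr hne
    obtain ⟨k, hk, hck⟩ := (IsPGroup.nontrivial_iff_card (hR.to_subgroup _)).mp this
    rw [hck]; exact dvd_pow_self p hk.ne'
  rw [Subgroup.orderOf_mk] at hzo
  set Z := Subgroup.zpowers z with hZ
  have hZc : Z ≤ Subgroup.center R := Subgroup.zpowers_le.mpr hz.2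
  haveI : Z.Normal := ⟨fun t ht g => by rw [Subgroup.mem_center_iff.mp (hZc ht) g, mul_inv_cancel_right]; exact ht⟩
  have hZp : Nat.card Z = p := by rw [hZ, Nat.card_zpowers, hzo]
  have hZT : Z ≤ T := Subgroup.zpowers_le.mpr hz.1
  obtain ⟨M, hM, hMc⟩ := exists_omega_mod hp _ R rfl hR hO Z hZc hZp
  let π := QuotientGroup.mk' Z
  have hQ : Nat.card ↥(Cfsg.omegaOne p (⊤ : Subgroup (R ⧸ Z))) ≤ p ^ 2 := by
    have hle : Cfsg.omegaOne p (⊤ : Subgroup (R ⧸ Z)) ≤ M.map π := by
      refine (Subgroup.closure_le _).mpr fun w hw => ?_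
      obtain ⟨x, rfl⟩ := QuotientGroup.mk'_surjective Z w
      exact Subgroup.mem_map_of_mem π ((hM x).mpr ((QuotientGroup.eq_one_iff _).mp (by
        show π (x ^ p) = 1
        rw [map_pow]; exact hw.2)))
    refine (Subgroup.card_le_of_le hle).trans ?_
    have hZM : Z ≤ M := fun t ht => (hM t).mpr (pow_mem ht p)
    have h1 := Subgroup.relIndex_ker (K := M) π
    rw [QuotientGroup.ker_mk'] at h1
    have h2 := Subgroup.relIndex_mul_relIndex ⊥ Z M bot_le hZM
    rw [Subgroup.relIndex_bot_left, Subgroup.relIndex_bot_left, h1, hZp] at h2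
    refine Nat.le_of_mul_le_mul_left (h2.le.trans (hMc.trans (le_of_eq ?_))) hpf.out.pos
    ring
  have hcard : Nat.card (R ⧸ Z) < N := by
    rw [← hN, Subgroup.card_eq_card_quotient_mul_card_subgroup Z, hZp]
    exact lt_mul_of_one_lt_right Nat.card_pos hpf.out.one_lt
  have h := ih _ hcard (R ⧸ Z) rfl (hR.to_quotient Z) hQ (T.map π)
  let e := QuotientGroup.quotientQuotientEquivQuotient Z T hZT
  refine le_trans ?_ h
  rw [Nat.card_congr ((Cfsg.omegaOne p (⊤ : Subgroup (R ⧸ T))).equivMapOfInjective e.symm.toMonoidHom e.symm.injective).toEquiv]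
  refine Subgroup.card_le_of_le ?_
  rw [Cfsg.omegaOne, MonoidHom.map_closure, Subgroup.closure_le]
  rintro _ ⟨x, ⟨-, hx⟩, rfl⟩
  exact mem_omega (by rw [← map_pow, hx, map_one])

/-- A cyclic subgroup with the commutators, whose generator lies outside the agemo subgroup, gives metacyclicity. -/
theorem metacyclic_of_agemo {R : Type u} [Group R] [Finite R] (hR : IsPGroup p R) {U : Subgroup R}
    (hU : U ≤ frattini R) (hidx : U.index ≤ p ^ 2) {g : R} (hg : g ∉ U) (hcomm : commutator R ≤ Subgroup.zpowers g) :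
    Cfsg.IsMetacyclic R := by
  haveI hN : (Subgroup.zpowers g).Normal := ⟨fun x hx r => by
    have h := hcomm (commutator_def R ▸ Subgroup.commutator_mem_commutator (Subgroup.mem_top r) (Subgroup.mem_top x))
    have := mul_mem h hx
    rwa [commutatorElement_def, inv_mul_cancel_right] at this⟩
  refine ⟨Subgroup.zpowers g, hN, inferInstance, ?_⟩
  set V := U ⊔ Subgroup.zpowers g
  obtain ⟨n, hn⟩ := hR.index U
  have hn2 : n ≤ 2 := (Nat.pow_le_pow_iff_right hpf.out.one_lt).mp (hn ▸ hidx)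
  obtain ⟨m, hm⟩ := hR.index V
  have hmn : m < n := by
    have h1 : V.index < U.index := Subgroup.index_strictAnti (lt_of_le_of_ne le_sup_left fun e =>
      hg (e.symm ▸ Subgroup.mem_sup_right (Subgroup.mem_zpowers g)))
    rw [hm, hn] at h1
    exact (Nat.pow_lt_pow_iff_right hpf.out.one_lt).mp h1
  obtain ⟨k, hk⟩ : ∃ k, V ⊔ Subgroup.zpowers k = ⊤ := by
    by_cases hV : V = ⊤
    · exact ⟨1, by rw [hV, top_sup_eq]⟩
    obtain ⟨k, hk⟩ : ∃ k, k ∉ V := by
      by_contra h; push Not at h; exact hV (eq_top_iff.mpr fun x _ => h x)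
    refine ⟨k, Subgroup.index_eq_one.mp ?_⟩
    obtain ⟨l, hl⟩ := hR.index (V ⊔ Subgroup.zpowers k)
    have h1 : (V ⊔ Subgroup.zpowers k).index < V.index := Subgroup.index_strictAnti (lt_of_le_of_ne le_sup_left fun e =>
      hk (e.symm ▸ Subgroup.mem_sup_right (Subgroup.mem_zpowers k)))
    rw [hl, hm] at h1
    have := (Nat.pow_lt_pow_iff_right hpf.out.one_lt).mp h1
    rw [hl, show l = 0 by omega, pow_zero]
  have htop : Subgroup.zpowers g ⊔ Subgroup.zpowers k = ⊤ := by
    refine frattini_nongenerating (eq_top_iff.mpr (hk.ge.trans ?_))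
    exact sup_le (sup_le (hU.trans le_sup_right) (le_sup_left.trans le_sup_left)) (le_sup_right.trans le_sup_left)
  refine ⟨⟨QuotientGroup.mk' (Subgroup.zpowers g) k, fun x => ?_⟩⟩
  have hz : Subgroup.zpowers (QuotientGroup.mk' (Subgroup.zpowers g) k) = ⊤ := by
    rw [← MonoidHom.map_zpowers, ← Subgroup.map_top_of_surjective _ (QuotientGroup.mk'_surjective _), ← htop,
      Subgroup.map_sup, QuotientGroup.map_mk'_self, bot_sup_eq]
  exact Subgroup.mem_zpowers_iff.mp (hz ▸ Subgroup.mem_top x)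

/-- **Huppert's criterion.** -/
theorem metacyclic (hp : 3 < p) : ∀ (N : ℕ) (R : Type u) [Group R] [Finite R], Nat.card R = N → IsPGroup p R →
    Nat.card ↥(Cfsg.omegaOne p (⊤ : Subgroup R)) ≤ p ^ 2 → Cfsg.IsMetacyclic R := by
  intro N
  induction N using Nat.strong_induction_on with
  | _ N ih =>
  intro R _ _ hN hR hO
  classical
  by_cases hsub : Subsingleton R
  · exact ⟨⊤, inferInstance, inferInstance, inferInstance⟩
  haveI : Nontrivial R := not_subsingleton_iff_nontrivial.mp hsub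
  haveI := hR.isNilpotent
  -- the agemo subgroup
  set U : Subgroup R := Subgroup.closure {y | ∃ x : R, x ^ p = y} with hUdef
  haveI hUn : U.Normal := ⟨fun u hu r => by
    have hle : U.map (MulAut.conj r).toMonoidHom ≤ U := by
      rw [MonoidHom.map_closure, Subgroup.closure_le]
      rintro _ ⟨_, ⟨x, rfl⟩, rfl⟩
      exact Subgroup.subset_closure ⟨(MulAut.conj r).toMonoidHom x, (map_pow _ _ _).symm⟩
    exact hle ⟨u, hu, rfl⟩⟩
  have hUf : U ≤ frattini R := by
    rw [frattini, Order.radical]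
    refine le_iInf₂ fun M hM => (Subgroup.closure_le _).mpr ?_
    rintro _ ⟨x, rfl⟩
    exact (CfsgLib.Regular.coatom_facts hR hM).2 x
  have hidx : U.index ≤ p ^ 2 := by
    have h := omega_quotient hp _ R rfl hR hO U
    have ht : Cfsg.omegaOne p (⊤ : Subgroup (R ⧸ U)) = ⊤ := eq_top_iff.mpr fun w _ => by
      obtain ⟨x, rfl⟩ := QuotientGroup.mk'_surjective U w
      exact mem_omega (by rw [← map_pow]; exact (QuotientGroup.eq_one_iff _).mpr (Subgroup.subset_closure ⟨x, rfl⟩))
    rwa [ht, Subgroup.card_top] at h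
  have hUtop : U ≠ ⊤ := fun e => by
    have h1 : (⊥ : Subgroup R) = ⊤ := frattini_nongenerating (eq_top_iff.mpr (e.ge.trans (hUf.trans le_sup_right)))
    exact bot_ne_top h1
  have hcU : commutator R ≤ U := by
    obtain ⟨n, hn⟩ := hR.index U
    have hn2 : n ≤ 2 := (Nat.pow_le_pow_iff_right hpf.out.one_lt).mp (hn ▸ hidx)
    have hab : ∀ a b : R ⧸ U, a * b = b * a := by
      rcases (show n = 0 ∨ n = 1 ∨ n = 2 by omega) with rfl | rfl | rfl
      · exact absurd (Subgroup.index_eq_one.mp (by rw [hn, pow_zero])) hUtop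
      · haveI : IsCyclic (R ⧸ U) := isCyclic_of_prime_card (p := p) (by rw [← Subgroup.index_eq_card, hn, pow_one])
        exact fun a b => (IsCyclic.commGroup (α := R ⧸ U)).mul_comm a b
      · have hc : Nat.card (R ⧸ U) = p ^ 2 := by rw [← Subgroup.index_eq_card, hn]
        exact fun a b => (IsPGroup.commGroupOfCardEqPrimeSq hc).mul_comm a b
    rw [commutator_def, Subgroup.commutator_le]
    intro a _ b _
    rw [← QuotientGroup.eq_one_iff, ← QuotientGroup.mk'_apply, map_commutatorElement,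
      commutatorElement_eq_one_iff_mul_comm]
    exact hab _ _
  have hsmall : (∀ c ∈ commutator R, c = 1) → Cfsg.IsMetacyclic R := by
    intro hab
    obtain ⟨g, hg⟩ : ∃ g, g ∉ U := by
      by_contra h; push Not at h; exact hUtop (eq_top_iff.mpr fun x _ => h x)
    exact metacyclic_of_agemo hR hUf hidx hg fun c hc => by rw [hab c hc]; exact one_mem _
  by_cases hab : ∀ c ∈ commutator R, c = 1
  · exact hsmall hab
  have hR' : commutator R ≠ ⊥ := fun e => hab fun c hc => by rw [e] at hc; exact hc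
  obtain ⟨⟨z, hz⟩, hzo⟩ : ∃ w : ↥(commutator R ⊓ Subgroup.center R : Subgroup R), orderOf w = p := by
    refine exists_prime_orderOf_dvd_card' p ?_
    have : Nontrivial ↥(commutator R ⊓ Subgroup.center R : Subgroup R) :=
      (Subgroup.nontrivial_iff_ne_bot _).mpr (PStep.normal_inf_center_ne_bot hR inferInstance hR')
    obtain ⟨k, hk, hck⟩ := (IsPGroup.nontrivial_iff_card (hR.to_subgroup _)).mp this
    rw [hck]; exact dvd_pow_self p hk.ne'
  rw [Subgroup.orderOf_mk] at hzo
  set Z := Subgroup.zpowers z with hZ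
  have hzc : ∀ r : R, r * z = z * r := Subgroup.mem_center_iff.mp hz.2
  haveI : Z.Normal := ⟨fun t ht r => by
    rw [Subgroup.mem_center_iff.mp (Subgroup.zpowers_le.mpr hz.2 ht) r, mul_inv_cancel_right]; exact ht⟩
  have hcard : Nat.card (R ⧸ Z) < N := by
    rw [← hN, Subgroup.card_eq_card_quotient_mul_card_subgroup Z, hZ, Nat.card_zpowers, hzo]
    exact lt_mul_of_one_lt_right Nat.card_pos hpf.out.one_lt
  obtain ⟨Nb, hNn, hNc, hQc⟩ := ih _ hcard (R ⧸ Z) rfl (hR.to_quotient Z) (omega_quotient hp _ R rfl hR hO Z)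
  haveI := hNn
  haveI := hNc
  haveI := hQc
  set π := QuotientGroup.mk' Z
  obtain ⟨⟨ab, hab'⟩, hgen⟩ := IsCyclic.exists_generator (α := Nb)
  obtain ⟨a, rfl⟩ := QuotientGroup.mk'_surjective Z ab
  have hNform : ∀ x : R, π x ∈ Nb → ∃ i j : ℤ, x = a ^ i * z ^ j := by
    intro x hx
    obtain ⟨i, hi⟩ := Subgroup.mem_zpowers_iff.mp (hgen ⟨π x, hx⟩)
    have h1 := congrArg Subtype.val hi
    simp only [SubgroupClass.coe_zpow] at h1
    have h2 : (a ^ i)⁻¹ * x ∈ Z := (QuotientGroup.eq_one_iff _).mp (by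
      show π ((a ^ i)⁻¹ * x) = 1
      rw [map_mul, map_inv, map_zpow, h1, inv_mul_cancel])
    obtain ⟨j, hj⟩ := Subgroup.mem_zpowers_iff.mp h2
    exact ⟨i, j, by rw [hj, mul_inv_cancel_left]⟩
  set Nn := Nb.comap π
  haveI : Nn.Normal := inferInstance
  let e := QuotientGroup.quotientKerEquivOfSurjective ((QuotientGroup.mk' Nb).comp π)
    ((QuotientGroup.mk'_surjective Nb).comp (QuotientGroup.mk'_surjective Z))
  have hker : ((QuotientGroup.mk' Nb).comp π).ker = Nn := by
    rw [← MonoidHom.comap_ker, QuotientGroup.ker_mk']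
  haveI hcyc : IsCyclic (R ⧸ Nn) := by
    haveI := isCyclic_of_surjective e.symm.toMonoidHom e.symm.surjective
    exact isCyclic_of_surjective (QuotientGroup.quotientMulEquivOfEq hker).toMonoidHom
      (QuotientGroup.quotientMulEquivOfEq hker).surjective
  by_cases hza : z ∈ Subgroup.zpowers a
  · have hNa : Nn = Subgroup.zpowers a := by
      refine le_antisymm (fun x hx => ?_) (Subgroup.zpowers_le.mpr hab')
      obtain ⟨i, j, rfl⟩ := hNform x hx
      exact mul_mem (zpow_mem (Subgroup.mem_zpowers a) i) (zpow_mem hza j)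
    haveI : IsCyclic Nn := isCyclic_of_surjective (MulEquiv.subgroupCongr hNa.symm).toMonoidHom
      (MulEquiv.subgroupCongr hNa.symm).surjective
    exact ⟨Nn, inferInstance, inferInstance, hcyc⟩
  -- the commutator subgroup has order `p`
  obtain ⟨bb, hbb⟩ := IsCyclic.exists_generator (α := R ⧸ Nn)
  obtain ⟨b, rfl⟩ := QuotientGroup.mk'_surjective Nn bb
  have hgenR : Subgroup.closure ({a, b} : Set R) = ⊤ := by
    refine frattini_nongenerating (eq_top_iff.mpr fun x _ => ?_)
    obtain ⟨k, hk⟩ := Subgroup.mem_zpowers_iff.mp (hbb (QuotientGroup.mk' Nn x))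
    have hxk : (b ^ k)⁻¹ * x ∈ Nn := (QuotientGroup.eq_one_iff _).mp (by
      show QuotientGroup.mk' Nn ((b ^ k)⁻¹ * x) = 1
      rw [map_mul, map_inv, map_zpow, hk, inv_mul_cancel])
    obtain ⟨i, j, hij⟩ := hNform _ hxk
    rw [show x = b ^ k * a ^ i * z ^ j by rw [mul_assoc, ← hij, mul_inv_cancel_left]]
    have h1 : b ^ k * a ^ i ∈ Subgroup.closure ({a, b} : Set R) :=
      Subgroup.mul_mem _ (Subgroup.zpow_mem _ (Subgroup.subset_closure (Set.mem_insert_of_mem _ (Set.mem_singleton b))) k)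
        (Subgroup.zpow_mem _ (Subgroup.subset_closure (Set.mem_insert a _)) i)
    have h2 : z ^ j ∈ frattini R := Subgroup.zpow_mem _ (hUf (hcU hz.1)) j
    exact Subgroup.mul_mem_sup h1 h2
  set c := ⁅a, b⁆ with hc
  have hcN : c ∈ Nn := by
    rw [hc, commutatorElement_def, mul_assoc, mul_assoc, ← mul_assoc b]
    exact mul_mem hab' (Subgroup.Normal.conj_mem ‹Nn.Normal› _ (inv_mem hab') b)
  obtain ⟨t, j, hct⟩ := hNform c hcN
  obtain ⟨s, l, hba⟩ := hNform (b * a * b⁻¹) (Subgroup.Normal.conj_mem ‹Nn.Normal› _ hab' b)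
  have hzcm : ∀ r : R, Commute z r := fun r => (hzc r).symm
  have hca : Commute c a := by
    rw [hct]; exact ((Commute.refl a).zpow_left t).mul_left ((hzcm a).zpow_left j)
  have hbc : b * c * b⁻¹ = c ^ s := by
    have h1 : b * c * b⁻¹ = ⁅a ^ s * z ^ l, b⁆ := by
      rw [hc, conjugate_commutatorElement, mul_inv_cancel_right, hba]
    have hcz : ∀ (m : ℤ) (r : R), r * z ^ m = z ^ m * r := fun m r => ((hzcm r).zpow_left m).symm.eq
    have h2 : ⁅a ^ s * z ^ l, b⁆ = ⁅a ^ s, b⁆ := by
      rw [commutatorElement_def, commutatorElement_def]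
      calc a ^ s * z ^ l * b * (a ^ s * z ^ l)⁻¹ * b⁻¹ = a ^ s * (z ^ l * b) * (z ^ l)⁻¹ * (a ^ s)⁻¹ * b⁻¹ := by group
        _ = _ := by rw [← hcz l b]; group
    have h3 : ∀ n : ℤ, ⁅a ^ n, b⁆ = c ^ n := by
      have hbab : b * a⁻¹ * b⁻¹ = a⁻¹ * c := by rw [hc, commutatorElement_def]; group
      intro n
      have hba' : b * (a ^ n)⁻¹ * b⁻¹ = (a ^ n)⁻¹ * c ^ n := by
        rw [← inv_zpow, ← conj_zpow, hbab, (hca.symm.inv_left).mul_zpow]
      rw [commutatorElement_def]
      calc a ^ n * b * (a ^ n)⁻¹ * b⁻¹ = a ^ n * (b * (a ^ n)⁻¹ * b⁻¹) := by group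
        _ = _ := by rw [hba', mul_inv_cancel_left]
    rw [h1, h2, h3]
  have hcnorm : ∀ g ∈ Subgroup.closure ({a, b} : Set R), ∀ x ∈ Subgroup.zpowers c, g * x * g⁻¹ ∈ Subgroup.zpowers c := by
    have hK : Subgroup.closure ({a, b} : Set R) ≤ Subgroup.normalizer (Subgroup.zpowers c : Set R) := by
      refine (Subgroup.closure_le _).mpr ?_
      rintro g hg
      have hstep : g * c * g⁻¹ ∈ Subgroup.zpowers c := by
        rcases hg with rfl | rfl
        · rw [← hca.eq, mul_inv_cancel_right]; exact Subgroup.mem_zpowers c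
        · rw [hbc]; exact zpow_mem (Subgroup.mem_zpowers c) s
      have heq : (Subgroup.zpowers c).map (MulAut.conj g).toMonoidHom = Subgroup.zpowers c :=
        Subgroup.eq_of_le_of_card_ge (by rw [MonoidHom.map_zpowers]; exact Subgroup.zpowers_le.mpr hstep)
          (Subgroup.card_map_of_injective (MulAut.conj g).injective).ge
      rw [SetLike.mem_coe, Subgroup.mem_normalizer_iff]
      intro x
      conv_rhs => rw [← heq]
      exact (Subgroup.mem_map_iff_mem (f := (MulAut.conj g).toMonoidHom) (MulAut.conj g).injective).symm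
    exact fun g hg x hx => (Subgroup.mem_normalizer_iff.mp (hK hg) x).mp hx
  have hR'c : commutator R ≤ Subgroup.zpowers c := by
    have := CfsgLib.Regular.commutator_closure_le hcnorm (Subgroup.mem_zpowers c)
    rwa [hgenR, ← commutator_def] at this
  have hcp : c ^ p = 1 := by
    obtain ⟨m, hm⟩ := Subgroup.mem_zpowers_iff.mp (hR'c hz.1)
    by_cases hpm : (p : ℤ) ∣ m
    · obtain ⟨m', rfl⟩ := hpm
      exfalso
      apply hza
      rw [← hm, hct, ((hzcm (a ^ t)).symm.zpow_right j).mul_zpow, ← zpow_mul, ← zpow_mul,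
        show j * ((p : ℤ) * m') = (p : ℤ) * (j * m') by ring, zpow_mul z, zpow_natCast, ← hzo, pow_orderOf_eq_one,
        one_zpow, mul_one]
      exact zpow_mem (Subgroup.mem_zpowers a) _
    · -- `m` is prime to the order of `c`
      obtain ⟨k, hk⟩ := IsPGroup.iff_orderOf.mp hR c
      obtain ⟨u, v, huv⟩ := Int.isCoprime_iff_gcd_eq_one.mpr (show Int.gcd m ((p : ℤ) ^ k) = 1 by
        rw [← Int.isCoprime_iff_gcd_eq_one]
        exact (((Nat.prime_iff_prime_int.mp hpf.out).coprime_iff_not_dvd.mpr hpm).symm).pow_right)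
      have h1 : c = z ^ u := by
        calc c = c ^ (u * m + v * (p : ℤ) ^ k) := by rw [huv, zpow_one]
          _ = _ := by
            rw [zpow_add, mul_comm u m, zpow_mul, hm, mul_comm v, zpow_mul, ← Nat.cast_pow, zpow_natCast, ← hk,
              pow_orderOf_eq_one, one_zpow, mul_one]
      rw [h1, ← zpow_natCast, ← zpow_mul, mul_comm, zpow_mul, zpow_natCast, ← hzo, pow_orderOf_eq_one, one_zpow]
  have hc1 : c ≠ 1 := fun e => hab fun x hx => by
    have := hR'c hx
    rwa [e, Subgroup.zpowers_one_eq_bot] at this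
  have hco : orderOf c = p := orderOf_eq_prime hcp hc1
  have hcz : Subgroup.zpowers c = Z := by
    refine (Subgroup.eq_of_le_of_card_ge (Subgroup.zpowers_le.mpr (hR'c hz.1)) ?_).symm
    rw [Nat.card_zpowers, Nat.card_zpowers, hco, hzo]
  rw [hcz] at hR'c
  -- `p`-th powers form a homomorphism
  have hpow : ∀ x y : R, (x * y) ^ p = x ^ p * y ^ p := by
    intro x y
    have hm := hR'c (commutator_def R ▸ Subgroup.commutator_mem_commutator (Subgroup.mem_top y) (Subgroup.mem_top x))
    have hcen : ∀ r, Commute ⁅y, x⁆ r := fun r =>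
      (Subgroup.mem_center_iff.mp (Subgroup.zpowers_le.mpr hz.2 hm) r).symm
    have hp2 : p ∣ p.choose 2 := hpf.out.dvd_choose_self two_ne_zero (by omega)
    obtain ⟨q, hq⟩ := hp2
    obtain ⟨m, hm'⟩ := Subgroup.mem_zpowers_iff.mp hm
    rw [CfsgLib.PLocal.mul_pow_central (hcen x) (hcen y), hq, ← hm', pow_mul, ← zpow_natCast (z ^ m), ← zpow_mul,
      mul_comm m, zpow_mul, zpow_natCast, ← hzo, pow_orderOf_eq_one, one_zpow, one_pow, one_mul]
  let φ : R →* R := { toFun := fun x => x ^ p, map_one' := one_pow p, map_mul' := hpow }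
  have hUmem : ∀ u ∈ U, ∃ x : R, x ^ p = u := fun u hu => by
    have hle : U ≤ φ.range := (Subgroup.closure_le _).mpr fun y ⟨x, hx⟩ => ⟨x, hx⟩
    exact hle hu
  obtain ⟨h, ⟨k, hk⟩, hmax⟩ := Set.exists_max_image {x : R | ∃ k : ℕ, x ^ p ^ k = z} orderOf (Set.toFinite _)
    ⟨z, 0, by rw [pow_zero, pow_one]⟩
  have hhU : h ∉ U := by
    intro hh
    obtain ⟨x, hx⟩ := hUmem h hh
    have h1 := hmax x ⟨k + 1, by rw [pow_succ', pow_mul, hx, hk]⟩
    have hh1 : h ≠ 1 := fun e => by
      rw [e, one_pow] at hk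
      rw [← hk, orderOf_one] at hzo
      exact hpf.out.ne_one hzo.symm
    have hxp : p ∣ orderOf x := by
      obtain ⟨i, hi⟩ := IsPGroup.iff_orderOf.mp hR x
      rcases Nat.eq_zero_or_pos i with rfl | hi0
      · rw [pow_zero, orderOf_eq_one_iff] at hi
        exact absurd (by rw [← hx, hi, one_pow]) hh1
      · rw [hi]; exact dvd_pow_self p hi0.ne'
    rw [← hx, orderOf_pow_of_dvd hpf.out.ne_zero hxp] at h1
    exact absurd h1 (not_le.mpr (Nat.div_lt_self (orderOf_pos x) hpf.out.one_lt))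
  exact metacyclic_of_agemo hR hUf hidx hhU (hR'c.trans (Subgroup.zpowers_le.mpr (hk ▸ Subgroup.npow_mem_zpowers h _)))

end CfsgLib.Huppert
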