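import Mathlib.GroupTheory.Index
import Mathlib.GroupTheory.OrderOfElement
import Mathlib.Tactic

/-! Coset enumeration for the relations `x³ = y⁵ = (xy)² = 1`. -/

set_option autoImplicit false

namespace CfsgLib.IcosahedralBound

/-- Twelve points carry every configuration of `x³ = y⁵ = (xy)² = 1` around a point fixed by `y`. -/
theorem exists_twelve {α : Type*} (X Y : α → α) (iX : Function.Injective X) (iY : Function.Injective Y)
    (hx : ∀ c, X (X (X c)) = c) (hy : ∀ c, Y (Y (Y (Y (Y c)))) = c) (hr : ∀ c, X (Y (X (Y c))) = c)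
    (hr' : ∀ c, Y (X (Y (X c))) = c) (c0 : α) (hfix : Y c0 = c0) :
    ∃ S : List α, S.length = 12 ∧ c0 ∈ S ∧ ∀ c ∈ S, X c ∈ S ∧ Y c ∈ S := by
  obtain ⟨c1, e0_0⟩ : ∃ c, X c0 = c := ⟨_, rfl⟩
  obtain ⟨c2, e1_0⟩ : ∃ c, X c1 = c := ⟨_, rfl⟩
  have e2_0 : X c2 = c0 := by
    have h := hx c0
    rw [e0_0, e1_0] at h
    exact h
  have e1_1 : Y c1 = c2 := by
    have h := hr c0
    rw [hfix, e0_0] at h
    have h' : X (c2) = c0 := by rw [e2_0]
    exact (iX (h.trans h'.symm))
  obtain ⟨c3, e2_1⟩ : ∃ c, Y c2 = c := ⟨_, rfl⟩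
  obtain ⟨c4, e3_0⟩ : ∃ c, X c3 = c := ⟨_, rfl⟩
  have e4_1 : Y c4 = c1 := by
    have h := hr' c1
    rw [e1_0, e2_1, e3_0] at h
    exact h
  obtain ⟨c5, e3_1⟩ : ∃ c, Y c3 = c := ⟨_, rfl⟩
  have e5_1 : Y c5 = c4 := by
    have h := hy c1
    rw [e1_1, e2_1, e3_1] at h
    have h' : Y (c4) = c1 := by rw [e4_1]
    exact (iY (h.trans h'.symm))
  obtain ⟨c6, e4_0⟩ : ∃ c, X c4 = c := ⟨_, rfl⟩
  have e6_0 : X c6 = c3 := by
    have h := hx c3
    rw [e3_0, e4_0] at h
    exact h
  obtain ⟨c7, e5_0⟩ : ∃ c, X c5 = c := ⟨_, rfl⟩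
  have e7_1 : Y c7 = c6 := by
    have h := hr c3
    rw [e3_1, e5_0] at h
    have h' : X (c6) = c3 := by rw [e6_0]
    exact (iX (h.trans h'.symm))
  obtain ⟨c8, e6_1⟩ : ∃ c, Y c6 = c := ⟨_, rfl⟩
  have e8_0 : X c8 = c5 := by
    have h := hr' c4
    rw [e4_0, e6_1] at h
    have h' : Y (c5) = c4 := by rw [e5_1]
    exact (iY (h.trans h'.symm))
  have e7_0 : X c7 = c8 := by
    have h := hx c5
    rw [e5_0] at h
    have h' : X (c8) = c5 := by rw [e8_0]
    exact (iX (h.trans h'.symm))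
  obtain ⟨c9, e8_1⟩ : ∃ c, Y c8 = c := ⟨_, rfl⟩
  obtain ⟨c10, e9_0⟩ : ∃ c, X c9 = c := ⟨_, rfl⟩
  have e10_1 : Y c10 = c7 := by
    have h := hr' c7
    rw [e7_0, e8_1, e9_0] at h
    exact h
  have e9_1 : Y c9 = c10 := by
    have h := hy c8
    rw [e8_1] at h
    have h' : Y (Y (Y (c10))) = c8 := by rw [e10_1, e7_1, e6_1]
    exact (iY (iY (iY (h.trans h'.symm))))
  obtain ⟨c11, e10_0⟩ : ∃ c, X c10 = c := ⟨_, rfl⟩
  have e11_0 : X c11 = c9 := by
    have h := hx c9
    rw [e9_0, e10_0] at h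
    exact h
  have e11_1 : Y c11 = c11 := by
    have h := hr c9
    rw [e9_1, e10_0] at h
    have h' : X (c11) = c9 := by rw [e11_0]
    exact (iX (h.trans h'.symm))
  refine ⟨[c0, c1, c2, c3, c4, c5, c6, c7, c8, c9, c10, c11], rfl, by simp, fun c hc => ?_⟩
  simp only [List.mem_cons, List.not_mem_nil, or_false] at hc
  rcases hc with rfl | rfl | rfl | rfl | rfl | rfl | rfl | rfl | rfl | rfl | rfl | rfl
  · exact ⟨by rw [e0_0]; simp, by rw [hfix]; simp⟩
  · exact ⟨by rw [e1_0]; simp, by rw [e1_1]; simp⟩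
  · exact ⟨by rw [e2_0]; simp, by rw [e2_1]; simp⟩
  · exact ⟨by rw [e3_0]; simp, by rw [e3_1]; simp⟩
  · exact ⟨by rw [e4_0]; simp, by rw [e4_1]; simp⟩
  · exact ⟨by rw [e5_0]; simp, by rw [e5_1]; simp⟩
  · exact ⟨by rw [e6_0]; simp, by rw [e6_1]; simp⟩
  · exact ⟨by rw [e7_0]; simp, by rw [e7_1]; simp⟩
  · exact ⟨by rw [e8_0]; simp, by rw [e8_1]; simp⟩
  · exact ⟨by rw [e9_0]; simp, by rw [e9_1]; simp⟩
  · exact ⟨by rw [e10_0]; simp, by rw [e10_1]; simp⟩
  · exact ⟨by rw [e11_0]; simp, by rw [e11_1]; simp⟩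

variable {G : Type*} [Group G]

/-- A group generated by `x`, `y` and a central `z` with `x³ = y⁵ = 1`, `(xy)² = z`:
a subgroup containing `y` and `z` has index at most twelve. -/
theorem index_le {x y z : G} (H : Subgroup G) (hgen : Subgroup.closure {x, y, z} = ⊤) (hzc : z ∈ Subgroup.center G)
    (hx : x ^ 3 = 1) (hy : y ^ 5 = 1) (hxy : (x * y) ^ 2 = z) (hyH : y ∈ H) (hzH : z ∈ H) :
    H.index ≤ 12 ∧ H.index ≠ 0 := by
  classical
  have hz : ∀ c : G ⧸ H, z • c = c := fun c => by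
    induction c using QuotientGroup.induction_on with
    | H g =>
      show ((z * g : G) : G ⧸ H) = _
      rw [← Subgroup.mem_center_iff.1 hzc g, QuotientGroup.eq]
      simpa using H.inv_mem hzH
  obtain ⟨S, hlen, h1, hS⟩ := exists_twelve (fun c : G ⧸ H => x • c) (fun c => y • c)
    (MulAction.injective x) (MulAction.injective y)
    (fun c => by simp only [← mul_smul]; rw [← mul_assoc, ← pow_two, ← pow_succ, hx, one_smul])
    (fun c => by
      simp only [← mul_smul]
      rw [show y * (y * (y * (y * y))) = y ^ 5 by simp [pow_succ, mul_assoc], hy, one_smul])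
    (fun c => by
      simp only [← mul_smul]
      rw [show x * (y * (x * y)) = (x * y) ^ 2 by rw [pow_two]; group, hxy, hz])
    (fun c => by
      simp only [← mul_smul]
      rw [show y * (x * (y * x)) = y * (x * y) ^ 2 * y⁻¹ by rw [pow_two]; group, hxy,
        Subgroup.mem_center_iff.1 hzc y, mul_inv_cancel_right, hz])
    ((1 : G) : G ⧸ H) (by
      show ((y * 1 : G) : G ⧸ H) = _
      rw [QuotientGroup.eq]; simpa using H.inv_mem hyH)
  have hall : ∀ g : G, ∀ c ∈ S, g • c ∈ S := by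
    intro g
    have hg : g ∈ Subgroup.closure ({x, y, z} : Set G) := by rw [hgen]; trivial
    have key : ∀ t ∈ ({x, y, z} : Set G), ∀ c ∈ S, t • c ∈ S := by
      rintro t (rfl | rfl | rfl) c hc
      · exact (hS c hc).1
      · exact (hS c hc).2
      · rw [hz]; exact hc
    induction hg using Subgroup.closure_induction with
    | mem t ht => exact key t ht
    | one => intro c hc; rwa [one_smul]
    | mul a b _ _ ha hb => intro c hc; rw [mul_smul]; exact ha _ (hb c hc)
    | inv a _ ha =>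
      intro c hc
      have himg : S.toFinset.image (fun c => a • c) = S.toFinset := Finset.eq_of_subset_of_card_le
        (fun d hd => by
          obtain ⟨e, he, rfl⟩ := Finset.mem_image.1 hd
          exact List.mem_toFinset.2 (ha e (List.mem_toFinset.1 he)))
        (by rw [Finset.card_image_of_injective _ (MulAction.injective a)])
      have : c ∈ S.toFinset.image (fun c => a • c) := by rw [himg]; exact List.mem_toFinset.2 hc
      obtain ⟨e, he, hea⟩ := Finset.mem_image.1 this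
      rw [← hea, inv_smul_smul]
      exact List.mem_toFinset.1 he
  have hsurj : Function.Surjective (fun i : Fin S.length => S.get i) := fun c => by
    induction c using QuotientGroup.induction_on with
    | H g =>
      have h := hall g _ h1
      rw [show g • ((1 : G) : G ⧸ H) = (g : G ⧸ H) by show ((g * 1 : G) : G ⧸ H) = _; rw [mul_one]] at h
      exact List.mem_iff_get.1 h
  haveI : Finite (G ⧸ H) := Finite.of_surjective _ hsurj
  refine ⟨?_, ?_⟩
  · rw [Subgroup.index_eq_card]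
    refine (Nat.card_le_card_of_surjective _ hsurj).trans ?_
    rw [Nat.card_fin, hlen]
  · rw [Subgroup.index_eq_card]; exact Nat.card_pos.ne'

/-- the order is at most 120 (and finite) -/
theorem card_le {x y z : G} (hgen : Subgroup.closure {x, y, z} = ⊤) (hzc : z ∈ Subgroup.center G) (n : ℕ) (hn : 0 < n)
    (hzn : z ^ n = 1) (hx : x ^ 3 = 1) (hy : y ^ 5 = 1) (hxy : (x * y) ^ 2 = z) :
    Finite G ∧ Nat.card G ≤ 60 * n := by
  let f : Fin 5 × Fin n → G := fun ij => y ^ (ij.1 : ℕ) * z ^ (ij.2 : ℕ)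
  have hc : ∀ g : G, g * z = z * g := Subgroup.mem_center_iff.1 hzc
  let H : Subgroup G :=
    { carrier := {g | ∃ a b : ℕ, g = y ^ a * z ^ b}
      one_mem' := ⟨0, 0, by simp⟩
      mul_mem' := by
        rintro g k ⟨a, b, rfl⟩ ⟨c, d, rfl⟩
        refine ⟨a + c, b + d, ?_⟩
        rw [pow_add, pow_add, mul_assoc, ← mul_assoc (z ^ b), ((Commute.pow_left (show Commute z (y ^ c) from (hc _).symm) b)).eq]
        simp only [mul_assoc]
      inv_mem' := by
        rintro g ⟨a, b, rfl⟩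
        refine ⟨4 * a, (n - 1) * b, ?_⟩
        rw [inv_eq_iff_mul_eq_one, mul_assoc, ← mul_assoc (z ^ b),
          (Commute.pow_left (show Commute z (y ^ (4 * a)) from (hc _).symm) b).eq, mul_assoc, ← mul_assoc,
          ← pow_add, ← pow_add, show a + 4 * a = 5 * a by ring,
          show b + (n - 1) * b = n * b by rw [add_comm, ← Nat.succ_mul]; congr 1; omega, pow_mul, pow_mul, hy, hzn]
        simp }
  have hyH : y ∈ H := ⟨1, 0, by simp⟩
  have hzH : z ∈ H := ⟨0, 1, by simp⟩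
  have hsurj : Function.Surjective (fun ij => (⟨f ij, _, _, rfl⟩ : H)) := by
    rintro ⟨g, a, b, rfl⟩
    refine ⟨(⟨a % 5, Nat.mod_lt _ (by norm_num)⟩, ⟨b % n, Nat.mod_lt _ hn⟩), Subtype.ext ?_⟩
    show y ^ (a % 5) * z ^ (b % n) = y ^ a * z ^ b
    rw [← pow_eq_pow_mod a hy, ← pow_eq_pow_mod b hzn]
  haveI : Finite H := Finite.of_surjective _ hsurj
  obtain ⟨hle, hne⟩ := index_le H hgen hzc hx hy hxy hyH hzH
  have hcard := Subgroup.card_mul_index H
  haveI : Finite G := Nat.finite_of_card_ne_zero (by rw [← hcard]; exact Nat.mul_ne_zero Nat.card_pos.ne' hne)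
  refine ⟨this, ?_⟩
  have h5 := Nat.card_le_card_of_surjective _ hsurj
  rw [Nat.card_prod, Nat.card_fin, Nat.card_fin] at h5
  rw [← hcard]
  calc Nat.card H * H.index ≤ (5 * n) * 12 := Nat.mul_le_mul h5 hle
    _ = 60 * n := by ring

end CfsgLib.IcosahedralBound
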