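import Cfsg.Agent.Lib.GroupB.Cores
import Cfsg.Agent.Lib.GroupB.Coprime
import Cfsg.Agent.Lib.LocalBasic
import Cfsg.Prelude.Def_OddOrderLocal

/-! Maximal invariant `q`-subgroups under the transitivity hypothesis (owner helper5). -/

set_option autoImplicit false
set_option linter.style.haveILetI false

namespace CfsgLib.InvariantMax

open CfsgLib.LocalBasic CfsgLib.GroupB.Coprime

universe u

variable {G : Type u} [Group G] [Finite G] {A : Subgroup G} {q : ℕ} [hq : Fact q.Prime]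

/-- The primes not dividing the order of `A`. -/
abbrev pi (A : Subgroup G) : Set ℕ := Cfsg.primesNotDvd (Nat.card A)

theorem isPGroup_of_inv {H Q : Subgroup G} (hQ : Q ∈ Cfsg.invSubgroups H A {q}) : IsPGroup q ↥Q :=
  IsPGroup.of_card (n := (Nat.card ↥Q).primeFactorsList.length)
    (Nat.eq_prime_pow_of_unique_prime_dvd Nat.card_pos.ne' fun {d} hd hdd => hQ.2.1 d hd hdd)

theorem mem_inv {Q : Subgroup G} (hQ : IsPGroup q ↥Q) (hAQ : A ≤ Subgroup.normalizer (Q : Set G)) :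
    Q ∈ Cfsg.invSubgroups ⊤ A {q} := ⟨le_top, fun d hd hdd => by
  obtain ⟨k, hk⟩ := hQ.exists_card_eq
  exact (Nat.prime_dvd_prime_iff_eq hd hq.out).mp (hd.dvd_of_dvd_pow (hk ▸ hdd)), hAQ⟩

theorem exists_max_ge {Q : Subgroup G} (hQ : Q ∈ Cfsg.invSubgroups ⊤ A {q}) :
    ∃ R ∈ Cfsg.maxInvSubgroups ⊤ A {q}, Q ≤ R := by
  obtain ⟨R, hle, hR⟩ := Finite.exists_le_maximal (p := fun V : Subgroup G => V ∈ Cfsg.invSubgroups ⊤ A {q}) hQ
  exact ⟨R, ⟨hR.1, fun S hS hle => le_antisymm (hR.2 hS hle) hle⟩, hle⟩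

theorem map_map_inv (c : G) (U : Subgroup G) :
    (U.map (MulAut.conj c).toMonoidHom).map (MulAut.conj c⁻¹).toMonoidHom = U := by
  rw [Subgroup.map_map]
  conv_rhs => rw [← Subgroup.map_id U]
  congr 1
  ext x
  show c⁻¹ * (c * x * c⁻¹) * c⁻¹⁻¹ = x
  group

theorem inv_conj {Q : Subgroup G} {c : G} (hc : c ∈ Subgroup.centralizer (A : Set G))
    (hQ : Q ∈ Cfsg.invSubgroups ⊤ A {q}) : Q.map (MulAut.conj c).toMonoidHom ∈ Cfsg.invSubgroups ⊤ A {q} := by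
  refine mem_inv ((isPGroup_of_inv hQ).map _) fun e he => Subgroup.mem_normalizer_fintype ?_
  rintro _ ⟨u, hu, rfl⟩
  refine ⟨e * u * e⁻¹, (Subgroup.mem_normalizer_iff.mp (hQ.2.2 he) u).mp hu, ?_⟩
  have h := hc e he
  show c * (e * u * e⁻¹) * c⁻¹ = e * (c * u * c⁻¹) * e⁻¹
  calc c * (e * u * e⁻¹) * c⁻¹ = (c * e) * u * (c * e)⁻¹ := by group
    _ = (e * c) * u * (e * c)⁻¹ := by rw [h]
    _ = _ := by group

theorem max_conj {Q : Subgroup G} {c : G} (hc : c ∈ Subgroup.centralizer (A : Set G))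
    (hQ : Q ∈ Cfsg.maxInvSubgroups ⊤ A {q}) : Q.map (MulAut.conj c).toMonoidHom ∈ Cfsg.maxInvSubgroups ⊤ A {q} := by
  refine ⟨inv_conj hc hQ.1, fun R hR hle => ?_⟩
  have h := hQ.2 _ (inv_conj (inv_mem hc) hR) (le_of_eq_of_le (map_map_inv c Q).symm (Subgroup.map_mono hle))
  have h2 := congrArg (Subgroup.map (MulAut.conj c⁻¹⁻¹).toMonoidHom) h
  rw [map_map_inv, inv_inv] at h2
  exact h2

theorem le_core (hA : Cfsg.TransitivityHypothesis A) {X Y : Subgroup G} (hX : X ≠ ⊤) (hAX : A ≤ X)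
    (hY : Y ∈ Cfsg.invSubgroups X A (pi A)) : Y ≤ Cfsg.piCoreOf (pi A) X :=
  (hA.2.2 X hX hAX) ▸ le_sSup hY

theorem inv_pi {X Y : Subgroup G} (hY : IsPGroup q ↥Y) (hqA : ¬ q ∣ Nat.card A) (hYX : Y ≤ X)
    (hAY : A ≤ Subgroup.normalizer (Y : Set G)) : Y ∈ Cfsg.invSubgroups X A (pi A) := ⟨hYX, fun d hd hdd => by
  obtain ⟨k, hk⟩ := hY.exists_card_eq
  rw [(Nat.prime_dvd_prime_iff_eq hd hq.out).mp (hd.dvd_of_dvd_pow (hk ▸ hdd))]
  exact ⟨hq.out, hqA⟩, hAY⟩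

/-- Sylow subgroups of the core above two invariant `q`-subgroups are conjugate under the core of the centralizer. -/
theorem exists_conj (hA : Cfsg.TransitivityHypothesis A) (hsimple : IsSimpleGroup G)
    (hsol : ∀ H : Subgroup G, H ≠ ⊤ → Group.IsSolvable ↥H) (hqA : ¬ q ∣ Nat.card A) {X Y₁ Y₂ : Subgroup G}
    (hX : X ≠ ⊤) (hAX : A ≤ X) (hY₁ : IsPGroup q ↥Y₁) (hY₂ : IsPGroup q ↥Y₂) (h₁ : Y₁ ≤ X) (h₂ : Y₂ ≤ X)
    (hA₁ : A ≤ Subgroup.normalizer (Y₁ : Set G)) (hA₂ : A ≤ Subgroup.normalizer (Y₂ : Set G)) :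
    ∃ R ∈ Cfsg.maxInvSubgroups ⊤ A {q}, ∃ c ∈ Cfsg.piCoreOf (pi A) (Subgroup.centralizer (A : Set G)),
      Y₁ ≤ R ∧ Y₂ ≤ R.map (MulAut.conj c).toMonoidHom := by
  set H := Cfsg.piCoreOf (pi A) X with hH
  have hAH : A ≤ Subgroup.normalizer (H : Set G) := by
    intro a ha
    refine Subgroup.mem_normalizer_fintype ?_
    rintro _ ⟨y, hy, rfl⟩
    exact ⟨⟨a, hAX ha⟩ * y * ⟨a, hAX ha⟩⁻¹, (Cfsg.piCore_normal (pi A) ↥X).conj_mem y hy _, rfl⟩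
  have hHpi : ∀ r : ℕ, r.Prime → r ∣ Nat.card ↥H → r ∈ pi A := fun r hr hd => by
    rw [hH, Cfsg.piCoreOf, Subgroup.card_map_of_injective X.subtype_injective] at hd
    exact CfsgLib.GroupB.Cores.piCore_spec (pi A) r hr hd
  have hcop : (Nat.card ↥A).Coprime (Nat.card ↥H) :=
    Nat.coprime_of_dvd fun r hr hrA hrH => (hHpi r hr hrH).2 hrA
  have hsA : Group.IsSolvable ↥A := hsol A hA.2.1
  obtain ⟨S₁, hS₁le, hS₁, hS₁A⟩ := exists_invariant_sylow_ge hAH hcop (Or.inr hsA) q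
    (le_core hA hX hAX (inv_pi hY₁ hqA h₁ hA₁)) hY₁ hA₁
  obtain ⟨S₂, hS₂le, hS₂, hS₂A⟩ := exists_invariant_sylow_ge hAH hcop (Or.inr hsA) q
    (le_core hA hX hAX (inv_pi hY₂ hqA h₂ hA₂)) hY₂ hA₂
  obtain ⟨c, hc, hcS⟩ := (invariant_sylow hAH hcop (Or.inr hsA) q).2 S₁ S₂ hS₁ hS₁A hS₂ hS₂A
  obtain ⟨R, hR, hle⟩ := exists_max_ge (mem_inv hS₁.isPGroup hS₁A)
  obtain ⟨hcH, hcA⟩ := Subgroup.mem_inf.mp hc
  refine ⟨R, hR, c, ?_, hS₁le.trans hle, hS₂le.trans (hcS.ge.trans (Subgroup.map_mono hle))⟩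
  -- the conjugating element lies in the core
  set N := Subgroup.normalizer (A : Set G) with hN
  have hNt : N ≠ ⊤ := fun e => by
    haveI := Subgroup.normalizer_eq_top_iff.mp e
    exact (hsimple.eq_bot_or_eq_top_of_normal A inferInstance).elim hA.1 hA.2.1
  have hCN : Subgroup.centralizer (A : Set G) ≤ N := Subgroup.centralizer_le_normalizer _
  have hcpi : Subgroup.zpowers c ∈ Cfsg.invSubgroups N A (pi A) :=
    ⟨Subgroup.zpowers_le.mpr (hCN hcA), fun r hr hd => hHpi r hr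
        (hd.trans (Subgroup.card_dvd_of_le (Subgroup.zpowers_le.mpr hcH))),
      fun a ha => Subgroup.centralizer_le_normalizer _ fun z hz => ((Subgroup.zpowers_le.mpr hcA) hz a ha).symm⟩
  obtain ⟨c', hc', hcc⟩ := le_core hA hNt Subgroup.le_normalizer hcpi (Subgroup.mem_zpowers c)
  let ι := Subgroup.inclusion hCN
  have hle' : (Cfsg.piCore (pi A) ↥N).comap ι ≤ Cfsg.piCore (pi A) ↥(Subgroup.centralizer (A : Set G)) := by
    refine le_sSup ⟨Subgroup.Normal.comap inferInstance ι, fun r hr hd => ?_⟩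
    exact CfsgLib.GroupB.Cores.piCore_spec (pi A) r hr
      (hd.trans (Subgroup.card_comap_dvd_of_injective _ ι (Subgroup.inclusion_injective hCN)))
  refine ⟨⟨c, hcA⟩, hle' ?_, rfl⟩
  show ι ⟨c, hcA⟩ ∈ Cfsg.piCore (pi A) ↥N
  have e : ι ⟨c, hcA⟩ = c' := Subtype.ext hcc.symm
  rw [e]
  exact hc'

/-- Maximal invariant subgroups meeting nontrivially are conjugate. -/
theorem conj_of_inf_ne (hA : Cfsg.TransitivityHypothesis A) (hsimple : IsSimpleGroup G) (hnc : ¬ IsMulCommutative G)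
    (hsol : ∀ H : Subgroup G, H ≠ ⊤ → Group.IsSolvable ↥H) (hqA : ¬ q ∣ Nat.card A) : ∀ m, ∀ R₁ R₂ : Subgroup G,
    R₁ ∈ Cfsg.maxInvSubgroups ⊤ A {q} → R₂ ∈ Cfsg.maxInvSubgroups ⊤ A {q} → R₁ ⊓ R₂ ≠ ⊥ →
    Nat.card G - Nat.card ↥(R₁ ⊓ R₂ : Subgroup G) = m →
    ∃ k ∈ Cfsg.piCoreOf (pi A) (Subgroup.centralizer (A : Set G)), R₂ = R₁.map (MulAut.conj k).toMonoidHom := by
  intro m
  induction m using Nat.strong_induction_on with
  | _ m ih =>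
    intro R₁ R₂ hR₁ hR₂ hne hm
    by_cases e1 : R₁ ⊓ R₂ = R₁
    · exact ⟨1, one_mem _, by rw [map_one]; exact (hR₁.2 _ hR₂.1 (inf_eq_left.mp e1)).trans (Subgroup.map_id R₁).symm⟩
    by_cases e2 : R₁ ⊓ R₂ = R₂
    · exact ⟨1, one_mem _, by rw [map_one]; exact ((Subgroup.map_id R₁).trans (hR₂.2 _ hR₁.1 (inf_eq_right.mp e2))).symm⟩
    set D := R₁ ⊓ R₂ with hD
    have hAD : A ≤ Subgroup.normalizer (D : Set G) := normalizer_inf_ge hR₁.1.2.2 hR₂.1.2.2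
    have hDp : IsPGroup q ↥D := (isPGroup_of_inv hR₁.1).to_le inf_le_left
    have hND : Subgroup.normalizer (D : Set G) ≠ ⊤ := fun e => by
      haveI := Subgroup.normalizer_eq_top_iff.mp e
      rcases hsimple.eq_bot_or_eq_top_of_normal D inferInstance with h | h
      · exact hne h
      · exact e1 (le_antisymm inf_le_left (h ▸ le_top))
    have hAX : A ≤ Subgroup.normalizer (D : Set G) := hAD
    have hAN : A ≤ Subgroup.normalizer ((Subgroup.normalizer (D : Set G) : Subgroup G) : Set G) := hAD.trans Subgroup.le_normalizer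
    obtain ⟨R₃, hR₃, c, hc, hle₃, hle₂⟩ := exists_conj hA hsimple hsol hqA hND hAX
      ((isPGroup_of_inv hR₁.1).to_le (inf_le_right : Subgroup.normalizer (D : Set G) ⊓ R₁ ≤ R₁))
      ((isPGroup_of_inv hR₂.1).to_le (inf_le_right : Subgroup.normalizer (D : Set G) ⊓ R₂ ≤ R₂))
      inf_le_left inf_le_left (normalizer_inf_ge hAN hR₁.1.2.2) (normalizer_inf_ge hAN hR₂.1.2.2)
    have hlt : ∀ Q : Subgroup G, IsPGroup q ↥Q → D ≤ Q → D ≠ Q → ∀ R R' : Subgroup G,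
        Subgroup.normalizer (D : Set G) ⊓ Q ≤ R ⊓ R' →
        R ⊓ R' ≠ ⊥ ∧ Nat.card G - Nat.card ↥(R ⊓ R' : Subgroup G) < m := by
      intro Q hQ hDQ hDne R R' h
      have hlt : D < R ⊓ R' := lt_of_lt_of_le (lt_of_le_of_ne (le_inf Subgroup.le_normalizer hDQ) fun e =>
        hDne (eq_of_normalizer_inf_le hQ hDQ (by rw [inf_comm]; exact e.ge))) h
      refine ⟨fun e => hne (le_antisymm (e ▸ hlt.le) bot_le), ?_⟩
      rw [← hm]
      have h1 : Nat.card ↥D < Nat.card ↥(R ⊓ R' : Subgroup G) := lt_of_le_of_ne (Subgroup.card_le_of_le hlt.le)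
        fun he => hlt.ne (Subgroup.eq_of_le_of_card_ge hlt.le he.ge)
      have h2 := Subgroup.card_le_card_group (R ⊓ R')
      omega
    obtain ⟨h13, l13⟩ := hlt R₁ (isPGroup_of_inv hR₁.1) inf_le_left (fun e => e1 e) R₁ R₃ (le_inf inf_le_right hle₃)
    obtain ⟨h32, l32⟩ := hlt R₂ (isPGroup_of_inv hR₂.1) inf_le_right (fun e => e2 e)
      (R₃.map (MulAut.conj c).toMonoidHom) R₂ (le_inf hle₂ inf_le_right)
    have hcC : c ∈ Subgroup.centralizer (A : Set G) := Subgroup.map_subtype_le _ hc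
    obtain ⟨k₁, hk₁, f₁⟩ := ih _ l13 R₁ R₃ hR₁ hR₃ h13 rfl
    obtain ⟨k₂, hk₂, f₂⟩ := ih _ l32 _ R₂ (max_conj hcC hR₃) hR₂ h32 rfl
    refine ⟨k₂ * c * k₁, mul_mem (mul_mem hk₂ hc) hk₁, ?_⟩
    rw [map_mul, map_mul, f₂, f₁, Subgroup.map_map, Subgroup.map_map]
    rfl

/-- Maximal invariant subgroups meeting a proper overgroup of `A` nontrivially are conjugate. -/
theorem conj_of_meet (hA : Cfsg.TransitivityHypothesis A) (hsimple : IsSimpleGroup G) (hnc : ¬ IsMulCommutative G)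
    (hsol : ∀ H : Subgroup G, H ≠ ⊤ → Group.IsSolvable ↥H) (hqA : ¬ q ∣ Nat.card A) {R₁ R₂ H : Subgroup G}
    (hR₁ : R₁ ∈ Cfsg.maxInvSubgroups ⊤ A {q}) (hR₂ : R₂ ∈ Cfsg.maxInvSubgroups ⊤ A {q}) (hH : H ≠ ⊤) (hAH : A ≤ H)
    (h₁ : H ⊓ R₁ ≠ ⊥) (h₂ : H ⊓ R₂ ≠ ⊥) :
    ∃ k ∈ Cfsg.piCoreOf (pi A) (Subgroup.centralizer (A : Set G)), R₂ = R₁.map (MulAut.conj k).toMonoidHom := by
  have hAN : A ≤ Subgroup.normalizer (H : Set G) := hAH.trans Subgroup.le_normalizer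
  obtain ⟨R₃, hR₃, c, hc, hle₃, hle₂⟩ := exists_conj hA hsimple hsol hqA hH hAH
    ((isPGroup_of_inv hR₁.1).to_le (inf_le_right : H ⊓ R₁ ≤ R₁)) ((isPGroup_of_inv hR₂.1).to_le (inf_le_right : H ⊓ R₂ ≤ R₂))
    inf_le_left inf_le_left (normalizer_inf_ge hAN hR₁.1.2.2) (normalizer_inf_ge hAN hR₂.1.2.2)
  have hcC : c ∈ Subgroup.centralizer (A : Set G) := Subgroup.map_subtype_le _ hc
  obtain ⟨k₁, hk₁, f₁⟩ := conj_of_inf_ne hA hsimple hnc hsol hqA _ R₁ R₃ hR₁ hR₃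
    (fun e => h₁ (le_antisymm (e ▸ le_inf inf_le_right hle₃) bot_le)) rfl
  obtain ⟨k₂, hk₂, f₂⟩ := conj_of_inf_ne hA hsimple hnc hsol hqA _ _ R₂ (max_conj hcC hR₃) hR₂
    (fun e => h₂ (le_antisymm (e ▸ le_inf hle₂ inf_le_right) bot_le)) rfl
  refine ⟨k₂ * c * k₁, mul_mem (mul_mem hk₂ hc) hk₁, ?_⟩
  rw [map_mul, map_mul, f₂, f₁, Subgroup.map_map, Subgroup.map_map]
  rfl

theorem eq_of_bot {R₁ R₂ : Subgroup G} (hR₁ : R₁ ∈ Cfsg.maxInvSubgroups ⊤ A {q})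
    (hR₂ : R₂ ∈ Cfsg.maxInvSubgroups ⊤ A {q}) (h : R₁ = ⊥) :
    ∃ k ∈ Cfsg.piCoreOf (pi A) (Subgroup.centralizer (A : Set G)), R₂ = R₁.map (MulAut.conj k).toMonoidHom :=
  ⟨1, one_mem _, by rw [map_one]; exact (hR₁.2 _ hR₂.1 (h ▸ bot_le)).trans (Subgroup.map_id R₁).symm⟩

end CfsgLib.InvariantMax
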