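import Mathlib
import Cfsg.Agent.Lib.ZStar.Main
import Cfsg.Agent.Lib.GroupB.Coprime
import Cfsg.Agent.Lib.Isolated

/-! An isolated involution normalizes Sylow subgroups for every prime. -/

namespace CfsgLib.IsolatedSylow

open Cfsg CfsgLib.GroupB.Coprime

universe u

variable {G : Type u} [Group G] [Finite G]

/-- `G = O(G) C(z)`. -/
theorem exists_oddCore_mul {z : G} (hz : IsIsolatedInvolution z) (g : G) :
    ∃ d ∈ oddCore G, d⁻¹ * g ∈ Subgroup.centralizer ({z} : Set G) := by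
  obtain ⟨k, hk⟩ := CfsgLib.Isolated.exists_zpow_conj hz.1 (CfsgLib.Involution.orderOf_conj' hz.1)
    (CfsgLib.Isolated.odd_orderOf_mul_conj hz g)
  refine ⟨(z * (g * z * g⁻¹)) ^ k, ?_, ?_⟩
  · refine Subgroup.zpow_mem _ ?_ k
    have h := CfsgLib.ZStar.zstar hz g
    rw [CfsgLib.Involution.inv_eq hz.1] at h
    rw [show z * (g * z * g⁻¹) = z * g * z * g⁻¹ by group]
    exact h
  · rw [Subgroup.mem_centralizer_singleton_iff]
    set d := (z * (g * z * g⁻¹)) ^ k
    calc d⁻¹ * g * z = d⁻¹ * (g * z * g⁻¹) * g := by group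
      _ = d⁻¹ * (d * z * d⁻¹) * g := by rw [hk]
      _ = z * (d⁻¹ * g) := by group

theorem odd_sup {p : ℕ} [Fact p.Prime] (hp : p ≠ 2) (P : Sylow p G) :
    Odd (Nat.card ((P : Subgroup G) ⊔ oddCore G : Subgroup G)) := by
  haveI := CfsgLib.ZStar.oddCore_normal (G := G)
  obtain ⟨n, hn⟩ := IsPGroup.iff_card.1 P.2
  refine Odd.of_dvd_nat ?_ (CfsgLib.Core.card_sup_dvd_of_normal (P : Subgroup G) (oddCore G))
  exact (hn ▸ ((Fact.out : p.Prime).odd_of_ne_two hp).pow).mul CfsgLib.ZStar.oddCore_odd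

theorem invariant_sup {z : G} (hz : IsIsolatedInvolution z) (P : Subgroup G) :
    Subgroup.zpowers z ≤ Subgroup.normalizer ((P ⊔ oddCore G : Subgroup G) : Set G) := by
  haveI := CfsgLib.ZStar.oddCore_normal (G := G)
  rw [Subgroup.zpowers_le]
  refine Subgroup.mem_normalizer_iff.2 fun x => ?_
  have key : ∀ y : G, y ∈ P ⊔ oddCore G → z * y * z⁻¹ ∈ P ⊔ oddCore G := fun y hy => by
    rw [show z * y * z⁻¹ = (z * y * z⁻¹ * y⁻¹) * y by group]
    exact mul_mem (Subgroup.mem_sup_right (CfsgLib.ZStar.zstar hz y)) hy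
  refine ⟨key x, fun h => ?_⟩
  have := key _ h
  rw [CfsgLib.Involution.inv_eq hz.1] at this
  have hzz := CfsgLib.Involution.mul_self hz.1
  rwa [show z * (z * x * z) * z = (z * z) * x * (z * z) by group, hzz, one_mul, mul_one] at this

theorem coprime_zpowers {z : G} (hz : orderOf z = 2) {H : Subgroup G} (hH : Odd (Nat.card H)) :
    (Nat.card (Subgroup.zpowers z)).Coprime (Nat.card H) := by
  rw [Nat.card_zpowers, hz]; exact Nat.coprime_two_left.2 hH

/-- An isolated involution normalizes some Sylow `p`-subgroup. -/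
theorem exists_invariant {z : G} (hz : IsIsolatedInvolution z) (p : ℕ) [Fact p.Prime] :
    ∃ P : Sylow p G, z ∈ Subgroup.normalizer ((P : Subgroup G) : Set G) := by
  by_cases hp : p = 2
  · subst hp
    obtain ⟨S, hS⟩ := CfsgLib.ZStar.exists_sylow_mem hz.1
    exact ⟨S, Subgroup.le_normalizer hS⟩
  · obtain ⟨P₀⟩ : Nonempty (Sylow p G) := inferInstance
    let H : Subgroup G := (P₀ : Subgroup G) ⊔ oddCore G
    obtain ⟨⟨P, hP, hPz⟩, -⟩ := invariant_sylow (invariant_sup hz (P₀ : Subgroup G))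
      (coprime_zpowers hz.1 (odd_sup hp P₀)) (Or.inr inferInstance) p
    have hcard : Nat.card P = p ^ (Nat.card G).factorization p := by
      refine le_antisymm ?_ ?_
      · obtain ⟨Q, hQ⟩ := hP.isPGroup.exists_le_sylow
        exact (Subgroup.card_le_of_le hQ).trans Q.card_eq_multiplicity.le
      · rw [hP.2, ← P₀.card_eq_multiplicity]
        refine Nat.le_of_dvd (pow_pos (Fact.out : p.Prime).pos _) ?_
        obtain ⟨n, hn⟩ := IsPGroup.iff_card.1 P₀.2
        rw [hn]
        refine ((Fact.out : p.Prime).pow_dvd_iff_dvd_ordProj Nat.card_pos.ne').1 ?_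
        rw [← hn]
        exact Subgroup.card_dvd_of_le le_sup_left
    exact ⟨Sylow.ofCard P hcard, by simpa using Subgroup.zpowers_le.1 hPz⟩

/-- Two invariant Sylow `p`-subgroups, `p` odd, are conjugate under the centralizer. -/
theorem exists_conj {z : G} (hz : IsIsolatedInvolution z) {p : ℕ} [Fact p.Prime] (hp : p ≠ 2)
    (P Q : Sylow p G) (hP : z ∈ Subgroup.normalizer ((P : Subgroup G) : Set G))
    (hQ : z ∈ Subgroup.normalizer ((Q : Subgroup G) : Set G)) :
    ∃ c ∈ Subgroup.centralizer ({z} : Set G), (P : Subgroup G).map (MulAut.conj c).toMonoidHom = Q := by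
  haveI hOn := CfsgLib.ZStar.oddCore_normal (G := G)
  obtain ⟨g, rfl⟩ := MulAction.exists_smul_eq G P Q
  obtain ⟨d, hd, hc⟩ := exists_oddCore_mul hz g
  set c := d⁻¹ * g with hcdef
  let P'' : Subgroup G := (P : Subgroup G).map (MulAut.conj c).toMonoidHom
  let H : Subgroup G := ((g • P : Sylow p G) : Subgroup G) ⊔ oddCore G
  have hle : P'' ≤ H := by
    rintro _ ⟨x, hx, rfl⟩
    have hgx : g * x * g⁻¹ ∈ ((g • P : Sylow p G) : Subgroup G) := by
      rw [Sylow.coe_subgroup_smul]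
      exact ⟨x, hx, rfl⟩
    show c * x * c⁻¹ ∈ H
    rw [hcdef, show d⁻¹ * g * x * (d⁻¹ * g)⁻¹ = d⁻¹ * (g * x * g⁻¹) * d by group]
    exact mul_mem (mul_mem (inv_mem (Subgroup.mem_sup_right hd)) (Subgroup.mem_sup_left hgx)) (Subgroup.mem_sup_right hd)
  have hsyl : ∀ (R : Subgroup G), R ≤ H → Nat.card R = p ^ (Nat.card G).factorization p → IsSylowOf p R H := fun R hR hc => by
    refine ⟨hR, le_antisymm ?_ ?_⟩
    · rw [hc]
      refine Nat.le_of_dvd (pow_pos (Fact.out : p.Prime).pos _) ?_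
      refine ((Fact.out : p.Prime).pow_dvd_iff_dvd_ordProj Nat.card_pos.ne').1 ?_
      rw [← hc]
      exact Subgroup.card_dvd_of_le hR
    · rw [hc]
      exact Nat.pow_le_pow_right (Fact.out : p.Prime).pos
        ((Nat.factorization_le_iff_dvd Nat.card_pos.ne' Nat.card_pos.ne').2 (Subgroup.card_subgroup_dvd_card H) p)
  have hP''z : Subgroup.zpowers z ≤ Subgroup.normalizer (P'' : Set G) := by
    rw [Subgroup.zpowers_le]
    refine mem_normalizer_iff_map_conj_eq.2 ?_
    have h1 := mem_normalizer_iff_map_conj_eq.1 hP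
    have hcz : z * c = c * z := (Subgroup.mem_centralizer_singleton_iff.1 hc).symm
    rw [CfsgLib.GroupB.SchurZassenhaus.map_conj_map_conj, hcz, ← CfsgLib.GroupB.SchurZassenhaus.map_conj_map_conj, h1]
  obtain ⟨-, h2⟩ := invariant_sylow (A := Subgroup.zpowers z) (invariant_sup hz ((g • P : Sylow p G) : Subgroup G))
    (coprime_zpowers hz.1 (odd_sup hp (g • P))) (Or.inr inferInstance) p
  obtain ⟨e, he, hee⟩ := h2 P'' _ (hsyl P'' hle (by
      rw [CfsgLib.GroupB.SchurZassenhaus.card_map_conj]; exact P.card_eq_multiplicity)) hP''z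
    (hsyl _ le_sup_left (g • P).card_eq_multiplicity) (Subgroup.zpowers_le.2 hQ)
  refine ⟨e * c, mul_mem ?_ hc, ?_⟩
  · rw [Subgroup.mem_centralizer_singleton_iff]
    exact (Subgroup.mem_centralizer_iff.1 he.2 z (Subgroup.mem_zpowers z)).symm
  · rw [← CfsgLib.GroupB.SchurZassenhaus.map_conj_map_conj]; exact hee

/-- Maximal invariant `p`-subgroups are Sylow subgroups. -/
theorem exists_eq_of_maximal {z : G} (hz : IsIsolatedInvolution z) {p : ℕ} [Fact p.Prime] (Q : Subgroup G)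
    (hQ : IsPGroup p Q) (hzQ : z ∈ Subgroup.normalizer (Q : Set G))
    (hmax : ∀ R : Subgroup G, IsPGroup p R → z ∈ Subgroup.normalizer (R : Set G) → Q ≤ R → R = Q) :
    ∃ P : Sylow p G, (P : Subgroup G) = Q := by
  let N := Subgroup.normalizer (Q : Set G)
  obtain ⟨R, hR⟩ := exists_invariant (CfsgLib.ZStar.isolated_subgroup hz N hzQ) p
  haveI : (Q.subgroupOf N).Normal := Subgroup.normal_subgroupOf_of_le_normalizer le_rfl
  have hQR : Q.subgroupOf N ≤ (R : Subgroup N) :=
    CfsgLib.Core.sylow_inf_le R (hQ.of_equiv (Subgroup.subgroupOfEquivOfLe Subgroup.le_normalizer).symm)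
  have h1 := hmax ((R : Subgroup N).map N.subtype) (R.2.map _)
    (Subgroup.mem_normalizer_iff.2 fun x => ?_) ?_
  · obtain ⟨P, hP⟩ := hQ.exists_le_sylow
    refine ⟨P, le_antisymm ?_ hP⟩
    by_contra hn
    have hlt : Q < (P : Subgroup G) := lt_of_le_not_ge hP hn
    -- normalizers grow
    haveI : Group.IsNilpotent (P : Subgroup G) := P.2.isNilpotent
    have h2 : Q.subgroupOf (P : Subgroup G) < ⊤ :=
      lt_top_iff_ne_top.2 fun h => hn (Subgroup.subgroupOf_eq_top.1 h)
    have h3 := Group.normalizerCondition_of_isNilpotent _ h2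
    obtain ⟨x, hx1, hx2⟩ := SetLike.exists_of_lt h3
    have hxN : (x : G) ∈ N := by
      rw [← Subgroup.subgroupOf_normalizer_eq hP] at hx1
      exact hx1
    have hp2 : IsPGroup p ↥((P : Subgroup G).subgroupOf N) :=
      IsPGroup.of_injective P.2 ((N.subtype.comp ((P : Subgroup G).subgroupOf N).subtype).codRestrict (P : Subgroup G) fun y => y.2)
        fun a b e => Subtype.ext (Subtype.ext (congrArg Subtype.val e :))
    obtain ⟨T, hT⟩ := hp2.exists_le_sylow
    have hcards : Nat.card ((P : Subgroup G).subgroupOf N) ≤ Nat.card (Q.subgroupOf N) := by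
      calc Nat.card ((P : Subgroup G).subgroupOf N) ≤ Nat.card T := Subgroup.card_le_of_le hT
        _ = Nat.card R := by rw [T.card_eq_multiplicity, R.card_eq_multiplicity]
        _ = Nat.card Q := by rw [← h1, Subgroup.card_map_of_injective N.subtype_injective]
        _ = _ := (Nat.card_congr (Subgroup.subgroupOfEquivOfLe Subgroup.le_normalizer).toEquiv).symm
    have heq := Subgroup.eq_of_le_of_card_ge (show Q.subgroupOf N ≤ (P : Subgroup G).subgroupOf N from fun y hy => hP hy) hcards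
    exact hx2 (show (⟨(x : G), hxN⟩ : N) ∈ Q.subgroupOf N from heq ▸ (show (⟨(x : G), hxN⟩ : N) ∈ (P : Subgroup G).subgroupOf N from x.2))
  · have h := Subgroup.mem_normalizer_iff.1 hR
    constructor
    · rintro ⟨y, hy, rfl⟩
      exact ⟨_, (h y).1 hy, rfl⟩
    · rintro ⟨y, hy, e⟩
      refine ⟨(⟨z, hzQ⟩ : N)⁻¹ * y * ⟨z, hzQ⟩, ?_, ?_⟩
      · refine (h _).2 ?_
        rw [show (⟨z, hzQ⟩ : N) * ((⟨z, hzQ⟩ : N)⁻¹ * y * ⟨z, hzQ⟩) * (⟨z, hzQ⟩ : N)⁻¹ = y by group]
        exact hy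
      · show z⁻¹ * (y : G) * z = x
        rw [show (y : G) = z * x * z⁻¹ from e]; group
  · intro x hx
    exact ⟨⟨x, Subgroup.le_normalizer hx⟩, hQR hx, rfl⟩

end CfsgLib.IsolatedSylow
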