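import Cfsg.Agent.Lib.KInfControl
import Cfsg.Agent.Lib.QdFree
import Cfsg.Agent.Lib.Dickson.QdSection
import Cfsg.Agent.S1980

/-! Qd(p) and the K-infinity subgroups (owner helper5). -/

set_option autoImplicit false

universe u

namespace CfsgLib.KInfQd

open Cfsg CfsgLib.SectionReduce CfsgLib.Qd CfsgLib.Fusion
open scoped Matrix

variable {p : ℕ} [hp : Fact p.Prime]

set_option quotPrecheck false in
local notation "Q0" => ↥(CfsgLib.Qd.aff (ZMod p))

/-- the Sylow subgroup of `Qd(p)` -/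
def T0 : Subgroup Q0 := (CfsgLib.Linear.GL2Unipotent.V (F := ZMod p)).comap blk

theorem mem_T0 {m : Q0} : m ∈ T0 (p := p) ↔ ∃ c, CfsgLib.Linear.GL2Unipotent.v c = blk m := Iff.rfl

theorem trl_mem (a : Fin 2 → ZMod p) : trl a ∈ T0 (p := p) :=
  mem_T0.mpr ⟨0, Subtype.ext (by simp [Matrix.one_fin_two])⟩

theorem lift_v_mem (c : ZMod p) : lift (CfsgLib.Linear.GL2Unipotent.v c) ∈ T0 (p := p) :=
  mem_T0.mpr ⟨c, (blk_lift _).symm⟩

/-- an abelian normal subgroup of `T0` outside the translations -/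
def A0 : Subgroup Q0 where
  carrier := {m | m ∈ T0 (p := p) ∧ vec m 0 = 0}
  one_mem' := ⟨one_mem _, by simp [vec]⟩
  mul_mem' := by
    rintro a b ⟨ha, ha0⟩ ⟨hb, hb0⟩
    refine ⟨mul_mem ha hb, ?_⟩
    obtain ⟨c, hc⟩ := mem_T0.mp ha
    rw [vec_mul, ← hc]
    simp [Matrix.mulVec, dotProduct, Fin.sum_univ_two, ha0, hb0]
  inv_mem' := by
    rintro a ⟨ha, ha0⟩
    refine ⟨inv_mem ha, ?_⟩
    obtain ⟨c, hc⟩ := mem_T0.mp (inv_mem ha)
    have h : vec (a⁻¹ * a) 0 = 0 := by simp [vec]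
    rw [vec_mul, ← hc] at h
    simpa [Matrix.mulVec, dotProduct, Fin.sum_univ_two, ha0] using h

theorem v_comm (c d : ZMod p) : CfsgLib.Linear.GL2Unipotent.v c * CfsgLib.Linear.GL2Unipotent.v d =
    CfsgLib.Linear.GL2Unipotent.v d * CfsgLib.Linear.GL2Unipotent.v c :=
  Subtype.ext (by simp [add_comm])

theorem A0_comm : ∀ a ∈ A0 (p := p), ∀ b ∈ A0 (p := p), a * b = b * a := by
  rintro a ⟨ha, ha0⟩ b ⟨hb, hb0⟩
  obtain ⟨c, hc⟩ := mem_T0.mp ha
  obtain ⟨d, hd⟩ := mem_T0.mp hb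
  rw [ext_iff']
  refine ⟨by rw [map_mul, map_mul, ← hc, ← hd, v_comm], ?_⟩
  rw [vec_mul, vec_mul, ← hc, ← hd]
  funext i
  fin_cases i <;> simp [Matrix.mulVec, dotProduct, Fin.sum_univ_two, ha0, hb0, add_comm]

theorem A0_normal : (A0 (p := p)).subgroupOf (T0 (p := p)) |>.Normal := by
  refine ⟨fun a ha g => ?_⟩
  rw [Subgroup.mem_subgroupOf] at ha ⊢
  obtain ⟨hat, ha0⟩ := ha
  refine ⟨mul_mem (mul_mem g.2 hat) (inv_mem g.2), ?_⟩
  obtain ⟨c, hc⟩ := mem_T0.mp g.2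
  obtain ⟨d, hd⟩ := mem_T0.mp hat
  have h : vec (((g : Q0) * (a : Q0) * (g : Q0)⁻¹) * (g : Q0)) 0 = vec ((g : Q0) * (a : Q0)) 0 := by
    rw [inv_mul_cancel_right]
  rw [vec_mul ((g : Q0) * (a : Q0) * (g : Q0)⁻¹) (g : Q0), map_mul, map_mul, map_inv, ← hc, ← hd, v_comm, mul_inv_cancel_right,
    vec_mul (g : Q0) (a : Q0), ← hc] at h
  push_cast
  simpa [Matrix.mulVec, dotProduct, Fin.sum_univ_two, ha0] using h

theorem T0_sylow : IsPGroup p ↥(T0 (p := p)) ∧ ¬ p ∣ (T0 (p := p)).index := by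
  have hV : IsPGroup p ↥(CfsgLib.Linear.GL2Unipotent.V (F := ZMod p)) :=
    IsPGroup.of_card (n := 1) (by rw [CfsgLib.Linear.GL2Unipotent.card_V, pow_one, Nat.card_zmod])
  refine ⟨hV.comap_of_ker_isPGroup _ CfsgLib.Qd.isPGroup_ker, ?_⟩
  rw [T0, Subgroup.index_comap_of_surjective _ CfsgLib.Qd.blk_surjective]
  obtain ⟨P, hP⟩ := hV.exists_le_sylow
  obtain ⟨g, hg⟩ := CfsgLib.Linear.GL2Unipotent.exists_conj_V p P
  have : CfsgLib.Linear.GL2Unipotent.V (F := ZMod p) = (P : Subgroup _) := by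
    refine Subgroup.eq_of_le_of_card_ge hP (le_of_eq ?_)
    rw [hg, Subgroup.card_map_of_injective (MulEquiv.injective _)]
  rw [this]
  exact P.not_dvd_index

theorem not_controls (T : Sylow p Q0) :
    ¬ ControlsStrongFusion p (inducedFunctor kInfLower (T : Subgroup Q0)) := by
  intro hctl
  obtain ⟨hTp, hTi⟩ := T0_sylow (p := p)
  set S : Sylow p Q0 := hTp.toSylow hTi
  have hS : (S : Subgroup Q0) = T0 (p := p) := rfl
  -- move to `S`
  obtain ⟨g, hg⟩ := MulAction.exists_smul_eq Q0 T S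
  have hW : IsCharPFunctor.{0} p kInfLower := CfsgLib.KInfStable.charP_lower
  set W := inducedFunctor (G := Q0) kInfLower (T0 (p := p)) with hWdef
  have hWle : W ≤ T0 (p := p) := Subgroup.map_subtype_le _
  -- `A0 ≤ W`
  have hA : (A0 (p := p)).subgroupOf (T0 (p := p)) ≤ kInfLower ↥(T0 (p := p)) := by
    haveI := A0_normal (p := p)
    obtain ⟨-, h⟩ := Cfsg.Agent.S1980.result hTp ((A0 (p := p)).subgroupOf (T0 (p := p)))
      ⟨⟨fun a b => Subtype.ext (Subtype.ext (A0_comm _ a.2 _ b.2))⟩⟩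
    exact (le_sSup (h 0).1).trans (le_iSup (kSeqEven ↥(T0 (p := p))) 0)
  set x : Q0 := lift (CfsgLib.Linear.GL2Unipotent.v (1 : ZMod p)) with hx
  have hxT : x ∈ T0 (p := p) := lift_v_mem 1
  have hxW : x ∈ W :=
    ⟨⟨x, hxT⟩, hA (show x ∈ A0 (p := p) from ⟨hxT, by simp [hx]⟩), rfl⟩
  obtain ⟨T', hT', hc⟩ := hctl
  -- conjugate everything to `S`
  have hW' : cj g (inducedFunctor kInfLower (T : Subgroup Q0)) = W := by
    rw [hWdef, ← hS, ← hg]
    exact ((iF_conjugacy hW (T : Subgroup Q0) T.2).2.2 g).symm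
  have hTT' : (T' : Subgroup Q0) = (T : Subgroup Q0) := by
    have hWT : W ⊔ (blk : Q0 →* _).ker = T0 (p := p) := by
      refine le_antisymm (sup_le hWle fun y hy => ?_) fun y hy => ?_
      · exact mem_T0.mpr ⟨0, (Subtype.ext (by simp [Matrix.one_fin_two])).trans (MonoidHom.mem_ker.mp hy).symm⟩
      · obtain ⟨c, hc⟩ := mem_T0.mp hy
        obtain ⟨i, rfl⟩ : ∃ i : ℕ, (i : ZMod p) = c := ⟨c.val, ZMod.natCast_zmod_val c⟩
        have hxi : blk (x ^ i) = blk y := by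
          rw [← hc, map_pow, hx, blk_lift]
          clear hc
          induction i with
          | zero => exact Subtype.ext (by simp [Matrix.one_fin_two])
          | succ i ih => rw [pow_succ, ih]; exact Subtype.ext (by simp [add_comm])
        rw [show y = x ^ i * ((x ^ i)⁻¹ * y) by group]
        exact Subgroup.mul_mem_sup (pow_mem hxW i) (by rw [MonoidHom.mem_ker, map_mul, map_inv, hxi, inv_mul_cancel])
    have hker : ∀ P : Sylow p Q0, (blk : Q0 →* _).ker ≤ (P : Subgroup Q0) := fun P =>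
      CfsgLib.Core.sylow_inf_le P CfsgLib.Qd.isPGroup_ker
    have hle : cj g⁻¹ (T0 (p := p)) ≤ (T' : Subgroup Q0) := by
      rw [← hWT, cj, Subgroup.map_sup]
      refine sup_le (le_trans (le_of_eq ?_) hT') ?_
      · rw [← hW']; exact cj_inv_cj g _
      · refine le_trans (le_of_eq ?_) (hker T')
        exact mem_normalizer_iff_cj.mp (by rw [Subgroup.normalizer_eq_top]; trivial)
    have hTg : cj g⁻¹ (T0 (p := p)) = (T : Subgroup Q0) := by
      rw [← hS, ← hg]; exact cj_inv_cj g _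
    exact (Subgroup.eq_of_le_of_card_ge (hTg ▸ hle) (le_of_eq (by rw [T'.card_eq_multiplicity, T.card_eq_multiplicity]))).symm
  obtain rfl : T = T' := (Sylow.ext hTT').symm
  set w : Matrix.SpecialLinearGroup (Fin 2) (ZMod p) := ⟨!![0, 1; -1, 0], by simp [Matrix.det_fin_two_of]⟩ with hw
  set e2 : Q0 := trl ![0, 1]
  -- the fusion `e2 ↦ (1, 0)` read inside `T'`
  set r := g
  have hTr : cj r (T : Subgroup Q0) = T0 (p := p) := by
    rw [← hS, ← hg]; rfl
  obtain ⟨-, hc'⟩ := hc {r⁻¹ * e2 * r} (Set.singleton_subset_iff.mpr (by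
    have h : e2 ∈ cj r (T : Subgroup Q0) := hTr.ge (trl_mem _)
    exact mem_cj'.mp h))
  obtain ⟨n, hn, hne⟩ := hc' (r⁻¹ * lift w * r) (by
    rintro _ ⟨_, rfl, rfl⟩
    have h : lift w * e2 * (lift w)⁻¹ ∈ cj r (T : Subgroup Q0) := hTr.ge (by
      refine mem_T0.mpr ⟨0, ?_⟩
      rw [map_mul, map_mul, map_inv, blk_trl, mul_one, mul_inv_cancel]
      exact Subtype.ext (by simp [Matrix.one_fin_two]))
    have h2 := mem_cj'.mp h
    show r⁻¹ * lift w * r * (r⁻¹ * e2 * r) * (r⁻¹ * lift w * r)⁻¹ ∈ (T : Subgroup Q0)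
    convert h2 using 1
    group)
  have h1 := hne _ rfl
  -- `m = r n r⁻¹` normalises `cj r` of the functor value
  set m := r * n * r⁻¹
  have hm1 : m * e2 * m⁻¹ = lift w * e2 * (lift w)⁻¹ := by
    calc m * e2 * m⁻¹ = r * (n * (r⁻¹ * e2 * r) * n⁻¹) * r⁻¹ := by
          show r * n * r⁻¹ * e2 * (r * n * r⁻¹)⁻¹ = _
          group
      _ = r * (r⁻¹ * lift w * r * (r⁻¹ * e2 * r) * (r⁻¹ * lift w * r)⁻¹) * r⁻¹ := by rw [← h1]
      _ = _ := by group
  have hmN : m ∈ Subgroup.normalizer ((cj r (inducedFunctor kInfLower (T : Subgroup Q0)) : Subgroup Q0) : Set Q0) := by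
    rw [← cj_normalizer]; exact ⟨n, hn, rfl⟩
  rw [hW'] at hmN
  -- so `m` normalises `T0`, hence fixes the centre
  have hker' : cj m (blk : Q0 →* _).ker = (blk : Q0 →* _).ker :=
    mem_normalizer_iff_cj.mp (by rw [Subgroup.normalizer_eq_top]; trivial)
  have hxm : ∃ y ∈ W, m * y * m⁻¹ = x := by
    have h := (Subgroup.mem_normalizer_iff''.mp hmN x).mp hxW
    exact ⟨_, h, by group⟩
  obtain ⟨y, hy, hyx⟩ := hxm
  have hye : y * e2 = e2 * y := by
    obtain ⟨c, hc⟩ := mem_T0.mp (hWle hy)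
    rw [ext_iff']
    refine ⟨by rw [map_mul, map_mul, blk_trl, mul_one, one_mul], ?_⟩
    rw [vec_mul, vec_mul, blk_trl, vec_trl, ← hc]
    funext i
    fin_cases i <;> simp [Matrix.mulVec, dotProduct, Fin.sum_univ_two, add_comm]
  have h3 : x * (m * e2 * m⁻¹) = (m * e2 * m⁻¹) * x := by
    rw [← hyx]
    calc m * y * m⁻¹ * (m * e2 * m⁻¹) = m * (y * e2) * m⁻¹ := by group
      _ = m * (e2 * y) * m⁻¹ := by rw [hye]
      _ = _ := by group
  rw [hm1] at h3
  have hz : blk (lift w * e2 * (lift w)⁻¹) = 1 := by rw [map_mul, map_mul, map_inv, blk_trl, mul_one, mul_inv_cancel]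
  have h4 := congrFun (congrArg vec h3) 1
  rw [vec_mul x, vec_mul (lift w * e2 * (lift w)⁻¹) x, hz, hx, blk_lift, vec_lift, vec_conj _ (blk_trl _), blk_lift,
    vec_trl] at h4
  simp [Matrix.mulVec, dotProduct, Fin.sum_univ_two, hw] at h4

theorem qdFree_of_controls {G : Type u} [Group G] [Finite G]
    (h : ∀ (K R : Subgroup G) [(R.subgroupOf K).Normal], ∀ T : Sylow p (↥K ⧸ R.subgroupOf K),
      ControlsStrongFusion p (inducedFunctor kInfLower (T : Subgroup (↥K ⧸ R.subgroupOf K)))) :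
    ¬ Involves ↥(Cfsg.qd p) G := by
  rintro ⟨K, R, hR, ⟨e⟩⟩
  haveI := hR
  let e' : (↥K ⧸ R.subgroupOf K) ≃* Q0 := e.trans (MulEquiv.subgroupCongr (CfsgLib.Qd.qd_eq p))
  obtain ⟨T⟩ := (inferInstance : Nonempty (Sylow p (↥K ⧸ R.subgroupOf K)))
  obtain ⟨T', hT', hc⟩ := h K R T
  let img : Sylow p (↥K ⧸ R.subgroupOf K) → Sylow p Q0 := fun P => P.mapSurjective (f := e'.toMonoidHom) e'.surjective
  refine not_controls (img T) ?_
  have hmap : inducedFunctor kInfLower ((img T : Sylow p Q0) : Subgroup Q0) =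
      (inducedFunctor kInfLower (T : Subgroup (↥K ⧸ R.subgroupOf K))).map e'.toMonoidHom := by
    show inducedFunctor kInfLower ((T : Subgroup (↥K ⧸ R.subgroupOf K)).map e'.toMonoidHom) = _
    refine Eq.trans ?_ (Subgroup.map_map (kInfLower ↥(T : Subgroup (↥K ⧸ R.subgroupOf K))) e'.toMonoidHom _).symm
    show (kInfLower ↥((T : Subgroup (↥K ⧸ R.subgroupOf K)).map e'.toMonoidHom)).map _ = _
    have h5 := CfsgLib.KInfStable.lower_equiv (e'.subgroupMap (T : Subgroup (↥K ⧸ R.subgroupOf K)))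
    refine (congrArg (Subgroup.map _) h5.symm).trans ?_
    exact Subgroup.map_map (kInfLower ↥(T : Subgroup (↥K ⧸ R.subgroupOf K))) _ _
  rw [hmap]
  refine ⟨img T', Subgroup.map_mono hT', fun A hA => ⟨hA, fun z hz => ?_⟩⟩
  obtain ⟨y, rfl⟩ := e'.surjective z
  have hA' : e' ⁻¹' A ⊆ (T' : Subgroup (↥K ⧸ R.subgroupOf K)) := fun a ha => by
    obtain ⟨b, hb, hbe⟩ := hA ha
    exact e'.injective hbe ▸ hb
  obtain ⟨x, hx, hxa⟩ := (hc _ hA').2 y (by
    rintro _ ⟨a, ha, rfl⟩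
    obtain ⟨b, hb, hbe⟩ := hz ⟨e' a, ha, rfl⟩
    have : y * a * y⁻¹ = b := e'.injective (by simp [map_mul, hbe.symm])
    show y * a * y⁻¹ ∈ _
    rw [this]; exact hb)
  refine ⟨e' x, Subgroup.le_normalizer_map _ ⟨x, hx, rfl⟩, fun a ha => ?_⟩
  obtain ⟨b, rfl⟩ := e'.surjective a
  rw [← map_inv, ← map_inv, ← map_mul, ← map_mul, ← map_mul, ← map_mul, hxa b ha]

end CfsgLib.KInfQd
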