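import Cfsg.Prelude.Def_LocalEven
import Cfsg.Agent.Lib.Linear.GL2Unipotent
import Cfsg.Agent.Lib.Dickson.Mat

/-! A natural SL₂-module in coordinates adapted to a Sylow p-subgroup (owner helper5). -/

set_option autoImplicit false
set_option linter.unusedSectionVars false
open scoped Matrix

namespace CfsgLib.NaturalSL2Sylow

open CfsgLib.Linear.GL2Unipotent

variable {G : Type*} [Group G] [Finite G] {p : ℕ} [hp : Fact p.Prime] {F : Type*} [Field F] [Fintype F]

theorem charP_of_card {n : ℕ} (hF : Fintype.card F = p ^ n) : CharP F p := by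
  obtain ⟨q, hq⟩ := CharP.exists F
  haveI := hq
  haveI : Fact q.Prime := ⟨CharP.char_is_prime F q⟩
  obtain ⟨m, hm, h⟩ := CfsgLib.Linear.SylowP.card_eq_pow (F := F) q
  have h1 : q ∣ p ^ n := hF ▸ h ▸ dvd_pow_self q hm.ne'
  rwa [← (Nat.prime_dvd_prime_iff_eq Fact.out hp.out).mp (Nat.Prime.dvd_of_dvd_pow Fact.out h1)]

/-- Coordinates `φ` on `V` in which the Sylow subgroup is lower unitriangular. -/
structure Coord (F : Type*) [Field F] (V L T : Subgroup G) where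
  e : ↥L ≃* Matrix.SpecialLinearGroup (Fin 2) F
  φ : (Fin 2 → F) → G
  inj : Function.Injective φ
  add : ∀ x y, φ (x + y) = φ x * φ y
  range : Set.range φ = (V : Set G)
  act : ∀ (l : ↥L) (x : Fin 2 → F), (l : G) * φ x * (l : G)⁻¹ = φ ((e l : Matrix (Fin 2) (Fin 2) F) *ᵥ x)
  le : T ≤ L
  mem : ∀ l : ↥L, (l : G) ∈ T ↔ e l ∈ (CfsgLib.Linear.GL2Unipotent.V : Subgroup (Matrix.SpecialLinearGroup (Fin 2) F))

theorem exists_coord {n : ℕ} (hF : Fintype.card F = p ^ n) {V L : Subgroup G}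
    (hnat : Cfsg.IsNaturalSL2Module F V L) (hf : L ⊓ Subgroup.centralizer (V : Set G) = ⊥) (P : Sylow p ↥L)
    {T : Subgroup G} (hT : T = (P : Subgroup ↥L).map L.subtype) : Nonempty (Coord F V L T) := by
  haveI := charP_of_card hF
  obtain ⟨-, ρ, ψ, hsurj, hker, hact⟩ := hnat
  have hinj : Function.Injective ρ := by
    rw [← MonoidHom.ker_eq_bot_iff, hker, Subgroup.eq_bot_iff_forall]
    intro x hx
    exact Subtype.ext (Subgroup.mem_bot.mp (hf ▸ Subgroup.mem_inf.mpr ⟨x.2, Subgroup.mem_subgroupOf.mp hx⟩))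
  set e₀ := MulEquiv.ofBijective ρ ⟨hinj, hsurj⟩ with he₀
  have hs₀ : Function.Surjective e₀.toMonoidHom := e₀.surjective
  obtain ⟨g, hg⟩ := exists_conj_V p (P.mapSurjective hs₀)
  replace hg : (P : Subgroup ↥L).map e₀.toMonoidHom = _ := hg
  refine ⟨{ e := e₀.trans (MulAut.conj g⁻¹)
            φ := fun x => ((Additive.toMul (ψ.symm ((g : Matrix (Fin 2) (Fin 2) F) *ᵥ x)) : ↥V) : G)
            inj := ?_, add := ?_, range := ?_, act := ?_, le := hT ▸ Subgroup.map_subtype_le _, mem := ?_ }⟩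
  · intro x y h
    have h1 := ψ.symm.injective (Additive.toMul.injective (Subtype.ext h))
    have h2 := congrArg (fun z => ((g⁻¹ : Matrix.SpecialLinearGroup (Fin 2) F) : Matrix (Fin 2) (Fin 2) F) *ᵥ z) h1
    simp only [Matrix.mulVec_mulVec, ← Matrix.SpecialLinearGroup.coe_mul, inv_mul_cancel,
      Matrix.SpecialLinearGroup.coe_one, Matrix.one_mulVec] at h2
    exact h2
  · intro x y
    show _ = ((_ : ↥V) : G) * ((_ : ↥V) : G)
    rw [Matrix.mulVec_add, map_add, toMul_add, Subgroup.coe_mul]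
  · ext v
    constructor
    · rintro ⟨x, rfl⟩; exact SetLike.coe_mem _
    · intro hv
      refine ⟨((g⁻¹ : Matrix.SpecialLinearGroup (Fin 2) F) : Matrix (Fin 2) (Fin 2) F) *ᵥ ψ (Additive.ofMul ⟨v, hv⟩), ?_⟩
      simp only [Matrix.mulVec_mulVec, ← Matrix.SpecialLinearGroup.coe_mul, mul_inv_cancel,
        Matrix.SpecialLinearGroup.coe_one, Matrix.one_mulVec, AddEquiv.symm_apply_apply]
      rfl
  · intro l x
    obtain ⟨w, hw, hw2⟩ := hact l (Additive.toMul (ψ.symm ((g : Matrix (Fin 2) (Fin 2) F) *ᵥ x)))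
    rw [← hw]
    have e1 : (g : Matrix (Fin 2) (Fin 2) F) *ᵥ (((e₀.trans (MulAut.conj g⁻¹)) l : Matrix.SpecialLinearGroup (Fin 2) F) : Matrix (Fin 2) (Fin 2) F) *ᵥ x =
        (ρ l : Matrix (Fin 2) (Fin 2) F) *ᵥ (g : Matrix (Fin 2) (Fin 2) F) *ᵥ x := by
      rw [Matrix.mulVec_mulVec, Matrix.mulVec_mulVec, ← Matrix.SpecialLinearGroup.coe_mul, ← Matrix.SpecialLinearGroup.coe_mul]
      congr 2
      simp [he₀, mul_assoc]
      rfl
    rw [e1]
    simp only [ofMul_toMul, AddEquiv.apply_symm_apply] at hw2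
    rw [← hw2, AddEquiv.symm_apply_apply]
    rfl
  · intro l
    have h1 : (l : G) ∈ T ↔ l ∈ (P : Subgroup ↥L) := by
      rw [hT]; exact Subgroup.mem_map_iff_mem L.subtype_injective
    rw [h1, ← Subgroup.mem_map_iff_mem (f := e₀.toMonoidHom) e₀.injective, hg]
    show e₀ l ∈ Subgroup.map (MulAut.conj g).toMonoidHom _ ↔ _
    rw [Subgroup.mem_map_equiv]
    simp [mul_assoc]

variable {V L T : Subgroup G}

namespace Coord

variable (c : Coord F V L T)

theorem φ_mem (x : Fin 2 → F) : c.φ x ∈ V := by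
  rw [← SetLike.mem_coe, ← c.range]; exact ⟨x, rfl⟩

theorem exists_eq {v : G} (hv : v ∈ V) : ∃ x, c.φ x = v := by
  rwa [← SetLike.mem_coe, ← c.range] at hv

theorem φ_zero : c.φ 0 = 1 := by
  have := c.add 0 0
  rw [add_zero] at this
  exact left_eq_mul.mp this

theorem φ_neg (x : Fin 2 → F) : c.φ (-x) = (c.φ x)⁻¹ := by
  refine eq_inv_of_mul_eq_one_left ?_
  rw [← c.add, neg_add_cancel, c.φ_zero]

theorem φ_sub (x y : Fin 2 → F) : c.φ (x - y) = c.φ x * (c.φ y)⁻¹ := by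
  rw [sub_eq_add_neg, c.add, c.φ_neg]

/-- The element of `T` with parameter `a`. -/
def t (a : F) : ↥L := c.e.symm (v a)

theorem t_mem (a : F) : (c.t a : G) ∈ T := (c.mem _).mpr ⟨a, by simp [t]⟩

theorem t_ne_one {a : F} (ha : a ≠ 0) : (c.t a : G) ≠ 1 := by
  intro h
  have h1 : c.t a = 1 := Subtype.ext h
  have h2 := congrArg c.e h1
  rw [t, MulEquiv.apply_symm_apply, map_one] at h2
  exact ha (by simpa using congrFun (congrFun (congrArg Subtype.val h2) 1) 0)

theorem exists_t {s : G} (hs : s ∈ T) : ∃ a, (c.t a : G) = s := by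
  obtain ⟨a, ha⟩ := (c.mem ⟨s, c.le hs⟩).mp hs
  exact ⟨a, by rw [t, ha, MulEquiv.symm_apply_apply]⟩

theorem v_mulVec (a : F) (x : Fin 2 → F) :
    (v a : Matrix (Fin 2) (Fin 2) F) *ᵥ x = ![x 0, a * x 0 + x 1] := by
  rw [v_coe]
  funext i
  fin_cases i <;> simp [Matrix.mulVec, dotProduct, Fin.sum_univ_two]

theorem t_conj (a : F) (x : Fin 2 → F) : (c.t a : G) * c.φ x * (c.t a : G)⁻¹ = c.φ ![x 0, a * x 0 + x 1] := by
  rw [c.act, t, MulEquiv.apply_symm_apply, v_mulVec]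

theorem commutator_eq (a : F) (x : Fin 2 → F) :
    c.φ x * (c.t a : G) * (c.φ x)⁻¹ * (c.t a : G)⁻¹ = c.φ ![0, -(a * x 0)] := by
  have h : c.φ x * (c.t a : G) * (c.φ x)⁻¹ * (c.t a : G)⁻¹ =
      c.φ x * ((c.t a : G) * c.φ x * (c.t a : G)⁻¹)⁻¹ := by group
  rw [h, c.t_conj, ← c.φ_sub]
  congr 1
  funext i
  fin_cases i <;> simp

theorem commute_t {a : F} {x : Fin 2 → F} :
    (c.t a : G) * c.φ x = c.φ x * (c.t a : G) ↔ a * x 0 = 0 := by
  rw [← mul_inv_eq_iff_eq_mul, c.t_conj, c.inj.eq_iff]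
  constructor
  · intro h
    simpa using congrFun h 1
  · intro h
    funext i
    fin_cases i <;> simp [h]

theorem mem_fixed {x : Fin 2 → F} : c.φ x ∈ V ⊓ Subgroup.centralizer (T : Set G) ↔ x 0 = 0 := by
  constructor
  · intro h
    simpa using c.commute_t.mp (h.2 _ (c.t_mem 1))
  · intro h
    refine Subgroup.mem_inf.mpr ⟨c.φ_mem x, fun s hs => ?_⟩
    obtain ⟨a, rfl⟩ := c.exists_t hs
    exact c.commute_t.mpr (by rw [h, mul_zero])

include c in
theorem card_V : Nat.card ↥V = Fintype.card F ^ 2 := by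
  have h := Nat.card_range_of_injective c.inj
  rw [c.range] at h
  exact h.trans (by simp [Nat.card_eq_fintype_card])

include c in
theorem card_fixed : Nat.card ↥(V ⊓ Subgroup.centralizer (T : Set G)) = Fintype.card F := by
  rw [← Nat.card_eq_fintype_card]
  refine (Nat.card_congr (Equiv.ofBijective
    (fun y : F => (⟨c.φ ![0, y], c.mem_fixed.mpr rfl⟩ : ↥(V ⊓ Subgroup.centralizer (T : Set G)))) ⟨?_, ?_⟩)).symm
  · intro a b h
    simpa using congrFun (c.inj (congrArg Subtype.val h)) 1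
  · rintro ⟨w, hw⟩
    obtain ⟨x, rfl⟩ := c.exists_eq hw.1
    refine ⟨x 1, Subtype.ext (congrArg c.φ ?_)⟩
    funext i
    fin_cases i <;> simp [c.mem_fixed.mp hw]

theorem mem_normalizer {l : ↥L} (h : (c.e l : Matrix (Fin 2) (Fin 2) F) 0 1 = 0) :
    (l : G) ∈ Subgroup.normalizer (T : Set G) := by
  refine Subgroup.mem_normalizer_fintype fun s hs => ?_
  exact (c.mem (l * ⟨s, c.le hs⟩ * l⁻¹)).mpr (by
    rw [map_mul, map_mul, map_inv]
    exact (Subgroup.mem_normalizer_iff.mp (mem_normalizer_V _ h) _).mp ((c.mem ⟨s, c.le hs⟩).mp hs))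

end Coord

end CfsgLib.NaturalSL2Sylow
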