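import Mathlib
import Cfsg.Agent.Lib.SmallSimple
import Cfsg.Agent.Lib.SmallSimple2
import Cfsg.Agent.Lib.TwoSylow
import Cfsg.Agent.S0111

/-! The structure of a simple group of order 168. -/

set_option autoImplicit false

namespace CfsgLib.Order168

universe u

theorem eq_of_le_sylow {G : Type u} [Group G] [Finite G] {p : ℕ} [Fact p.Prime] {c : ℕ}
    (hc : ∀ P : Sylow p G, Nat.card (P : Subgroup G) = c) (P : Sylow p G) {K : Subgroup G}
    (hK : Nat.card K = c) (hPK : (P : Subgroup G) ≤ K) : (P : Subgroup G) = K :=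
  Subgroup.eq_of_le_of_card_ge hPK (by rw [hK, hc P])

theorem ncard_union_le {G : Type u} [Group G] [Finite G] {p : ℕ} [Fact p.Prime] {c : ℕ}
    (hc : ∀ P : Sylow p G, Nat.card (P : Subgroup G) = c) :
    {g : G | g ≠ 1 ∧ ∃ P : Sylow p G, g ∈ (P : Subgroup G)}.ncard ≤ Nat.card (Sylow p G) * (c - 1) := by
  classical
  haveI := Fintype.ofFinite G
  haveI := Fintype.ofFinite (Sylow p G)
  let S : Sylow p G → Finset G := fun P => ((P : Subgroup G) : Set G).toFinset.erase 1
  have hsub : {g : G | g ≠ 1 ∧ ∃ P : Sylow p G, g ∈ (P : Subgroup G)} ⊆ ↑(Finset.univ.biUnion S) := by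
    rintro g ⟨hg, P, hP⟩
    simp only [S, Finset.coe_biUnion, Finset.coe_univ, Set.mem_iUnion]
    exact ⟨P, Set.mem_univ P, Finset.mem_coe.2 (Finset.mem_erase.2 ⟨hg, Set.mem_toFinset.2 hP⟩)⟩
  refine (Set.ncard_le_ncard hsub).trans ?_
  rw [Set.ncard_coe_finset]
  refine Finset.card_biUnion_le.trans ?_
  rw [Finset.sum_congr rfl (g := fun _ => c - 1) fun P _ => by
    rw [Finset.card_erase_of_mem (by simp), Set.toFinset_card, ← Nat.card_eq_fintype_card]
    exact congrArg (· - 1) (hc P), Finset.sum_const, Finset.card_univ, smul_eq_mul, Nat.card_eq_fintype_card]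

variable {G : Type u} [Group G] [Finite G] [IsSimpleGroup G] (h : Nat.card G = 168)

include h

theorem noncomm : ¬ IsMulCommutative G :=
  CfsgLib.SmallSimple.not_isMulCommutative_of_card (by rw [h]; norm_num)

theorem card_sylow7 [Fact (Nat.Prime 7)] :
    (∀ P : Sylow 7 G, Nat.card (P : Subgroup G) = 7) ∧ Nat.card (Sylow 7 G) = 8 := by
  have key := fun P : Sylow 7 G =>
    CfsgLib.SmallSimple.card_sylow_mem (k := 1) (m := 24) (by rw [h]; norm_num) (by norm_num) P
  refine ⟨fun P => by simpa using (key P).1, ?_⟩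
  obtain ⟨P⟩ := (inferInstance : Nonempty (Sylow 7 G))
  obtain ⟨-, h1, h2⟩ := key P
  have h3 := CfsgLib.SmallSimple.card_sylow_ne_one (noncomm h) (p := 7) (by rw [h]; norm_num)
  generalize Nat.card (Sylow 7 G) = n at h1 h2 h3 ⊢
  have := Nat.le_of_dvd (by norm_num) h1
  interval_cases n <;> simp_all

theorem centralizer_of_order {p N : ℕ} [Fact p.Prime] (hP : ∀ P : Sylow p G, Nat.card (P : Subgroup G) = p)
    (hdvd : p ∣ Nat.card G) (hn : Nat.card (Sylow p G) * N = Nat.card G)
    (hN : ∀ d, p ∣ d → d ∣ N → d = p ∨ d = N) {y : G} (hy : orderOf y = p) :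
    Subgroup.centralizer ({y} : Set G) = Subgroup.zpowers y := by
  have hZ : Nat.card (Subgroup.zpowers y) = p := by rw [Nat.card_zpowers, hy]
  obtain ⟨P, hle⟩ := (IsPGroup.of_card (n := 1) (by rw [hZ, pow_one]) :
    IsPGroup p (Subgroup.zpowers y)).exists_le_sylow
  have hPe : Subgroup.zpowers y = (P : Subgroup G) :=
    Subgroup.eq_of_le_of_card_ge hle (by rw [hP P, hZ])
  have hC : Subgroup.centralizer ({y} : Set G) = Subgroup.centralizer ((P : Subgroup G) : Set G) := by
    rw [← hPe, Subgroup.zpowers_eq_closure, Subgroup.centralizer_closure]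
  set C := Subgroup.centralizer ((P : Subgroup G) : Set G)
  set M := Subgroup.normalizer ((P : Subgroup G) : Set G)
  have hPC : (P : Subgroup G) ≤ C := by
    rw [← hC, ← hPe, Subgroup.zpowers_le, Subgroup.mem_centralizer_singleton_iff]
  have hCM : C ≤ M := Subgroup.centralizer_le_normalizer _
  have hM : Nat.card M = N := by
    have h1 := Subgroup.index_mul_card M
    rw [show M.index = Nat.card (Sylow p G) from (Sylow.card_eq_index_normalizer P).symm, ← hn] at h1
    exact Nat.eq_of_mul_eq_mul_left Nat.card_pos h1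
  rcases hN (Nat.card C) (hP P ▸ Subgroup.card_dvd_of_le hPC) (hM ▸ Subgroup.card_dvd_of_le hCM) with e | e
  · rw [hC, hPe]
    exact (Subgroup.eq_of_le_of_card_ge hPC (by rw [e, hP P])).symm
  · exact absurd (le_of_eq (Subgroup.eq_of_le_of_card_ge hCM (by rw [e, hM])).symm)
      (CfsgLib.SmallSimple.not_normalizer_le_centralizer (noncomm h) hdvd P)

theorem centralizer7 {y : G} (hy : orderOf y = 7) :
    Subgroup.centralizer ({y} : Set G) = Subgroup.zpowers y := by
  haveI : Fact (Nat.Prime 7) := ⟨by norm_num⟩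
  refine centralizer_of_order h (N := 21) (card_sylow7 h).1 (by rw [h]; norm_num)
    (by rw [(card_sylow7 h).2, h]) (fun d hd hd' => ?_) hy
  have := Nat.le_of_dvd (by norm_num) hd'
  interval_cases d <;> simp_all

theorem card_sylow3 [Fact (Nat.Prime 3)] :
    (∀ P : Sylow 3 G, Nat.card (P : Subgroup G) = 3) ∧ Nat.card (Sylow 3 G) = 28 := by
  haveI : Fact (Nat.Prime 7) := ⟨by norm_num⟩
  have key := fun P : Sylow 3 G =>
    CfsgLib.SmallSimple.card_sylow_mem (k := 1) (m := 56) (by rw [h]; norm_num) (by norm_num) P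
  have hP : ∀ P : Sylow 3 G, Nat.card (P : Subgroup G) = 3 := fun P => by simpa using (key P).1
  refine ⟨hP, ?_⟩
  obtain ⟨P⟩ := (inferInstance : Nonempty (Sylow 3 G))
  obtain ⟨-, h1, h2⟩ := key P
  have h3 := CfsgLib.SmallSimple.card_sylow_ne_one (noncomm h) (p := 3) (by rw [h]; norm_num)
  have h4 : Nat.card (Sylow 3 G) ≠ 4 := fun e => by
    have := CfsgLib.SmallSimple.card_dvd_factorial _
      (CfsgLib.SmallSimple.normalizer_ne_top (noncomm h) (p := 3) (by rw [h]; norm_num) P)
    rw [show (Subgroup.normalizer ((P : Subgroup G) : Set G)).index = 4 from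
      (Sylow.card_eq_index_normalizer P).symm.trans e, h] at this
    norm_num [Nat.factorial] at this
  have h7 : Nat.card (Sylow 3 G) ≠ 7 := by
    intro e
    obtain ⟨Q⟩ := (inferInstance : Nonempty (Sylow 7 G))
    set N := Subgroup.normalizer ((Q : Subgroup G) : Set G) with hN
    have hNc : Nat.card N = 21 := by
      have h1 := Subgroup.index_mul_card N
      rw [show N.index = Nat.card (Sylow 7 G) from (Sylow.card_eq_index_normalizer Q).symm,
        (card_sylow7 h).2, h] at h1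
      omega
    have hRc : ∀ R : Sylow 3 N, Nat.card (R : Subgroup N) = 3 := fun R => by
      rw [R.card_eq_multiplicity, hNc, show (21 : ℕ) = 3 * 7 by norm_num,
        Nat.factorization_mul (by norm_num) (by norm_num), Nat.prime_three.factorization]
      simp [Nat.factorization_eq_zero_of_not_dvd (show ¬ 3 ∣ 7 by norm_num)]
    have hcard3 : ∀ {R : Sylow 3 N}, Nat.card ((R : Subgroup N).map N.subtype) = 3 := fun {R} => by
      rw [Subgroup.card_map_of_injective N.subtype_injective, hRc]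
    obtain ⟨R⟩ := (inferInstance : Nonempty (Sylow 3 N))
    have hn7 : Nat.card (Sylow 3 N) = 7 := by
      have hd := Sylow.card_dvd_index R
      have h5 := Subgroup.index_mul_card (R : Subgroup N)
      rw [hRc R, hNc] at h5
      rw [show (R : Subgroup N).index = 7 by omega, Nat.dvd_prime (by norm_num)] at hd
      refine hd.resolve_left fun h1 => ?_
      haveI hRn : (R : Subgroup N).Normal := by
        rw [← Subgroup.normalizer_eq_top_iff, ← Subgroup.index_eq_one]
        exact (Sylow.card_eq_index_normalizer R).symm.trans h1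
      haveI hQn : ((Q : Subgroup G).subgroupOf N).Normal := Subgroup.normal_in_normalizer
      obtain ⟨⟨r, hrN⟩, hr, hr1⟩ : ∃ r ∈ (R : Subgroup N), r ≠ 1 := by
        by_contra hcon
        push Not at hcon
        have := hRc R
        rw [(Subgroup.eq_bot_iff_forall _).2 hcon, Subgroup.card_bot] at this
        norm_num at this
      obtain ⟨⟨y, hyQ⟩, hyo⟩ := exists_prime_orderOf_dvd_card' 7
        (by rw [(card_sylow7 h).1 Q] : 7 ∣ Nat.card (Q : Subgroup G))
      rw [Subgroup.orderOf_mk] at hyo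
      have hd' : Disjoint (R : Subgroup N) ((Q : Subgroup G).subgroupOf N) := by
        rw [disjoint_iff]
        refine Subgroup.inf_eq_bot_of_coprime ?_
        rw [hRc R, Nat.card_congr (Subgroup.subgroupOfEquivOfLe Subgroup.le_normalizer).toEquiv,
          (card_sylow7 h).1 Q]
        norm_num
      have hc := Subgroup.commute_of_normal_of_disjoint _ _ hRn hQn hd' ⟨r, hrN⟩
        ⟨y, Subgroup.le_normalizer hyQ⟩ hr hyQ
      have hrc : r ∈ Subgroup.zpowers y := centralizer7 h hyo ▸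
        Subgroup.mem_centralizer_singleton_iff.2 (congrArg Subtype.val hc.eq)
      refine hr1 (orderOf_eq_one_iff.1 (Nat.eq_one_of_dvd_coprimes (by norm_num : Nat.Coprime 3 7) ?_ ?_))
      · exact hRc R ▸ Subgroup.orderOf_dvd_natCard _ hr
      · rw [Subgroup.orderOf_mk, ← hyo]
        exact orderOf_dvd_of_mem_zpowers hrc
    let F : Sylow 3 N → Sylow 3 G := fun R =>
      Classical.choose ((R.2.map N.subtype).exists_le_sylow)
    have hF : ∀ R : Sylow 3 N, ((F R : Sylow 3 G) : Subgroup G) = (R : Subgroup N).map N.subtype := fun R =>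
      (Subgroup.eq_of_le_of_card_ge (Classical.choose_spec ((R.2.map N.subtype).exists_le_sylow))
        (by rw [hcard3, hP])).symm
    have hFi : Function.Injective F := fun R R' he => Sylow.ext (Subgroup.map_injective N.subtype_injective
      (by rw [← hF R, ← hF R', he]))
    have hFs : Function.Surjective F :=
      ((Nat.bijective_iff_injective_and_card F).2 ⟨hFi, by rw [hn7, e]⟩).2
    obtain ⟨⟨x, hxP⟩, hxo⟩ := exists_prime_orderOf_dvd_card' 3 (by rw [hP P] : 3 ∣ Nat.card (P : Subgroup G))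
    rw [Subgroup.orderOf_mk] at hxo
    have hall : ∀ g : G, g * x * g⁻¹ ∈ N := by
      intro g
      obtain ⟨P', hP'⟩ := (IsPGroup.of_card (n := 1) (by
        rw [Nat.card_zpowers, ← hxo, pow_one]; exact (MulAut.conj g).orderOf_eq x) :
          IsPGroup 3 (Subgroup.zpowers (g * x * g⁻¹))).exists_le_sylow
      obtain ⟨R', hR'⟩ := hFs P'
      have hm : g * x * g⁻¹ ∈ (P' : Subgroup G) := hP' (Subgroup.mem_zpowers _)
      rw [← hR', hF] at hm
      exact Subgroup.map_subtype_le _ hm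
    have hle : Subgroup.normalClosure ({x} : Set G) ≤ N := Subgroup.closure_le _ |>.2 fun y hy => by
      obtain ⟨a, rfl, ha⟩ := Group.mem_conjugatesOfSet_iff.1 hy
      obtain ⟨g, rfl⟩ := isConj_iff.1 ha
      exact hall g
    rcases (inferInstance : (Subgroup.normalClosure ({x} : Set G)).Normal).eq_bot_or_eq_top with hb | hb
    · have hxb : x ∈ (⊥ : Subgroup G) := hb ▸ Subgroup.subset_normalClosure (Set.mem_singleton x)
      rw [Subgroup.mem_bot.1 hxb, orderOf_one] at hxo
      norm_num at hxo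
    · rw [hb, top_le_iff] at hle
      exact CfsgLib.SmallSimple.normalizer_ne_top (noncomm h) (p := 7) (by rw [h]; norm_num) Q hle
  generalize Nat.card (Sylow 3 G) = n at h1 h2 h3 h4 h7 ⊢
  have := Nat.le_of_dvd (by norm_num) h1
  interval_cases n <;> simp_all

theorem centralizer3 {y : G} (hy : orderOf y = 3) :
    Subgroup.centralizer ({y} : Set G) = Subgroup.zpowers y := by
  haveI : Fact (Nat.Prime 3) := ⟨Nat.prime_three⟩
  refine centralizer_of_order h (N := 6) (card_sylow3 h).1 (by rw [h]; norm_num)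
    (by rw [(card_sylow3 h).2, h]) (fun d hd hd' => ?_) hy
  have := Nat.le_of_dvd (by norm_num) hd'
  interval_cases d <;> simp_all

theorem order_dvd (g : G) : orderOf g = 3 ∨ orderOf g = 7 ∨ orderOf g ∣ 8 := by
  have key : ∀ p, (∀ y : G, orderOf y = p → Subgroup.centralizer ({y} : Set G) = Subgroup.zpowers y) →
      p.Prime → p ∣ orderOf g → orderOf g = p := by
    intro p hc hp hdvd
    obtain ⟨m, hm⟩ := hdvd
    have hm0 : 0 < m := Nat.pos_of_ne_zero fun e => (orderOf_pos g).ne' (by rw [hm, e, mul_zero])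
    have hy : orderOf (g ^ m) = p := by
      rw [orderOf_pow_of_dvd hm0.ne' ⟨p, by rw [hm, mul_comm]⟩, hm, Nat.mul_div_cancel _ hm0]
    have hg : g ∈ Subgroup.zpowers (g ^ m) :=
      hc _ hy ▸ Subgroup.mem_centralizer_singleton_iff.2 (Commute.self_pow g m).eq
    exact Nat.dvd_antisymm (hy ▸ orderOf_dvd_of_mem_zpowers hg) ⟨m, hm⟩
  by_cases h3 : 3 ∣ orderOf g
  · exact Or.inl (key 3 (fun y hy => centralizer3 h hy) Nat.prime_three h3)
  by_cases h7 : 7 ∣ orderOf g
  · exact Or.inr (Or.inl (key 7 (fun y hy => centralizer7 h hy) (by norm_num) h7))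
  refine Or.inr (Or.inr (Nat.Coprime.dvd_of_dvd_mul_right (Nat.Coprime.mul_right
    ((Nat.prime_three.coprime_iff_not_dvd.2 h3).symm) (((by norm_num : Nat.Prime 7).coprime_iff_not_dvd.2 h7).symm))
    (show orderOf g ∣ 8 * (3 * 7) from (orderOf_dvd_natCard g).trans (by rw [h]))))

theorem exists_sylow_of_ne_one [Fact (Nat.Prime 2)] [Fact (Nat.Prime 3)] [Fact (Nat.Prime 7)] (g : G) :
    (∃ P : Sylow 2 G, g ∈ (P : Subgroup G)) ∨ (∃ P : Sylow 3 G, g ∈ (P : Subgroup G)) ∨
      ∃ P : Sylow 7 G, g ∈ (P : Subgroup G) := by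
  have key : ∀ (p : ℕ) [Fact p.Prime] (i : ℕ), orderOf g = p ^ i → ∃ P : Sylow p G, g ∈ (P : Subgroup G) := by
    intro p _ i hi
    obtain ⟨P, hP⟩ := (IsPGroup.of_card (n := i) (by rw [Nat.card_zpowers, hi]) :
      IsPGroup p (Subgroup.zpowers g)).exists_le_sylow
    exact ⟨P, hP (Subgroup.mem_zpowers g)⟩
  rcases order_dvd h g with e | e | e
  · exact Or.inr (Or.inl (key 3 1 (by rw [e, pow_one])))
  · exact Or.inr (Or.inr (key 7 1 (by rw [e, pow_one])))
  · obtain ⟨i, -, hi⟩ := (Nat.dvd_prime_pow Nat.prime_two).1 (show orderOf g ∣ 2 ^ 3 from e)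
    exact Or.inl (key 2 i hi)

theorem count_le [Fact (Nat.Prime 2)] [Fact (Nat.Prime 3)] [Fact (Nat.Prime 7)] :
    167 ≤ {g : G | g ≠ 1 ∧ ∃ P : Sylow 2 G, g ∈ (P : Subgroup G)}.ncard + 56 + 48 := by
  set A := {g : G | g ≠ 1 ∧ ∃ P : Sylow 2 G, g ∈ (P : Subgroup G)}
  set B := {g : G | g ≠ 1 ∧ ∃ P : Sylow 3 G, g ∈ (P : Subgroup G)}
  set C := {g : G | g ≠ 1 ∧ ∃ P : Sylow 7 G, g ∈ (P : Subgroup G)}
  have hsub : ({1}ᶜ : Set G) ⊆ A ∪ B ∪ C := fun g hg => by
    rcases exists_sylow_of_ne_one h g with e | e | e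
    · exact Or.inl (Or.inl ⟨hg, e⟩)
    · exact Or.inl (Or.inr ⟨hg, e⟩)
    · exact Or.inr ⟨hg, e⟩
  have h1 := Set.ncard_le_ncard hsub
  rw [Set.ncard_compl, Set.ncard_singleton, h] at h1
  have h2 := Set.ncard_union_le (A ∪ B) C
  have h3 := Set.ncard_union_le A B
  have hB : B.ncard ≤ 28 * (3 - 1) := (card_sylow3 h).2 ▸ ncard_union_le (card_sylow3 h).1
  have hC : C.ncard ≤ 8 * (7 - 1) := (card_sylow7 h).2 ▸ ncard_union_le (card_sylow7 h).1
  omega

theorem card_sylow2 [Fact (Nat.Prime 2)] :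
    (∀ P : Sylow 2 G, Nat.card (P : Subgroup G) = 8) ∧ Nat.card (Sylow 2 G) = 21 := by
  haveI : Fact (Nat.Prime 3) := ⟨Nat.prime_three⟩
  haveI : Fact (Nat.Prime 7) := ⟨by norm_num⟩
  have key := fun P : Sylow 2 G =>
    CfsgLib.SmallSimple.card_sylow_mem (k := 3) (m := 21) (by rw [h]; norm_num) (by norm_num) P
  have hP : ∀ P : Sylow 2 G, Nat.card (P : Subgroup G) = 8 := fun P => by simpa using (key P).1
  refine ⟨hP, ?_⟩
  obtain ⟨P⟩ := (inferInstance : Nonempty (Sylow 2 G))
  obtain ⟨-, h1, h2⟩ := key P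
  have h3 := CfsgLib.SmallSimple.card_sylow_ne_one (noncomm h) (p := 2) (by rw [h]; norm_num)
  have hcount := count_le h
  have hle := ncard_union_le hP
  have h4 : 7 < Nat.card (Sylow 2 G) := by
    by_contra hlt
    have : Nat.card (Sylow 2 G) * (8 - 1) ≤ 49 := by omega
    omega
  generalize Nat.card (Sylow 2 G) = n at h1 h2 h3 h4 ⊢
  have := Nat.le_of_dvd (by norm_num) h1
  interval_cases n <;> simp_all

theorem normalizer_sylow2 [Fact (Nat.Prime 2)] (T : Sylow 2 G) :
    Subgroup.normalizer ((T : Subgroup G) : Set G) = (T : Subgroup G) := by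
  refine (Subgroup.eq_of_le_of_card_ge Subgroup.le_normalizer ?_).symm
  have h1 := Subgroup.index_mul_card (Subgroup.normalizer ((T : Subgroup G) : Set G))
  rw [show (Subgroup.normalizer ((T : Subgroup G) : Set G)).index = Nat.card (Sylow 2 G) from
    (Sylow.card_eq_index_normalizer T).symm, (card_sylow2 h).2, h] at h1
  rw [(card_sylow2 h).1 T]
  omega

theorem sylow2_noncomm [Fact (Nat.Prime 2)] (T : Sylow 2 G) : ¬ IsMulCommutative (T : Subgroup G) := fun hc =>
  CfsgLib.SmallSimple.not_normalizer_le_centralizer (noncomm h) (p := 2) (by rw [h]; norm_num) T (by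
    rw [normalizer_sylow2 h T]
    intro x hx
    exact Subgroup.mem_centralizer_iff.2 fun y hy => congrArg Subtype.val (hc.is_comm.comm ⟨y, hy⟩ ⟨x, hx⟩))

theorem centralizer_central_involution [Fact (Nat.Prime 2)] (T : Sylow 2 G) {z : G} (hz : z ∈ (T : Subgroup G))
    (hz1 : z ≠ 1) (hzc : ∀ t ∈ (T : Subgroup G), t * z = z * t) :
    Subgroup.centralizer ({z} : Set G) = (T : Subgroup G) := by
  refine T.3 ?_ fun t ht => Subgroup.mem_centralizer_singleton_iff.2 (hzc t ht)
  intro c
  obtain ⟨i, hi⟩ := IsPGroup.iff_orderOf.1 T.2 ⟨z, hz⟩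
  rw [Subgroup.orderOf_mk] at hi
  have h8 : orderOf (c : G) ∣ 8 := by
    rcases order_dvd h (c : G) with e | e | e
    · exfalso
      have hm : z ∈ Subgroup.zpowers (c : G) := centralizer3 h e ▸ Subgroup.mem_centralizer_singleton_iff.2
        (Subgroup.mem_centralizer_singleton_iff.1 c.2).symm
      exact hz1 (orderOf_eq_one_iff.1 (Nat.eq_one_of_dvd_coprimes
        (Nat.Coprime.pow_left i (by norm_num : Nat.Coprime 2 3)) (dvd_of_eq hi)
        ((orderOf_dvd_of_mem_zpowers hm).trans (dvd_of_eq e))))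
    · exfalso
      have hm : z ∈ Subgroup.zpowers (c : G) := centralizer7 h e ▸ Subgroup.mem_centralizer_singleton_iff.2
        (Subgroup.mem_centralizer_singleton_iff.1 c.2).symm
      exact hz1 (orderOf_eq_one_iff.1 (Nat.eq_one_of_dvd_coprimes
        (Nat.Coprime.pow_left i (by norm_num : Nat.Coprime 2 7)) (dvd_of_eq hi)
        ((orderOf_dvd_of_mem_zpowers hm).trans (dvd_of_eq e))))
    · exact e
  exact ⟨3, Subtype.ext (by
    rw [Subgroup.coe_pow, Subgroup.coe_one, ← orderOf_dvd_iff_pow_eq_one]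
    exact h8)⟩

/-- The structure of a Sylow 2-subgroup. -/
theorem sylow2_structure [Fact (Nat.Prime 2)] (T : Sylow 2 G) :
    ∃ a x : (T : Subgroup G), orderOf a = 4 ∧ x * x = 1 ∧ x ∉ Subgroup.zpowers a ∧ x * a * x⁻¹ = a⁻¹ := by
  classical
  haveI : Fact (Nat.Prime 3) := ⟨Nat.prime_three⟩
  haveI : Fact (Nat.Prime 7) := ⟨by norm_num⟩
  have hP := (card_sylow2 h).1
  have hord : ∀ (T : Sylow 2 G) (t : (T : Subgroup G)), orderOf t ∣ 4 := by
    intro T t
    obtain ⟨i, hi, hio⟩ := (Nat.dvd_prime_pow Nat.prime_two).1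
      (show orderOf t ∣ 2 ^ 3 from (show (2 : ℕ) ^ 3 = 8 from rfl).symm ▸ hP T ▸ orderOf_dvd_natCard t)
    rw [hio]
    rcases Nat.lt_or_ge i 3 with hlt | hge
    · exact show 2 ^ i ∣ 2 ^ 2 from pow_dvd_pow 2 (by omega)
    · exfalso
      haveI : IsCyclic (T : Subgroup G) := isCyclic_of_orderOf_eq_card t (by
        rw [hio, hP T, show i = 3 by omega]; rfl)
      exact CfsgLib.SmallSimple.sylow_two_not_cyclic (noncomm h) (by rw [h]; decide) T inferInstance
  -- an element of order 4
  obtain ⟨a, ha⟩ : ∃ a : (T : Subgroup G), orderOf a = 4 := by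
    by_contra hcon
    push Not at hcon
    refine sylow2_noncomm h T ⟨⟨mul_comm_of_exponent_two ?_⟩⟩
    have hd : Monoid.exponent (T : Subgroup G) ∣ 2 := Monoid.exponent_dvd_of_forall_pow_eq_one fun t => by
      obtain ⟨i, hi, hio⟩ := (Nat.dvd_prime_pow Nat.prime_two).1 (show orderOf t ∣ 2 ^ 2 from hord T t)
      rw [← orderOf_dvd_iff_pow_eq_one, hio]
      interval_cases i
      · norm_num
      · norm_num
      · exact absurd (by rw [hio]; norm_num) (hcon t)
    rcases (Nat.dvd_prime Nat.prime_two).1 hd with e | e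
    · haveI := Monoid.exp_eq_one_iff.1 e
      exact absurd ⟨⟨fun u v => Subsingleton.elim _ _⟩⟩ (sylow2_noncomm h T)
    · exact e
  have hidx : (Subgroup.zpowers a).index = 2 := by
    have h1 := Subgroup.index_mul_card (Subgroup.zpowers a)
    rw [Nat.card_zpowers, ha, hP T] at h1
    omega
  have hconj : ∀ x : (T : Subgroup G), x * a * x⁻¹ = a ∨ x * a * x⁻¹ = a⁻¹ := by
    intro x
    haveI := Subgroup.normal_of_index_eq_two hidx
    have hm := (inferInstance : (Subgroup.zpowers a).Normal).conj_mem a (Subgroup.mem_zpowers a) x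
    obtain ⟨i, hi⟩ := (isOfFinOrder_of_finite a).mem_powers_iff_mem_zpowers.mpr hm
    have hio : orderOf (a ^ i) = 4 := by
      rw [show a ^ i = x * a * x⁻¹ from hi, ← ha]
      exact (MulAut.conj x).orderOf_eq a
    rw [← hi]
    show a ^ i = a ∨ a ^ i = a⁻¹
    rw [← pow_mod_orderOf, ha]
    have hmo : orderOf (a ^ (i % 4)) = 4 := by rw [← ha, pow_mod_orderOf, ha]; exact hio
    have : i % 4 < 4 := Nat.mod_lt _ (by norm_num)
    interval_cases hk : i % 4
    · rw [pow_zero, orderOf_one] at hmo; norm_num at hmo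
    · left; exact pow_one a
    · rw [orderOf_pow, ha] at hmo; norm_num at hmo
    · right
      rw [eq_inv_iff_mul_eq_one, ← pow_succ]
      have h4 := pow_orderOf_eq_one a
      rwa [ha] at h4
  have hxa : ∀ x : (T : Subgroup G), x ∉ Subgroup.zpowers a → x * a * x⁻¹ = a⁻¹ := by
    intro x hx
    refine (hconj x).resolve_left fun he => sylow2_noncomm h T ?_
    have hcl : Subgroup.zpowers a ⊔ Subgroup.zpowers x = ⊤ := by
      rcases (Nat.dvd_prime Nat.prime_two).1 (hidx ▸ Subgroup.index_dvd_of_le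
        (le_sup_left : Subgroup.zpowers a ≤ Subgroup.zpowers a ⊔ Subgroup.zpowers x)) with e | e
      · exact Subgroup.index_eq_one.1 e
      · exfalso
        have h1 := Subgroup.relIndex_mul_index (le_sup_left : Subgroup.zpowers a ≤ Subgroup.zpowers a ⊔ Subgroup.zpowers x)
        rw [e, hidx] at h1
        have h2 : (Subgroup.zpowers a).relIndex (Subgroup.zpowers a ⊔ Subgroup.zpowers x) = 1 := by omega
        exact hx (Subgroup.relIndex_eq_one.1 h2 (Subgroup.mem_sup_right (Subgroup.mem_zpowers x)))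
    have hax : Commute a x := (mul_inv_eq_iff_eq_mul.1 he).symm
    have hle : (⊤ : Subgroup (T : Subgroup G)) ≤ Subgroup.centralizer ({a} : Set (T : Subgroup G)) ⊓
        Subgroup.centralizer ({x} : Set (T : Subgroup G)) := hcl ▸ sup_le
      (Subgroup.zpowers_le.2 ⟨Subgroup.mem_centralizer_singleton_iff.2 rfl,
        Subgroup.mem_centralizer_singleton_iff.2 hax.eq⟩)
      (Subgroup.zpowers_le.2 ⟨Subgroup.mem_centralizer_singleton_iff.2 hax.eq.symm,
        Subgroup.mem_centralizer_singleton_iff.2 rfl⟩)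
    refine ⟨⟨fun u v => ?_⟩⟩
    have hu : Subgroup.zpowers a ⊔ Subgroup.zpowers x ≤ Subgroup.centralizer ({u} : Set (T : Subgroup G)) :=
      sup_le (Subgroup.zpowers_le.2 (Subgroup.mem_centralizer_singleton_iff.2
          (Subgroup.mem_centralizer_singleton_iff.1 (hle (Subgroup.mem_top u)).1).symm))
        (Subgroup.zpowers_le.2 (Subgroup.mem_centralizer_singleton_iff.2
          (Subgroup.mem_centralizer_singleton_iff.1 (hle (Subgroup.mem_top u)).2).symm))
    exact (Subgroup.mem_centralizer_singleton_iff.1 (hu (hcl ▸ Subgroup.mem_top v))).symm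
  -- some element outside `⟨a⟩` is an involution: otherwise every Sylow 2-subgroup has a unique involution
  suffices hx : ∃ x : (T : Subgroup G), x * x = 1 ∧ x ∉ Subgroup.zpowers a by
    obtain ⟨x, hx2, hxn⟩ := hx
    exact ⟨a, x, ha, hx2, hxn, hxa x hxn⟩
  by_contra hcon
  push Not at hcon
  have huniq : ∀ (S : Sylow 2 G) (u v : (S : Subgroup G)), orderOf u = 2 → orderOf v = 2 → u = v := by
    intro S u v hu hv
    obtain ⟨g, hg⟩ := MulAction.exists_smul_eq G S T
    let e : (S : Subgroup G) ≃* (T : Subgroup G) := (S.equivSMul g).trans (MulEquiv.subgroupCongr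
      (congrArg (fun P : Sylow 2 G => (P : Subgroup G)) hg))
    apply e.injective
    have hmem : ∀ w : (T : Subgroup G), orderOf w = 2 → w ∈ Subgroup.zpowers a := fun w hw =>
      hcon w (by have := pow_orderOf_eq_one w; rw [hw] at this; rwa [← pow_two])
    haveI : IsCyclic (Subgroup.zpowers a) := Subgroup.isCyclic_zpowers a
    have := CfsgLib.TwoSylow.involution_unique (C := Subgroup.zpowers a)
      (a := ⟨e u, hmem _ (by rw [MulEquiv.orderOf_eq, hu])⟩) (b := ⟨e v, hmem _ (by rw [MulEquiv.orderOf_eq, hv])⟩)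
      (by rw [Subgroup.orderOf_mk, MulEquiv.orderOf_eq, hu]) (by rw [Subgroup.orderOf_mk, MulEquiv.orderOf_eq, hv])
    exact congrArg Subtype.val this
  have hdis : ∀ P Q : Sylow 2 G, P ≠ Q → (P : Subgroup G) ⊓ (Q : Subgroup G) = ⊥ := by
    intro P Q hne
    by_contra hint
    obtain ⟨i, hi⟩ := IsPGroup.iff_card.1 (P.2.to_le (inf_le_left : (P : Subgroup G) ⊓ (Q : Subgroup G) ≤ P))
    obtain ⟨w, hwo⟩ := exists_prime_orderOf_dvd_card' 2
      (G := ↥((P : Subgroup G) ⊓ (Q : Subgroup G))) (by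
        rw [hi]
        rcases i with _ | i
        · exact absurd (Subgroup.eq_bot_of_card_eq _ (by rw [hi, pow_zero])) hint
        · exact dvd_pow_self 2 (Nat.succ_ne_zero i))
    obtain ⟨u, hu⟩ := w
    obtain ⟨huP, huQ⟩ := Subgroup.mem_inf.1 hu
    have huo : orderOf u = 2 := by rw [← hwo, Subgroup.orderOf_mk]
    have hu1 : u ≠ 1 := fun e => by rw [e, orderOf_one] at huo; norm_num at huo
    have hcent : ∀ (S : Sylow 2 G), u ∈ (S : Subgroup G) → ∀ t ∈ (S : Subgroup G), t * u = u * t := by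
      intro S hS t ht
      have h1 := huniq S ⟨t * u * t⁻¹, mul_mem (mul_mem ht hS) (inv_mem ht)⟩ ⟨u, hS⟩
        (by rw [Subgroup.orderOf_mk, show t * u * t⁻¹ = MulAut.conj t u from rfl, MulEquiv.orderOf_eq, huo])
        (by rw [Subgroup.orderOf_mk, huo])
      exact mul_inv_eq_iff_eq_mul.1 (congrArg Subtype.val h1)
    exact hne (Sylow.ext ((centralizer_central_involution h P huP hu1 (hcent P huP)).symm.trans
      (centralizer_central_involution h Q huQ hu1 (hcent Q huQ))))
  have h1 := CfsgLib.SmallSimple2.ncard_union hdis (fun P => hP P)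
  rw [(card_sylow2 h).2] at h1
  have h2 := CfsgLib.SmallSimple2.ncard_union
    (CfsgLib.SmallSimple2.inf_eq_bot_of_card_prime (card_sylow3 h).1) (card_sylow3 h).1
  rw [(card_sylow3 h).2] at h2
  have hd : Disjoint {g : G | g ≠ 1 ∧ ∃ P : Sylow 2 G, g ∈ (P : Subgroup G)}
      {g : G | g ≠ 1 ∧ ∃ P : Sylow 3 G, g ∈ (P : Subgroup G)} := by
    rw [Set.disjoint_left]
    rintro g ⟨hg1, P, hgP⟩ ⟨-, Q, hgQ⟩
    refine hg1 (orderOf_eq_one_iff.1 (Nat.eq_one_of_dvd_coprimes (by norm_num : Nat.Coprime 8 3) ?_ ?_))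
    · exact hP P ▸ Subgroup.orderOf_dvd_natCard _ hgP
    · exact (card_sylow3 h).1 Q ▸ Subgroup.orderOf_dvd_natCard _ hgQ
  have h3 := Set.ncard_union_eq hd
  have h4 := Set.ncard_le_ncard (Set.subset_univ
    ({g : G | g ≠ 1 ∧ ∃ P : Sylow 2 G, g ∈ (P : Subgroup G)} ∪ {g : G | g ≠ 1 ∧ ∃ P : Sylow 3 G, g ∈ (P : Subgroup G)}))
  rw [h3, h1, h2, Set.ncard_univ, h] at h4
  norm_num at h4

theorem isConj_involutions (s t : G) (hs : orderOf s = 2) (ht : orderOf t = 2) : IsConj s t := by
  haveI : Fact (Nat.Prime 2) := ⟨Nat.prime_two⟩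
  obtain ⟨T⟩ := (inferInstance : Nonempty (Sylow 2 G))
  obtain ⟨a, x, ha, hx2, hxn, hxa⟩ := sylow2_structure h T
  suffices key : ∀ u : G, orderOf u = 2 → IsConj u ((a ^ 2 : (T : Subgroup G)) : G) from
    (key s hs).trans (key t ht).symm
  have hA : orderOf ((a ^ 2 : (T : Subgroup G))) = 2 := by rw [orderOf_pow, ha]; norm_num
  have hzp : ∀ v : (T : Subgroup G), v ∈ Subgroup.zpowers a → orderOf v = 2 → v = a ^ 2 := fun v hv ho => by
    haveI : IsCyclic (Subgroup.zpowers a) := Subgroup.isCyclic_zpowers a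
    exact congrArg Subtype.val (CfsgLib.TwoSylow.involution_unique (C := Subgroup.zpowers a)
      (a := ⟨v, hv⟩) (b := ⟨a ^ 2, pow_mem (Subgroup.mem_zpowers a) 2⟩)
      (by rw [Subgroup.orderOf_mk]; exact ho) (by rw [Subgroup.orderOf_mk]; exact hA))
  intro u hu
  obtain ⟨S, hS⟩ := (IsPGroup.of_card (n := 1) (by rw [Nat.card_zpowers, hu, pow_one]) :
    IsPGroup 2 (Subgroup.zpowers u)).exists_le_sylow
  obtain ⟨g, hg⟩ := MulAction.exists_smul_eq G S T
  have huT : g * u * g⁻¹ ∈ (T : Subgroup G) := by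
    rw [← hg]
    exact ⟨u, hS (Subgroup.mem_zpowers u), rfl⟩
  have hu' : orderOf (g * u * g⁻¹) = 2 := by
    rw [show g * u * g⁻¹ = MulAut.conj g u from rfl, MulEquiv.orderOf_eq, hu]
  refine (isConj_iff.2 ⟨g, rfl⟩ : IsConj u (g * u * g⁻¹)).trans ?_
  set v := g * u * g⁻¹ with hv
  set Q := (Subgroup.zpowers a).map (T : Subgroup G).subtype with hQ
  by_cases hvQ : v ∈ Q
  · obtain ⟨w, hw, hwv⟩ := hvQ
    rw [← hwv, ← hzp w hw (by rw [← Subgroup.orderOf_coe]; exact (congrArg orderOf hwv).trans hu')]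
    exact IsConj.refl _
  · have hQi : Q.relIndex (T : Subgroup G) = 2 := by
      rw [hQ, Subgroup.relIndex, Subgroup.subgroupOf, Subgroup.comap_map_eq_self_of_injective (T : Subgroup G).subtype_injective]
      have h1 := Subgroup.index_mul_card (Subgroup.zpowers a)
      rw [Nat.card_zpowers, ha, (card_sylow2 h).1 T] at h1
      omega
    rcases Cfsg.Agent.S0111.result T Q (Subgroup.map_subtype_le _) hQi v hu' huT hvQ with ⟨M, hMn, hMi, -⟩ | ⟨k, hk⟩
    · exfalso
      rcases hMn.eq_bot_or_eq_top with e | e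
      · rw [e, Subgroup.index_bot, h] at hMi; norm_num at hMi
      · rw [e, Subgroup.index_top] at hMi; norm_num at hMi
    · obtain ⟨w, hw, hwv⟩ := hk
      refine (isConj_iff.2 ⟨k, rfl⟩ : IsConj v (k * v * k⁻¹)).trans ?_
      rw [← hwv, ← hzp w hw (by
        rw [← Subgroup.orderOf_coe]
        exact (congrArg orderOf hwv).trans (((MulAut.conj k).orderOf_eq v).trans hu'))]
      exact IsConj.refl _

end CfsgLib.Order168
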