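import Cfsg.Agent.Lib.PConstrained
import Cfsg.Agent.Lib.Core

/-! `p`-stability passes to and from the quotient by the `p'`-core. -/

set_option autoImplicit false
set_option linter.style.haveILetI false
open scoped commutatorElement

namespace CfsgLib.PStableQuot

variable {G : Type*} [Group G] [Finite G] {p : ℕ} [hp : Fact p.Prime]

theorem pCore_bijective {A B : Type*} [Group A] [Group B] [Finite A] [Finite B] (f : A →* B) (hf : Function.Bijective f) :
    (Cfsg.pCore p A).map f = Cfsg.pCore p B := by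
  refine le_antisymm (CfsgLib.Core.le_pCore ((Cfsg.pCore_normal p A).map f hf.2) ((CfsgLib.Core.isPGroup_pCore p).map f)) ?_
  rw [← Subgroup.map_comap_eq_self_of_surjective hf.2 (Cfsg.pCore p B)]
  exact Subgroup.map_mono (CfsgLib.Core.le_pCore ((Cfsg.pCore_normal p B).comap f)
    ((CfsgLib.Core.isPGroup_pCore p).comap_of_injective f hf.1))

theorem key {A P : Subgroup G} (hP : IsPGroup p P) (hAP : A ≤ Subgroup.normalizer (P : Set G)) :
    ((A.subgroupOf (Subgroup.normalizer (P : Set G))).map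
        (QuotientGroup.mk' ((Subgroup.centralizer (P : Set G)).subgroupOf (Subgroup.normalizer (P : Set G))))
      ≤ Cfsg.pCore p _) ↔
    (((A.map (QuotientGroup.mk' (Cfsg.pPrimeCore p G))).subgroupOf
        (Subgroup.normalizer ((P.map (QuotientGroup.mk' (Cfsg.pPrimeCore p G)) : Subgroup _) : Set (G ⧸ Cfsg.pPrimeCore p G)))).map
        (QuotientGroup.mk' ((Subgroup.centralizer ((P.map (QuotientGroup.mk' (Cfsg.pPrimeCore p G)) : Subgroup _) : Set (G ⧸ Cfsg.pPrimeCore p G))).subgroupOf
          (Subgroup.normalizer ((P.map (QuotientGroup.mk' (Cfsg.pPrimeCore p G)) : Subgroup _) : Set (G ⧸ Cfsg.pPrimeCore p G)))))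
      ≤ Cfsg.pCore p _) := by
  haveI hNn := CfsgLib.PConstrained.pPrimeCore_normal (p := p) (G := G)
  set K := Cfsg.pPrimeCore p G with hK
  set π := QuotientGroup.mk' K with hπd
  have hπ : Function.Surjective π := QuotientGroup.mk'_surjective K
  have hker : (Nat.card π.ker).Coprime p := by rw [QuotientGroup.ker_mk']; exact CfsgLib.Core.card_pPrimeCore_coprime p
  have hN := CfsgLib.PConstrained.normalizer_map_eq π hπ hker hP
  set N := Subgroup.normalizer (P : Set G) with hNd
  set M := Subgroup.normalizer ((P.map π : Subgroup _) : Set (G ⧸ K)) with hMd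
  set C₂ := Subgroup.centralizer ((P.map π : Subgroup _) : Set (G ⧸ K)) with hC2
  set C₁ := Subgroup.centralizer (P : Set G) with hC1
  let θ : N →* M := (π.comp N.subtype).codRestrict M fun g => hN.le (Subgroup.mem_map_of_mem π g.2)
  have hθ : Function.Surjective θ := fun y => by
    obtain ⟨g, hg, hge⟩ := hN.ge y.2
    exact ⟨⟨g, hg⟩, Subtype.ext hge⟩
  have hle : C₁.subgroupOf N ≤ (C₂.subgroupOf M).comap θ := fun g hg => by
    show π (g : G) ∈ C₂
    refine Subgroup.mem_centralizer_iff.mpr ?_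
    rintro _ ⟨x, hx, rfl⟩
    rw [← map_mul, ← map_mul]
    exact congrArg π (Subgroup.mem_centralizer_iff.mp hg x hx)
  let Ψ := QuotientGroup.map (C₁.subgroupOf N) (C₂.subgroupOf M) θ hle
  have hΨ : Function.Bijective Ψ := by
    refine ⟨?_, ?_⟩
    · refine (injective_iff_map_eq_one Ψ).mpr fun a ha => ?_
      obtain ⟨g, rfl⟩ := QuotientGroup.mk'_surjective _ a
      have h1 : π (g : G) ∈ C₂ := (QuotientGroup.eq_one_iff (θ g)).mp ha
      refine (QuotientGroup.eq_one_iff g).mpr (Subgroup.mem_centralizer_iff.mpr fun x hx => ?_)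
      have hgx : (g : G) * x * (g : G)⁻¹ * x⁻¹ ∈ P ⊓ K := by
        refine ⟨P.mul_mem ((Subgroup.mem_normalizer_iff.mp g.2 x).mp hx) (P.inv_mem hx), (QuotientGroup.eq_one_iff _).mp ?_⟩
        show π _ = 1
        rw [map_mul, map_mul, map_mul, map_inv, map_inv, ← Subgroup.mem_centralizer_iff.mp h1 (π x) ⟨x, hx, rfl⟩,
          mul_inv_cancel_right, mul_inv_cancel]
      rw [CfsgLib.PConstrained.inf_eq_bot_of_coprime hP (CfsgLib.Core.card_pPrimeCore_coprime p), Subgroup.mem_bot] at hgx
      rw [mul_inv_eq_one, mul_inv_eq_iff_eq_mul] at hgx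
      exact hgx.symm
    · intro b
      obtain ⟨y, rfl⟩ := QuotientGroup.mk'_surjective _ b
      obtain ⟨g, rfl⟩ := hθ y
      exact ⟨QuotientGroup.mk' _ g, rfl⟩
  have himg : ((A.subgroupOf N).map (QuotientGroup.mk' (C₁.subgroupOf N))).map Ψ =
      ((A.map π).subgroupOf M).map (QuotientGroup.mk' (C₂.subgroupOf M)) := by
    refine le_antisymm ?_ ?_
    · rintro _ ⟨_, ⟨g, hg, rfl⟩, rfl⟩
      exact ⟨θ g, ⟨(g : G), hg, rfl⟩, rfl⟩
    · rintro _ ⟨y, ⟨a, ha, hae⟩, rfl⟩
      refine ⟨QuotientGroup.mk' _ ⟨a, hAP ha⟩, ⟨⟨a, hAP ha⟩, ha, rfl⟩, ?_⟩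
      show QuotientGroup.mk' _ (θ ⟨a, hAP ha⟩) = _
      congr 1
      exact Subtype.ext hae
  rw [← himg, ← pCore_bijective Ψ hΨ, Subgroup.map_le_map_iff_of_injective hΨ.1]

theorem isPStable_iff (hO : Cfsg.pCore p G ≠ ⊥) :
    Cfsg.IsPStable p G ↔ Cfsg.IsPStable p (G ⧸ Cfsg.pPrimeCore p G) := by
  haveI hNn := CfsgLib.PConstrained.pPrimeCore_normal (p := p) (G := G)
  set K := Cfsg.pPrimeCore p G with hK
  set π := QuotientGroup.mk' K with hπd
  have hπ : Function.Surjective π := QuotientGroup.mk'_surjective K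
  have hker : (Nat.card π.ker).Coprime p := by rw [QuotientGroup.ker_mk']; exact CfsgLib.Core.card_pPrimeCore_coprime p
  have hcm : ∀ U : Subgroup G, (U.map π).comap π = K ⊔ U := fun U => by
    rw [Subgroup.comap_map_eq, QuotientGroup.ker_mk', sup_comm]
  have hbot : Cfsg.pPrimeCore p (G ⧸ K) = ⊥ := CfsgLib.Core.pPrimeCore_quotient_eq_bot p
  have hPP : ∀ P : Subgroup G, P ≤ Cfsg.pPrimePCore p G ↔ P.map π ≤ Cfsg.pPrimePCore p (G ⧸ K) := fun P => by
    have h1 : Cfsg.pPrimePCore p (G ⧸ K) = Cfsg.pCore p (G ⧸ K) := by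
      refine le_antisymm (CfsgLib.Core.le_pCore ?_ ?_) ?_
      · haveI := Cfsg.pCore_normal p ((G ⧸ K) ⧸ Cfsg.pPrimeCore p (G ⧸ K))
        exact Subgroup.Normal.comap inferInstance _
      · refine (CfsgLib.Core.isPGroup_pCore p).comap_of_ker_isPGroup _ ?_
        rw [QuotientGroup.ker_mk', hbot]
        exact IsPGroup.of_bot
      · intro x hx
        haveI : (Cfsg.pCore p (G ⧸ K)).Normal := Cfsg.pCore_normal p _
        exact CfsgLib.Core.le_pCore ((Cfsg.pCore_normal p (G ⧸ K)).map _ (QuotientGroup.mk'_surjective _))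
          ((CfsgLib.Core.isPGroup_pCore p).map _) (Subgroup.mem_map_of_mem _ hx)
    rw [h1, Subgroup.map_le_iff_le_comap]
    rfl
  constructor
  · rintro ⟨hodd, -, h⟩
    refine ⟨hodd, fun e => hO ?_, fun A' P' hA' hP' hAP' hle' hn' hcomm' => ?_⟩
    · have h1 : Cfsg.pCore p G ≤ K := by
        have := CfsgLib.Core.le_pCore ((Cfsg.pCore_normal p G).map π hπ) ((CfsgLib.Core.isPGroup_pCore p).map π)
        rw [e, le_bot_iff, Subgroup.map_eq_bot_iff, QuotientGroup.ker_mk'] at this
        exact this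
      exact le_bot_iff.mp ((CfsgLib.PConstrained.inf_eq_bot_of_coprime (CfsgLib.Core.isPGroup_pCore (G := G) p)
        (CfsgLib.Core.card_pPrimeCore_coprime p)) ▸ le_inf le_rfl h1)
    · obtain ⟨S⟩ : Nonempty (Sylow p (P'.comap π)) := inferInstance
      have hφP : Function.Surjective (π.subgroupComap P') := fun y => by
        obtain ⟨g, hg⟩ := hπ y
        exact ⟨⟨g, show π g ∈ P' from hg.symm ▸ y.2⟩, Subtype.ext hg⟩
      set P := (S : Subgroup (P'.comap π)).map (P'.comap π).subtype with hPd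
      have hP : IsPGroup p P := S.2.map _
      have hPeq : P.map π = P' := by
        have htop : ((S.mapSurjective hφP : Sylow p P') : Subgroup P') = ⊤ :=
          ((S.mapSurjective hφP).3 (hP'.of_equiv Subgroup.topEquiv.symm) le_top).symm
        have := congrArg (Subgroup.map P'.subtype) htop
        rw [Sylow.coe_mapSurjective, Subgroup.map_map, ← MonoidHom.range_eq_map, Subgroup.range_subtype] at this
        rw [hPd, Subgroup.map_map]
        exact this
      have hNA : A' ≤ (Subgroup.normalizer (P : Set G)).map π := by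
        rw [CfsgLib.PConstrained.normalizer_map_eq π hπ hker hP, hPeq]
        intro a ha
        exact Subgroup.mem_normalizer_fintype fun x hx => hAP' a ha x hx
      set B := A'.comap π ⊓ Subgroup.normalizer (P : Set G) with hBd
      obtain ⟨T⟩ : Nonempty (Sylow p B) := inferInstance
      let ψ : B →* A' := (π.comp B.subtype).codRestrict A' fun g => g.2.1
      have hψ : Function.Surjective ψ := fun y => by
        obtain ⟨g, hg, hge⟩ := hNA y.2
        exact ⟨⟨g, show π g ∈ A' from hge.symm ▸ y.2, hg⟩, Subtype.ext hge⟩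
      set A := (T : Subgroup B).map B.subtype with hAd
      have hA : IsPGroup p A := T.2.map _
      have hAeq : A.map π = A' := by
        have htop : ((T.mapSurjective hψ : Sylow p A') : Subgroup A') = ⊤ :=
          ((T.mapSurjective hψ).3 (hA'.of_equiv Subgroup.topEquiv.symm) le_top).symm
        have := congrArg (Subgroup.map A'.subtype) htop
        rw [Sylow.coe_mapSurjective, Subgroup.map_map, ← MonoidHom.range_eq_map, Subgroup.range_subtype] at this
        rw [hAd, Subgroup.map_map]
        exact this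
      have hAN : A ≤ Subgroup.normalizer (P : Set G) := (Subgroup.map_subtype_le _).trans inf_le_right
      have := (key hP hAN).mp (h A P hA hP (fun a ha x hx => (Subgroup.mem_normalizer_iff.mp (hAN ha) x).mp hx)
        ((hPP P).mpr (hPeq ▸ hle')) (by
          rw [← hcm, hPeq]
          rw [hbot, bot_sup_eq] at hn'
          exact hn'.comap π) (by
          have hsub : ⁅P, A⁆ ≤ P := Subgroup.commutator_le.mpr fun x hx a ha => by
            rw [commutatorElement_def, mul_assoc, mul_assoc]
            exact mul_mem hx (by rw [← mul_assoc]; exact (Subgroup.mem_normalizer_iff.mp (hAN ha) _).mp (inv_mem hx))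
          have hsub2 : ⁅⁅P, A⁆, A⁆ ≤ P := (Subgroup.commutator_mono hsub le_rfl).trans hsub
          refine le_bot_iff.mp ((CfsgLib.PConstrained.inf_eq_bot_of_coprime hP (K := K) (CfsgLib.Core.card_pPrimeCore_coprime p)) ▸
            le_inf hsub2 ?_)
          rw [← QuotientGroup.ker_mk' K, ← Subgroup.map_eq_bot_iff, Subgroup.map_commutator, Subgroup.map_commutator]
          show ⁅⁅P.map π, A.map π⁆, A.map π⁆ = ⊥
          rw [hPeq, hAeq, hcomm']))
      rw [hAeq, hPeq] at this
      exact this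
  · rintro ⟨hodd, -, h⟩
    refine ⟨hodd, hO, fun A P hA hP hAP hle hn hcomm => ?_⟩
    have hAN : A ≤ Subgroup.normalizer (P : Set G) := fun a ha => Subgroup.mem_normalizer_fintype fun x hx => hAP a ha x hx
    refine (key hP hAN).mpr (h (A.map π) (P.map π) (hA.map π) (hP.map π) ?_ ((hPP P).mp hle) ?_ ?_)
    · rintro _ ⟨a, ha, rfl⟩ _ ⟨x, hx, rfl⟩
      exact ⟨a * x * a⁻¹, hAP a ha x hx, by rw [map_mul, map_mul, map_inv]⟩
    · rw [hbot, bot_sup_eq, ← Subgroup.map_comap_eq_self_of_surjective hπ (P.map π), hcm]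
      exact hn.map π hπ
    · rw [← Subgroup.map_commutator, ← Subgroup.map_commutator, hcomm, Subgroup.map_bot]

end CfsgLib.PStableQuot
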