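import Cfsg.Agent.Lib.OddQuad
import Cfsg.Agent.S1466
import Cfsg.Agent.Lib.GroupB.Coprime

/-! The Puig subgroup in solvable groups of odd order. (owner helper5) -/

set_option autoImplicit false
set_option linter.style.haveILetI false
open scoped commutatorElement

namespace CfsgLib.PuigZ

open CfsgLib.OddQuad

variable {G : Type*} [Group G] [Finite G] {p : ℕ} [hp : Fact p.Prime]

/-- conjugations preserving `S` preserve its series -/
theorem puigIn_conj (S : Subgroup G) (n : ℕ) : ∀ g : G, g ∈ Subgroup.normalizer (S : Set G) →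
    ∀ y ∈ puigIn S n, g * y * g⁻¹ ∈ puigIn S n := by
  induction n with
  | zero =>
    intro g _ y hy
    rw [puigIn_zero, Subgroup.mem_bot] at hy
    rw [hy, mul_one, mul_inv_cancel]; exact one_mem _
  | succ n ih =>
    intro g hg
    have hle : puigIn S (n + 1) ≤ (puigIn S (n + 1)).comap (MulAut.conj g).toMonoidHom := by
      refine puigIn_succ_le fun A hA hAc hAn => ?_
      rw [← Subgroup.map_le_iff_le_comap]
      refine le_puigIn_succ ?_ inferInstance ?_
      · rintro _ ⟨a, ha, rfl⟩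
        exact (Subgroup.mem_normalizer_iff.mp hg a).mp (hA ha)
      · intro x hx
        have h1 : g⁻¹ * x * g ∈ puigIn S n := by
          have := ih g⁻¹ (inv_mem hg) x hx
          rwa [inv_inv] at this
        refine Subgroup.mem_normalizer_fintype ?_
        rintro _ ⟨a, ha, rfl⟩
        exact ⟨g⁻¹ * x * g * a * (g⁻¹ * x * g)⁻¹, (Subgroup.mem_normalizer_iff.mp (hAn h1) a).mp ha, by
          show g * (g⁻¹ * x * g * a * (g⁻¹ * x * g)⁻¹) * g⁻¹ = x * (g * a * g⁻¹) * x⁻¹
          group⟩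
    exact fun y hy => hle hy

theorem normalizer_le (S : Subgroup G) (n : ℕ) :
    Subgroup.normalizer (S : Set G) ≤ Subgroup.normalizer (puigIn S n : Set G) :=
  fun g hg => Subgroup.mem_normalizer_fintype fun y hy => puigIn_conj S n g hg y hy

theorem puigIn_normal (T : Subgroup G) [T.Normal] (n : ℕ) : (puigIn T n).Normal :=
  ⟨fun y hy g => puigIn_conj T n g (by rw [Subgroup.normalizer_eq_top T]; exact Subgroup.mem_top g) y hy⟩

/-- the terms contain their centralizers -/
theorem cent_le (T : Subgroup G) (hT : IsPGroup p ↥T) {n : ℕ} (hn : 0 < n) :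
    T ⊓ Subgroup.centralizer (puigIn T n : Set G) ≤ puigIn T n := by
  rintro x ⟨hxT, hxc⟩
  rcases eq_or_ne x 1 with rfl | hx1
  · exact one_mem _
  haveI : Nontrivial ↥T := ⟨⟨x, hxT⟩, 1, fun h => hx1 (congrArg Subtype.val h)⟩
  refine ⟨⟨x, hxT⟩, ((Cfsg.Agent.S1466.result p hT).1 n hn).2 (Subgroup.mem_centralizer_iff.mpr fun y hy => ?_), rfl⟩
  exact Subtype.ext (Subgroup.mem_centralizer_iff.mp hxc _ ⟨y, hy, rfl⟩)

theorem chain [Group.IsSolvable G] (hp2 : p ≠ 2) (hodd : Odd (Nat.card G)) (hO : Cfsg.pPrimeCore p G = ⊥)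
    (S : Sylow p G) (n : ℕ) :
    puigIn (S : Subgroup G) (2 * n) ≤ puigIn (Cfsg.pCore p G) (2 * n) ∧
      puigIn (Cfsg.pCore p G) (2 * n + 1) ≤ puigIn (S : Subgroup G) (2 * n + 1) := by
  haveI := Cfsg.pCore_normal p G
  set T := Cfsg.pCore p G
  have hTp : IsPGroup p ↥T := CfsgLib.Core.isPGroup_pCore p
  have hTS : T ≤ (S : Subgroup G) := CfsgLib.Core.pCore_le_sylow S
  induction n with
  | zero => exact ⟨by rw [Nat.mul_zero, puigIn_zero]; exact bot_le, by rw [Nat.mul_zero, zero_add, puigIn_one, puigIn_one]; exact hTS⟩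
  | succ n ih =>
    have hA : puigIn (S : Subgroup G) (2 * n + 1 + 1) ≤ puigIn T (2 * n + 1 + 1) := by
      refine puigIn_succ_le fun A hA hAc hAn => ?_
      haveI := puigIn_normal T (2 * n + 1)
      have hn' := ih.2.trans hAn
      refine le_puigIn_succ ?_ hAc hn'
      exact le_pCore_of_abelian hp2 hodd (puigIn T (2 * n + 1)) (hTp.to_le (puigIn_le _ _))
        (isPGroup_centralizer hO _ (cent_le T hTp (Nat.succ_pos _))) A hn'
    refine ⟨hA, ?_⟩
    exact puigIn_succ_le fun A hA' hAc hAn => le_puigIn_succ (hA'.trans hTS) hAc (hA.trans hAn)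

theorem bounds [Group.IsSolvable G] (hp2 : p ≠ 2) (hodd : Odd (Nat.card G)) (hO : Cfsg.pPrimeCore p G = ⊥)
    (S : Sylow p G) :
    (Cfsg.puigLower ↥(S : Subgroup G)).map (S : Subgroup G).subtype ≤
        (Cfsg.puigLower ↥(Cfsg.pCore p G)).map (Cfsg.pCore p G).subtype ∧
      (Cfsg.puigSubgroup ↥(Cfsg.pCore p G)).map (Cfsg.pCore p G).subtype ≤
        (Cfsg.puigSubgroup ↥(S : Subgroup G)).map (S : Subgroup G).subtype := by
  obtain ⟨k, h1, h2⟩ := limit₂ (S : Subgroup G) (Cfsg.pCore p G)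
  rw [← (h1 k le_rfl).1, ← (h1 k le_rfl).2, ← (h2 k le_rfl).1, ← (h2 k le_rfl).2]
  exact chain hp2 hodd hO S k

/-- a subgroup containing the Puig subgroup has the same one -/
theorem puig_sub {S S0 : Subgroup G} (hle : S0 ≤ S) (hL : (Cfsg.puigSubgroup ↥S).map S.subtype ≤ S0) :
    (Cfsg.puigSubgroup ↥S0).map S0.subtype = (Cfsg.puigSubgroup ↥S).map S.subtype := by
  obtain ⟨k, h1, h2⟩ := limit₂ S S0
  set L := (Cfsg.puigSubgroup ↥S).map S.subtype
  set Ls := (Cfsg.puigLower ↥S).map S.subtype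
  have hLsL : Ls ≤ L := lower_le_subgroup S
  -- every term of the even series of S lies in Ls, hence in S0
  have hev : ∀ n, puigIn S (2 * n) ≤ Ls := fun n =>
    Subgroup.map_mono (le_iSup (fun m => Cfsg.puigSeq ↥S (2 * m)) n)
  have hup : ∀ n, puigIn S (2 * n) ≤ puigIn S0 (2 * n) ∧ puigIn S0 (2 * n + 1) ≤ puigIn S (2 * n + 1) := by
    intro n
    induction n with
    | zero => exact ⟨by rw [Nat.mul_zero, puigIn_zero]; exact bot_le, by rw [Nat.mul_zero, zero_add, puigIn_one, puigIn_one]; exact hle⟩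
    | succ n ih =>
      have hA : puigIn S (2 * n + 1 + 1) ≤ puigIn S0 (2 * n + 1 + 1) := puigIn_succ_le fun A hA hAc hAn =>
        le_puigIn_succ ((le_puigIn_succ hA hAc hAn).trans ((hev (n + 1)).trans (hLsL.trans hL))) hAc (ih.2.trans hAn)
      exact ⟨hA, puigIn_succ_le fun A hA' hAc hAn => le_puigIn_succ (hA'.trans hle) hAc (hA.trans hAn)⟩
  have hdown : ∀ n, L ≤ puigIn S0 (2 * n + 1) := by
    intro n
    induction n with
    | zero => rw [Nat.mul_zero, zero_add, puigIn_one]; exact hL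
    | succ n ih =>
      have hA : puigIn S0 (2 * n + 1 + 1) ≤ Ls := puigIn_succ_le fun A hA hAc hAn => by
        refine le_trans (le_puigIn_succ (n := 2 * k + 1) (hA.trans hle) hAc (((h1 k le_rfl).2.trans_le ih).trans hAn)) ?_
        exact hev (k + 1)
      rw [show L = puigIn S (2 * k + 1) from ((h1 k le_rfl).2).symm]
      refine puigIn_succ_le fun A hA' hAc hAn => ?_
      have hAS0 : A ≤ S0 := (le_puigIn_succ hA' hAc hAn).trans ((h1 k le_rfl).2.trans_le hL)
      exact le_puigIn_succ hAS0 hAc (hA.trans ((h1 k le_rfl).1.symm.trans_le hAn))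
  rw [← (h2 k le_rfl).2]
  exact le_antisymm ((hup k).2.trans (h1 k le_rfl).2.le) (hdown k)

/-- `Z(L(S))` -/
def zl (S : Subgroup G) : Subgroup G :=
  (Cfsg.puigSubgroup ↥S).map S.subtype ⊓ Subgroup.centralizer ((Cfsg.puigSubgroup ↥S).map S.subtype : Set G)

theorem zl_eq (S : Subgroup G) :
    ((Subgroup.center ↥(Cfsg.puigSubgroup ↥S)).map (Cfsg.puigSubgroup ↥S).subtype).map S.subtype = zl S := by
  refine le_antisymm ?_ ?_
  · rintro _ ⟨_, ⟨x, hx, rfl⟩, rfl⟩
    refine ⟨⟨x, x.2, rfl⟩, Subgroup.mem_centralizer_iff.mpr ?_⟩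
    rintro _ ⟨y, hy, rfl⟩
    exact congrArg (fun w : ↥(Cfsg.puigSubgroup ↥S) => ((w : ↥S) : G)) (Subgroup.mem_center_iff.mp hx ⟨y, hy⟩)
  · rintro g ⟨⟨y, hy, rfl⟩, hc⟩
    refine ⟨y, ⟨⟨y, hy⟩, Subgroup.mem_center_iff.mpr fun w => Subtype.ext (Subtype.ext ?_), rfl⟩, rfl⟩
    exact Subgroup.mem_centralizer_iff.mp hc _ ⟨w, w.2, rfl⟩

theorem zl_conj (S : Subgroup G) : Subgroup.normalizer (S : Set G) ≤ Subgroup.normalizer (zl S : Set G) := by
  obtain ⟨k, hk⟩ := limit S
  intro g hg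
  refine Subgroup.mem_normalizer_fintype fun y hy => ?_
  have hn : g ∈ Subgroup.normalizer (((Cfsg.puigSubgroup ↥S).map S.subtype : Subgroup G) : Set G) := by
    rw [← (hk k le_rfl).2]; exact normalizer_le S _ hg
  refine ⟨(Subgroup.mem_normalizer_iff.mp hn y).mp hy.1, Subgroup.mem_centralizer_iff.mpr fun x hx => ?_⟩
  have hx' : g⁻¹ * x * g ∈ (Cfsg.puigSubgroup ↥S).map S.subtype := by
    have := (Subgroup.mem_normalizer_iff.mp (inv_mem hn) x).mp hx
    rwa [inv_inv] at this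
  calc x * (g * y * g⁻¹) = g * ((g⁻¹ * x * g) * y) * g⁻¹ := by group
    _ = g * (y * (g⁻¹ * x * g)) * g⁻¹ := by rw [Subgroup.mem_centralizer_iff.mp hy.2 _ hx']
    _ = _ := by group

/-- `D = C S0` for a Sylow subgroup `S0` of `D` when `D / C` is a p-group -/
theorem le_sup_sylow (C D : Subgroup G) [C.Normal] (hq : IsPGroup p ↥(D.map (QuotientGroup.mk' C)))
    (S : Sylow p ↥D) : D ≤ C ⊔ (S : Subgroup ↥D).map D.subtype := by
  have hφ : Function.Surjective ((QuotientGroup.mk' C).subgroupMap D) :=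
    (QuotientGroup.mk' C).subgroupMap_surjective D
  have htop : ((S.mapSurjective hφ : Sylow p _) : Subgroup ↥(D.map (QuotientGroup.mk' C))) = ⊤ :=
    ((S.mapSurjective hφ).3 (hq.of_equiv Subgroup.topEquiv.symm) le_top).symm
  intro d hd
  obtain ⟨s, hs, he⟩ := htop.ge (Subgroup.mem_top (⟨_, Subgroup.mem_map_of_mem _ hd⟩ : ↥(D.map (QuotientGroup.mk' C))))
  have h1 : QuotientGroup.mk' C (s : G) = QuotientGroup.mk' C d := congrArg Subtype.val he
  have h2 : d * (s : G)⁻¹ ∈ C := (QuotientGroup.eq_one_iff _).mp (by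
    show QuotientGroup.mk' C (d * (s : G)⁻¹) = 1
    rw [map_mul, map_inv, h1, mul_inv_cancel])
  have := Subgroup.mul_mem_sup h2 (Subgroup.mem_map_of_mem D.subtype hs)
  rwa [Subgroup.coe_subtype, inv_mul_cancel_right] at this

/-- **Puig's theorem** with trivial p'-core. -/
theorem zl_normal [Group.IsSolvable G] (hp2 : p ≠ 2) (hodd : Odd (Nat.card G)) (hO : Cfsg.pPrimeCore p G = ⊥)
    (S : Sylow p G) : (zl (S : Subgroup G)).Normal := by
  haveI := Cfsg.pCore_normal p G
  obtain ⟨k, h1, h2⟩ := limit₂ (S : Subgroup G) (Cfsg.pCore p G)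
  have hb := bounds hp2 hodd hO S
  set T := Cfsg.pCore p G
  set S' := (S : Subgroup G)
  set LT := (Cfsg.puigSubgroup ↥T).map T.subtype
  set LsT := (Cfsg.puigLower ↥T).map T.subtype
  set LS := (Cfsg.puigSubgroup ↥S').map S'.subtype
  set LsS := (Cfsg.puigLower ↥S').map S'.subtype
  have hTp : IsPGroup p ↥T := CfsgLib.Core.isPGroup_pCore p
  have hTS : T ≤ S' := CfsgLib.Core.pCore_le_sylow S
  have hLTn : LT.Normal := by rw [show LT = _ from ((h2 k le_rfl).2).symm]; exact puigIn_normal T _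
  have hcLT : T ⊓ Subgroup.centralizer (LT : Set G) ≤ LT := by
    rw [show LT = _ from ((h2 k le_rfl).2).symm]; exact cent_le T hTp (Nat.succ_pos _)
  have hLTT : LT ≤ T := Subgroup.map_subtype_le _
  set V := LT ⊓ Subgroup.centralizer (LT : Set G)
  haveI hVn : V.Normal := inferInstance
  have hVp : IsPGroup p ↥V := hTp.to_le (inf_le_left.trans hLTT)
  have hZV : zl S' ≤ V := by
    intro z hz
    have hc : z ∈ Subgroup.centralizer (LT : Set G) := Subgroup.centralizer_le hb.2 hz.2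
    have hzT : z ∈ T := CfsgLib.Core.le_pCore inferInstance (isPGroup_centralizer hO LT hcLT) hc
    exact ⟨hcLT ⟨hzT, hc⟩, hc⟩
  have hVLs : V ≤ LsS := by
    intro v hv
    obtain ⟨hvk, -⟩ := h1 (k + 1) (Nat.le_succ k)
    rw [show LsS = _ from hvk.symm]
    refine cent_le S' S.2 (by omega) ⟨hTS (hLTT hv.1), Subgroup.mem_centralizer_iff.mpr fun x hx => ?_⟩
    rw [hvk] at hx
    exact Subgroup.mem_centralizer_iff.mp hv.2 x (lower_le_subgroup T (hb.1 hx))
  set C := Subgroup.centralizer (V : Set G)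
  set D := (Cfsg.pCore p (G ⧸ C)).comap (QuotientGroup.mk' C)
  haveI hDn : D.Normal := (Cfsg.pCore_normal p _).comap _
  have hLSD : LS ≤ D := by
    rw [show LS = _ from ((h1 k le_rfl).2).symm]
    refine puigIn_succ_le fun A _ hAc hAn a ha => ?_
    haveI := hAc
    exact mem_pCore_quot hp2 hodd V hVp (quad_of_abelian V A ((hVLs.trans ((h1 k le_rfl).1.symm.le)).trans hAn) ha)
  obtain ⟨P, hP⟩ : ∃ P : Sylow p ↥D, (P : Subgroup ↥D).map D.subtype = S' ⊓ D := by
    have hdvd : ¬ p ∣ (S'.subgroupOf D).index := by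
      rw [← Subgroup.relIndex, ← Subgroup.inf_relIndex_right]
      exact CfsgLib.Fusion.sylow_inf_normal (H := ⊤) (by rw [Subgroup.relIndex_top_right]; exact S.not_dvd_index)
        le_top le_top (by rw [Subgroup.normalizer_eq_top])
    exact ⟨(S.2.comap_subtype (K := D)).toSylow hdvd, by
      show (S'.subgroupOf D).map D.subtype = _
      rw [Subgroup.subgroupOf_map_subtype]⟩
  have hDle : D ≤ C ⊔ (S' ⊓ D) := by
    rw [← hP]
    exact le_sup_sylow C D ((CfsgLib.Core.isPGroup_pCore p).to_le (Subgroup.map_comap_le _ _)) P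
  have hsub := puig_sub (S := S') (S0 := S' ⊓ D) inf_le_left (le_inf (Subgroup.map_subtype_le _) hLSD)
  have hN0 : Subgroup.normalizer ((S' ⊓ D : Subgroup G) : Set G) ≤ Subgroup.normalizer (zl S' : Set G) := by
    have h := zl_conj (S' ⊓ D)
    rwa [show zl (S' ⊓ D) = zl S' by rw [zl, zl, hsub]] at h
  refine Subgroup.normalizer_eq_top_iff.mp (eq_top_iff.mpr ?_)
  rw [← Sylow.normalizer_sup_eq_top P, hP]
  refine sup_le hN0 (hDle.trans (sup_le ?_ (Subgroup.le_normalizer.trans hN0)))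
  exact (Subgroup.centralizer_le hZV).trans (Subgroup.centralizer_le_normalizer _)

/-- transport along a homomorphism injective on `S` -/
theorem map_puigIn {H : Type*} [Group H] [Finite H] (f : G →* H) (S : Subgroup G) (hf : Set.InjOn f S) (n : ℕ) :
    (puigIn S n).map f = puigIn (S.map f) n := by
  induction n with
  | zero => rw [puigIn_zero, puigIn_zero, Subgroup.map_bot]
  | succ n ih =>
    apply le_antisymm
    · rw [Subgroup.map_le_iff_le_comap]
      refine puigIn_succ_le fun A hA hAc hAn => ?_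
      rw [← Subgroup.map_le_iff_le_comap]
      refine le_puigIn_succ (Subgroup.map_mono hA) inferInstance ?_
      rw [← ih]
      rintro _ ⟨x, hx, rfl⟩
      refine Subgroup.mem_normalizer_fintype ?_
      rintro _ ⟨a, ha, rfl⟩
      exact ⟨x * a * x⁻¹, (Subgroup.mem_normalizer_iff.mp (hAn hx) a).mp ha, by rw [map_mul, map_mul, map_inv]⟩
    · refine puigIn_succ_le fun B hB hBc hBn => ?_
      have hle : B ≤ (S ⊓ B.comap f).map f := fun b hb => by
        obtain ⟨a, ha, rfl⟩ := hB hb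
        exact ⟨a, ⟨ha, hb⟩, rfl⟩
      refine hle.trans (Subgroup.map_mono (le_puigIn_succ inf_le_left ?_ ?_))
      · refine ⟨⟨fun a b => Subtype.ext (hf (mul_mem a.2.1 b.2.1) (mul_mem b.2.1 a.2.1) ?_)⟩⟩
        simp only [Subgroup.coe_mul, map_mul]
        exact congrArg Subtype.val (hBc.is_comm.comm (⟨f a, a.2.2⟩ : B) ⟨f b, b.2.2⟩)
      · intro x hx
        refine Subgroup.mem_normalizer_fintype ?_
        rintro a ⟨ha, haB⟩
        refine ⟨S.mul_mem (S.mul_mem (puigIn_le S n hx) ha) (S.inv_mem (puigIn_le S n hx)), ?_⟩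
        show f (x * a * x⁻¹) ∈ B
        rw [map_mul, map_mul, map_inv]
        exact (Subgroup.mem_normalizer_iff.mp (hBn (ih ▸ Subgroup.mem_map_of_mem f hx)) (f a)).mp haB

theorem map_zl {H : Type*} [Group H] [Finite H] (f : G →* H) (S : Subgroup G) (hf : Set.InjOn f S) :
    (zl S).map f = zl (S.map f) := by
  obtain ⟨a, ha⟩ := limit S
  obtain ⟨b, hb⟩ := limit (S.map f)
  have hL : ((Cfsg.puigSubgroup ↥S).map S.subtype).map f =
      (Cfsg.puigSubgroup ↥(S.map f)).map (S.map f).subtype := by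
    rw [← (ha _ (le_max_left a b)).2, ← (hb _ (le_max_right a b)).2, map_puigIn f S hf]
  rw [zl, zl, ← hL]
  set L := (Cfsg.puigSubgroup ↥S).map S.subtype
  have hLS : L ≤ S := Subgroup.map_subtype_le _
  apply le_antisymm
  · rintro _ ⟨x, ⟨hx, hxc⟩, rfl⟩
    refine ⟨⟨x, hx, rfl⟩, Subgroup.mem_centralizer_iff.mpr ?_⟩
    rintro _ ⟨y, hy, rfl⟩
    rw [← map_mul, ← map_mul, Subgroup.mem_centralizer_iff.mp hxc y hy]
  · rintro _ ⟨⟨x, hx, rfl⟩, hxc⟩
    refine ⟨x, ⟨hx, Subgroup.mem_centralizer_iff.mpr fun y hy => hf (mul_mem (hLS hy) (hLS hx))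
      (mul_mem (hLS hx) (hLS hy)) ?_⟩, rfl⟩
    rw [map_mul, map_mul]
    exact Subgroup.mem_centralizer_iff.mp hxc _ ⟨y, hy, rfl⟩

/-- **Puig's theorem.** -/
theorem zl_factorization [Group.IsSolvable G] (hp2 : p ≠ 2) (hodd : Odd (Nat.card G)) (S : Sylow p G) :
    Cfsg.pPrimeCore p G ⊔ Subgroup.normalizer (zl (S : Subgroup G) : Set G) = ⊤ := by
  haveI hKn : (Cfsg.pPrimeCore p G).Normal := by
    haveI := CfsgLib.Core.pPrimeCore_characteristic (G := G) p
    infer_instance
  set K := Cfsg.pPrimeCore p G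
  set f := QuotientGroup.mk' K
  have hf : Function.Surjective f := QuotientGroup.mk'_surjective K
  have hinj : Set.InjOn f ((S : Subgroup G) : Set G) := by
    intro a ha b hb hab
    have h1 : a⁻¹ * b ∈ K := (QuotientGroup.eq_one_iff _).mp (by
      show f (a⁻¹ * b) = 1
      rw [map_mul, map_inv, hab, inv_mul_cancel])
    obtain ⟨j, hj⟩ := IsPGroup.iff_orderOf.mp S.2 ⟨a⁻¹ * b, mul_mem (inv_mem ha) hb⟩
    rw [Subgroup.orderOf_mk] at hj
    exact inv_mul_eq_one.mp (orderOf_eq_one_iff.mp (Nat.eq_one_of_dvd_coprimes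
      ((CfsgLib.Core.card_pPrimeCore_coprime (G := G) p).pow_right j) (Subgroup.orderOf_dvd_natCard K h1) hj.dvd))
  haveI : Group.IsSolvable (G ⧸ K) := Group.isSolvable_of_surjective hf
  haveI hZn : (zl ((S : Subgroup G).map f)).Normal := by
    have h := zl_normal hp2 (hodd.of_dvd_nat (Subgroup.card_quotient_dvd_card K))
      (CfsgLib.Core.pPrimeCore_quotient_eq_bot p) (S.mapSurjective hf)
    exact h
  set M := ((zl ((S : Subgroup G).map f))).comap f
  haveI : M.Normal := hZn.comap f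
  set Z := zl (S : Subgroup G)
  have hZM : Z ≤ M := fun z hz => by
    show f z ∈ zl _
    rw [← map_zl f _ hinj]; exact Subgroup.mem_map_of_mem f hz
  have hMle : M ≤ Z ⊔ K := by
    intro m hm
    have h1 : f m ∈ (zl (S : Subgroup G)).map f := by rw [map_zl f _ hinj]; exact hm
    obtain ⟨z, hz, he⟩ := h1
    have h2 : z⁻¹ * m ∈ K := (QuotientGroup.eq_one_iff _).mp (by
      show f (z⁻¹ * m) = 1
      rw [map_mul, map_inv, he, inv_mul_cancel])
    have := Subgroup.mul_mem_sup hz h2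
    rwa [mul_inv_cancel_left] at this
  have hKM : K ≤ M := fun x hx => by
    show f x ∈ zl _
    rw [show f x = 1 from (QuotientGroup.eq_one_iff x).mpr hx]; exact one_mem _
  have hZp : IsPGroup p ↥(Z.subgroupOf M) :=
    (S.2.to_le ((inf_le_left : Z ≤ _).trans (Subgroup.map_subtype_le _))).comap_subtype
  have hnd : ¬ p ∣ (Z.subgroupOf M).index := by
    intro hd
    have hdiv : Z.relIndex M ∣ Nat.card ↥K := by
      have hZS : Z ≤ (S : Subgroup G) := (inf_le_left : Z ≤ _).trans (Subgroup.map_subtype_le _)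
      have hKZ : K ⊓ Z = ⊥ := by
        rw [eq_bot_iff]
        rintro x ⟨hxK, hxZ⟩
        exact Subgroup.mem_bot.mpr (hinj (hZS hxZ) (one_mem _) (by
          rw [map_one]; exact (QuotientGroup.eq_one_iff x).mpr hxK))
      have h1 := CfsgLib.GroupB.Coprime.card_sup_eq (N := K) (K := Z)
        (by rw [Subgroup.normalizer_eq_top K]; exact le_top) hKZ
      rw [sup_comm, ← le_antisymm hMle (sup_le hZM hKM), ← Subgroup.relIndex_bot_left M,
        ← Subgroup.relIndex_mul_relIndex ⊥ Z M bot_le hZM, Subgroup.relIndex_bot_left, mul_comm (Nat.card ↥K)] at h1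
      exact dvd_of_eq (Nat.eq_of_mul_eq_mul_left Nat.card_pos h1)
    exact hp.out.ne_one (Nat.eq_one_of_dvd_coprimes (CfsgLib.Core.card_pPrimeCore_coprime (G := G) p) (hd.trans hdiv) dvd_rfl)
  have := Sylow.normalizer_sup_eq_top (hZp.toSylow hnd)
  rw [show ((hZp.toSylow hnd : Sylow p ↥M) : Subgroup ↥M).map M.subtype = Z from
    Subgroup.map_subgroupOf_eq_of_le hZM] at this
  rw [eq_top_iff, ← this]
  exact sup_le le_sup_right (hMle.trans (sup_le (Subgroup.le_normalizer.trans le_sup_right) le_sup_left))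

end CfsgLib.PuigZ
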