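import Cfsg.Agent.Lib.ActionPStable

/-! Faithful quadratic action and sections `SL₂(p)`. -/

set_option autoImplicit false
set_option linter.style.haveILetI false
open scoped commutatorElement

namespace CfsgLib.QuadSections

variable {G : Type*} [Group G] [Finite G] {p : ℕ} [hp : Fact p.Prime]

theorem exists_surjective_pair (hp2 : p ≠ 2) {V H : Subgroup G} (hV : Cfsg.IsElementaryAbelian p V)
    (hHV : H ≤ Subgroup.normalizer (V : Set G)) (hf : H ⊓ Subgroup.centralizer (V : Set G) = ⊥) {a b : G}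
    (ha : a ∈ H) (hb : b ∈ H) (haq : ⁅⁅V, Subgroup.zpowers a⁆, Subgroup.zpowers a⁆ = ⊥)
    (hbq : ∀ v ∈ V, ⁅⁅v, b⁆, b⁆ = 1) (hnp : ¬ IsPGroup p (Subgroup.closure ({a, b} : Set G))) :
    ∃ (K : Subgroup G) (f : ↥K →* Matrix.SpecialLinearGroup (Fin 2) (ZMod p)), K ≤ H ∧ Function.Surjective f := by
  have hab : ∀ x ∈ V, ∀ y ∈ V, x * y = y * x := fun x hx y hy =>
    congrArg Subtype.val (hV.1.is_comm.comm (⟨x, hx⟩ : ↥V) ⟨y, hy⟩)
  have hcl : Subgroup.closure ({a, b} : Set G) ≤ H := (Subgroup.closure_le _).mpr (by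
    rintro x (rfl | hx)
    · exact ha
    · rw [Set.mem_singleton_iff.mp hx]; exact hb)
  obtain ⟨K, f, hK, hfs⟩ := CfsgLib.Dickson.exists_section_group hp2 hab hV.2 (hHV ha) (hHV hb)
    (CfsgLib.Dickson.quad_elements haq) hbq (fun hall => hnp (by
      rintro ⟨g, hg⟩
      obtain ⟨k, hk⟩ := hall g hg
      have : g ^ p ^ k ∈ H ⊓ Subgroup.centralizer (V : Set G) := ⟨pow_mem (hcl hg) _, hk⟩
      rw [hf, Subgroup.mem_bot] at this
      exact ⟨k, Subtype.ext this⟩))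
  exact ⟨K, f, hK.trans hcl, hfs⟩

theorem exists_surjective_of_not_core (hp2 : p ≠ 2) {V H : Subgroup G} (hV : Cfsg.IsElementaryAbelian p V)
    (hHV : H ≤ Subgroup.normalizer (V : Set G)) (hf : H ⊓ Subgroup.centralizer (V : Set G) = ⊥) {a : G}
    (ha : a ∈ H) (haq : ⁅⁅V, Subgroup.zpowers a⁆, Subgroup.zpowers a⁆ = ⊥)
    (hna : a ∉ (Cfsg.pCore p H).map H.subtype) :
    ∃ (K : Subgroup G) (f : ↥K →* Matrix.SpecialLinearGroup (Fin 2) (ZMod p)), K ≤ H ∧ Function.Surjective f := by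
  obtain ⟨g, hg⟩ : ∃ g : H, ¬ IsPGroup p ↥(Subgroup.zpowers (⟨a, ha⟩ : H) ⊔
      (Subgroup.zpowers (⟨a, ha⟩ : H)).map (MulAut.conj g).toMonoidHom) := by
    by_contra hall
    push Not at hall
    obtain ⟨N, hN, hNp, hle⟩ := CfsgLib.BaerSuzuki.baer_suzuki _ hall
    exact hna ⟨⟨a, ha⟩, CfsgLib.Core.le_pCore hN hNp (hle (Subgroup.mem_zpowers _)), rfl⟩
  refine exists_surjective_pair hp2 hV hHV hf ha (b := (g : G) * a * (g : G)⁻¹)
    (mul_mem (mul_mem g.2 ha) (inv_mem g.2)) haq ?_ fun hP => hg ?_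
  · intro v hv
    have hv' : (g : G)⁻¹ * v * g ∈ V := (Subgroup.mem_normalizer_iff''.mp (hHV g.2) v).mp hv
    have h := congrArg (MulAut.conj (g : G)) (CfsgLib.Dickson.quad_elements haq _ hv')
    rw [map_one, map_commutatorElement, map_commutatorElement] at h
    simpa [mul_assoc] using h
  · refine IsPGroup.of_injective (hP.to_le (le_refl _)) ((H.subtype.comp (Subgroup.subtype _)).codRestrict
      (Subgroup.closure ({a, (g : G) * a * (g : G)⁻¹} : Set G)) fun x => ?_) fun x y e => ?_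
    · have hle : Subgroup.zpowers (⟨a, ha⟩ : H) ⊔ (Subgroup.zpowers (⟨a, ha⟩ : H)).map (MulAut.conj g).toMonoidHom
          ≤ (Subgroup.closure ({a, (g : G) * a * (g : G)⁻¹} : Set G)).subgroupOf H := by
        rw [sup_le_iff, Subgroup.zpowers_le, MonoidHom.map_zpowers, Subgroup.zpowers_le]
        exact ⟨Subgroup.subset_closure (Or.inl rfl), Subgroup.subset_closure (Or.inr rfl)⟩
      exact hle x.2
    · exact Subtype.ext (Subtype.ext (congrArg (fun z : ↥(Subgroup.closure ({a, (g : G) * a * (g : G)⁻¹} : Set G)) => (z : G)) e))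

theorem not_comm (hp2 : p ≠ 2) {H K : Subgroup G} (f : ↥K →* Matrix.SpecialLinearGroup (Fin 2) (ZMod p))
    (hK : K ≤ H) (hf : Function.Surjective f) (T : Sylow 2 H) : ¬ IsMulCommutative T := by
  intro hT
  haveI : Fact (Nat.Prime 2) := ⟨Nat.prime_two⟩
  have hall : ∀ S : Sylow 2 H, IsMulCommutative S := fun S => ⟨⟨fun x y => (Sylow.equiv S T).injective (by
    rw [map_mul, map_mul]; exact hT.is_comm.comm _ _)⟩⟩
  let e := Subgroup.subgroupOfEquivOfLe hK
  exact CfsgLib.ActionPStable.slFree_of_abelian hp2 hall (K.subgroupOf H) (f.comp e.toMonoidHom) (hf.comp e.surjective)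

end CfsgLib.QuadSections
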