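import Cfsg.Agent.S0126
import Cfsg.Agent.Lib.CyclicMax
import Cfsg.Agent.Lib.GroupB.RankTwoOdd
import Cfsg.Agent.Lib.Thompson.Kegel
import Cfsg.Agent.Lib.PLocal.Elementary
import Cfsg.Agent.Lib.GroupB.CoprimeAbelian

/-! Normal elementary subgroups of order `p²` and the rank two commuting graph (owner helper5). -/

set_option autoImplicit false
set_option linter.style.haveILetI false

namespace CfsgLib.RankGraphSq

open scoped commutatorElement

universe u

variable {P : Type u} [Group P] [Finite P] {p : ℕ} [hp : Fact p.Prime]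

/-- A normal elementary subgroup of order at least `p²` contains a normal one of order `p²`. -/
theorem exists_normal_sq_le (hP : IsPGroup p P) {N : Subgroup P} (hN : N.Normal) (hNel : Cfsg.IsElementaryAbelian p N)
    (hc : p ^ 2 ≤ Nat.card ↥N) : ∃ U : Subgroup P, U.Normal ∧ Cfsg.IsElementaryAbelian p U ∧ Nat.card ↥U = p ^ 2 := by
  classical
  haveI := hN
  have hNb : N ≠ ⊥ := fun e => by
    rw [e, Subgroup.card_bot] at hc
    exact absurd hc (not_le.mpr (Nat.one_lt_pow two_ne_zero hp.out.one_lt))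
  obtain ⟨z, hzN, hz1, hzp, hzc⟩ := CfsgLib.ThompsonNPC.exists_central_of_normal hP N hNb
  set Z := Subgroup.zpowers z with hZ
  have hzord : orderOf z = p := orderOf_eq_prime hzp hz1
  haveI hZn : Z.Normal := ⟨fun x hx g => by
    obtain ⟨i, rfl⟩ := Subgroup.mem_zpowers_iff.mp hx
    rw [((show Commute g z from hzc g).zpow_right i).eq, mul_inv_cancel_right]; exact hx⟩
  have hNb' : N.map (QuotientGroup.mk' Z) ≠ ⊥ := fun e => by
    rw [Subgroup.map_eq_bot_iff, QuotientGroup.ker_mk'] at e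
    have h := Subgroup.card_le_of_le e
    rw [hZ, Nat.card_zpowers, hzord] at h
    exact absurd (hc.trans h) (not_le.mpr (lt_self_pow₀ hp.out.one_lt (by norm_num)))
  haveI : (N.map (QuotientGroup.mk' Z)).Normal := hN.map _ (QuotientGroup.mk'_surjective Z)
  obtain ⟨w', hw'N, hw'1, hw'p, hw'c⟩ := CfsgLib.ThompsonNPC.exists_central_of_normal (hP.to_quotient Z) (N.map (QuotientGroup.mk' Z)) hNb'
  obtain ⟨w, hwN, rfl⟩ := hw'N
  set U := Z ⊔ Subgroup.zpowers w with hU
  have hUN : U ≤ N := sup_le (Subgroup.zpowers_le.mpr hzN) (Subgroup.zpowers_le.mpr hwN)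
  have hUmap : U.map (QuotientGroup.mk' Z) = Subgroup.zpowers (QuotientGroup.mk' Z w) := by
    rw [hU, Subgroup.map_sup, MonoidHom.map_zpowers]
    rw [show QuotientGroup.mk' Z z = 1 from (QuotientGroup.eq_one_iff z).mpr (Subgroup.mem_zpowers z), Subgroup.zpowers_one_eq_bot, bot_sup_eq, MonoidHom.map_zpowers]
  refine ⟨U, ⟨fun u hu g => ?_⟩, CfsgLib.PLocal.el_mono hNel hUN, ?_⟩
  · have h1 : QuotientGroup.mk' Z (g * u * g⁻¹) = QuotientGroup.mk' Z u := by
      obtain ⟨i, hi⟩ : ∃ i : ℤ, QuotientGroup.mk' Z w ^ i = QuotientGroup.mk' Z u :=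
        Subgroup.mem_zpowers_iff.mp (hUmap ▸ ⟨u, hu, rfl⟩)
      rw [map_mul, map_mul, map_inv, ← hi, ((show Commute (QuotientGroup.mk' Z g) (QuotientGroup.mk' Z w) from hw'c _).zpow_right i).eq,
        mul_inv_cancel_right]
    have h2 : u⁻¹ * (g * u * g⁻¹) ∈ Z := QuotientGroup.eq.mp h1.symm
    have h3 := mul_mem hu (le_sup_left (a := Z) (b := Subgroup.zpowers w) h2 : u⁻¹ * (g * u * g⁻¹) ∈ U)
    rwa [mul_inv_cancel_left] at h3
  · have h1 := Subgroup.relIndex_ker (K := U) (QuotientGroup.mk' Z)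
    rw [QuotientGroup.ker_mk', hUmap, Nat.card_zpowers, orderOf_eq_prime hw'p hw'1] at h1
    have h2 := Subgroup.relIndex_mul_relIndex ⊥ Z U bot_le le_sup_left
    rw [Subgroup.relIndex_bot_left, Subgroup.relIndex_bot_left, h1, hZ, Nat.card_zpowers, hzord] at h2
    rw [← h2, pow_two]

/-- A group of rank greater than two has a normal elementary subgroup of order `p²`. -/
theorem exists_normal_sq (hP : IsPGroup p P) {E : Subgroup P} (hE : Cfsg.IsElementaryAbelian p E)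
    (hEc : p ^ 3 ≤ Nat.card ↥E) : ∃ U : Subgroup P, U.Normal ∧ Cfsg.IsElementaryAbelian p U ∧ Nat.card ↥U = p ^ 2 := by
  classical
  rcases eq_or_ne p 2 with hp2 | hp2
  swap
  · refine Cfsg.Agent.S0126.result hp2 hP fun hcy => ?_
    haveI := hcy
    haveI := Subgroup.isCyclic E
    obtain ⟨g, hg⟩ := IsCyclic.exists_generator (α := ↥E)
    have h1 : Nat.card ↥E = orderOf g := (orderOf_eq_card_of_forall_mem_zpowers hg).symm
    have h2 : orderOf g ≤ p := Nat.le_of_dvd hp.out.pos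
      (orderOf_dvd_of_pow_eq_one (Subtype.ext (by rw [SubgroupClass.coe_pow]; exact hE.2 g g.2)))
    exact absurd ((hEc.trans h1.le).trans h2) (not_le.mpr (lt_self_pow₀ hp.out.one_lt (by norm_num)))
  subst hp2
  obtain ⟨A, -, hA⟩ := Finite.exists_le_maximal (p := fun A : Subgroup P => A.Normal ∧ IsMulCommutative ↥A)
    (a := (⊥ : Subgroup P)) ⟨inferInstance, inferInstance⟩
  haveI := hA.1.1
  have hAab : ∀ a ∈ A, ∀ b ∈ A, a * b = b * a := fun a ha b hb =>
    congrArg Subtype.val (hA.1.2.is_comm.comm ⟨a, ha⟩ ⟨b, hb⟩)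
  by_cases hcy : IsCyclic ↥A
  swap
  · let N : Subgroup P :=
      { carrier := {a | a ∈ A ∧ a ^ 2 = 1}
        one_mem' := ⟨one_mem A, one_pow 2⟩
        mul_mem' := fun {a b} ha hb => ⟨mul_mem ha.1 hb.1, by
          rw [(show Commute a b from hAab a ha.1 b hb.1).mul_pow, ha.2, hb.2, one_mul]⟩
        inv_mem' := fun {a} ha => ⟨inv_mem ha.1, by rw [inv_pow, ha.2, inv_one]⟩ }
    have hNn : N.Normal := ⟨fun a ha g => ⟨hA.1.1.conj_mem a ha.1 g, by rw [conj_pow, ha.2, mul_one, mul_inv_cancel]⟩⟩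
    refine exists_normal_sq_le hP hNn ⟨⟨⟨fun a b => Subtype.ext (hAab a a.2.1 b b.2.1)⟩⟩, fun a ha => ha.2⟩ ?_
    by_contra hlt
    push Not at hlt
    apply hcy
    letI : CommGroup ↥A := { (inferInstance : Group ↥A) with mul_comm := fun a b => Subtype.ext (hAab a a.2 b b.2) }
    by_contra hncy
    obtain ⟨q, z, w, hq, hzq, hwq, hw1, hzw⟩ := CfsgLib.GroupB.CoprimeAbelian.exists_indep hncy
    obtain ⟨k, hk⟩ := (IsPGroup.iff_orderOf.mp (hP.to_subgroup A)) w
    have hwo : orderOf w = q := by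
      haveI := Fact.mk hq
      exact orderOf_eq_prime hwq hw1
    have hq2 : q = 2 := (Nat.prime_dvd_prime_iff_eq hq Nat.prime_two).mp (hq.dvd_of_dvd_pow (n := k) (by rw [← hk, hwo]))
    subst hq2
    have hwN : Subgroup.zpowers (w : P) ≤ N := Subgroup.zpowers_le.mpr ⟨w.2, congrArg Subtype.val hwq⟩
    obtain ⟨j, hj⟩ := (hP.to_subgroup N).exists_card_eq
    have heq : Subgroup.zpowers (w : P) = N := Subgroup.eq_of_le_of_card_ge hwN (by
      rw [Nat.card_zpowers, Subgroup.orderOf_coe, hwo, hj]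
      rcases Nat.lt_or_ge j 2 with hj2 | hj2
      · exact (Nat.pow_le_pow_right two_pos (Nat.le_of_lt_succ hj2)).trans (pow_one 2).le
      · exact absurd (hj ▸ Nat.pow_le_pow_right two_pos hj2) (not_le.mpr hlt))
    obtain ⟨i, hi⟩ := Subgroup.mem_zpowers_iff.mp (heq.ge (show (z : P) ∈ N from ⟨z.2, congrArg Subtype.val hzq⟩))
    exact hzw (Subgroup.mem_zpowers_iff.mpr ⟨i, Subtype.ext (by rw [SubgroupClass.coe_zpow]; exact hi)⟩)
  -- the maximal normal abelian subgroup is cyclic and self-centralising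
  by_contra hno
  have hnone : ¬ ∃ U : Subgroup P, U.Normal ∧ Cfsg.IsElementaryAbelian 2 U ∧ 2 ^ 2 ≤ Nat.card ↥U := by
    rintro ⟨U, h1, h2, h3⟩
    exact hno (exists_normal_sq_le hP h1 h2 h3)
  set C := Subgroup.centralizer (A : Set P) with hC
  have hCA : C ≤ A := by
    by_contra hne
    have hCb : C.map (QuotientGroup.mk' A) ≠ ⊥ := fun e => hne (by rwa [Subgroup.map_eq_bot_iff, QuotientGroup.ker_mk'] at e)
    haveI : C.Normal := inferInstance
    haveI : (C.map (QuotientGroup.mk' A)).Normal := Subgroup.Normal.map inferInstance _ (QuotientGroup.mk'_surjective A)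
    obtain ⟨c', hc'C, hc'1, -, hc'c⟩ := CfsgLib.ThompsonNPC.exists_central_of_normal (hP.to_quotient A) (C.map (QuotientGroup.mk' A)) hCb
    obtain ⟨c, hc, rfl⟩ := hc'C
    have hnorm : (A ⊔ Subgroup.zpowers c).Normal := ⟨fun u hu g => by
      have hmap : (A ⊔ Subgroup.zpowers c).map (QuotientGroup.mk' A) ≤ Subgroup.zpowers (QuotientGroup.mk' A c) := by
        rw [Subgroup.map_sup, MonoidHom.map_zpowers]
        exact sup_le (((Subgroup.map_eq_bot_iff A).mpr (by rw [QuotientGroup.ker_mk'])).le.trans bot_le) le_rfl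
      obtain ⟨i, hi⟩ := Subgroup.mem_zpowers_iff.mp (hmap ⟨u, hu, rfl⟩)
      have h1 : QuotientGroup.mk' A (g * u * g⁻¹) = QuotientGroup.mk' A u := by
        rw [map_mul, map_mul, map_inv, ← hi, ((show Commute (QuotientGroup.mk' A g) (QuotientGroup.mk' A c) from hc'c _).zpow_right i).eq,
          mul_inv_cancel_right]
      have h2 : u⁻¹ * (g * u * g⁻¹) ∈ A := QuotientGroup.eq.mp h1.symm
      have h3 := mul_mem hu (le_sup_left (a := A) (b := Subgroup.zpowers c) h2 : u⁻¹ * (g * u * g⁻¹) ∈ A ⊔ Subgroup.zpowers c)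
      rwa [mul_inv_cancel_left] at h3⟩
    have hab : IsMulCommutative ↥(A ⊔ Subgroup.zpowers c) := by
      have hle : A ⊔ Subgroup.zpowers c ≤ Subgroup.centralizer ((A ⊔ Subgroup.zpowers c : Subgroup P) : Set P) := by
        refine sup_le (Subgroup.le_centralizer_iff.mp (sup_le (fun a ha b hb => hAab b hb a ha) ?_))
          (Subgroup.le_centralizer_iff.mp (sup_le ?_ ?_))
        · exact Subgroup.zpowers_le.mpr hc
        · exact fun a ha b hb => by
            obtain ⟨i, rfl⟩ := Subgroup.mem_zpowers_iff.mp hb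
            exact ((show Commute a c from hc a ha).zpow_right i).eq.symm
        · rintro a ha b hb
          obtain ⟨i, rfl⟩ := Subgroup.mem_zpowers_iff.mp ha
          obtain ⟨j, rfl⟩ := Subgroup.mem_zpowers_iff.mp hb
          rw [← zpow_add, ← zpow_add, add_comm]
      exact ⟨⟨fun a b => Subtype.ext (hle b.2 a a.2)⟩⟩
    have hle := hA.2 ⟨hnorm, hab⟩ le_sup_left
    exact hc'1 ((QuotientGroup.eq_one_iff c).mpr (hle (Subgroup.mem_sup_right (Subgroup.mem_zpowers c))))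
  obtain ⟨x, hx⟩ := IsCyclic.exists_generator (α := ↥A)
  obtain ⟨n, hn⟩ := (hP.to_subgroup A).exists_card_eq
  have hxord : orderOf (x : P) = 2 ^ n := by
    rw [Subgroup.orderOf_coe, ← hn]; exact orderOf_eq_card_of_forall_mem_zpowers hx
  have hxA : ∀ a ∈ A, ∃ i : ℤ, (x : P) ^ i = a := fun a ha => by
    obtain ⟨i, hi⟩ := Subgroup.mem_zpowers_iff.mp (hx ⟨a, ha⟩)
    exact ⟨i, congrArg Subtype.val hi⟩
  have hcomA : ∀ g : P, g * x * g⁻¹ = (x : P) → g ∈ A := fun g hg => hCA fun a ha => by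
    obtain ⟨i, rfl⟩ := hxA a ha
    exact (((show Commute g (x : P) from mul_inv_eq_iff_eq_mul.mp hg).zpow_right i).eq).symm
  choose r hr using fun e : ↥E => hxA _ (hA.1.1.conj_mem x x.2 e)
  have hz : ∀ i j : ℤ, (x : P) ^ i = (x : P) ^ j ↔ (2 : ℤ) ^ n ∣ i - j := fun i j => by
    rw [zpow_eq_zpow_iff_modEq, hxord, Int.modEq_iff_dvd, Nat.cast_pow, Nat.cast_ofNat, ← dvd_neg, neg_sub]
  have hEc' : ∀ a ∈ E, ∀ b ∈ E, a * b = b * a := fun a ha b hb =>
    congrArg Subtype.val (hE.1.is_comm.comm ⟨a, ha⟩ ⟨b, hb⟩)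
  have hr2 : ∀ e : ↥E, (2 : ℤ) ^ n ∣ r e ^ 2 - 1 := fun e => by
    refine (hz _ _).mp ?_
    have h2 : (e : P) * (e : P) = 1 := by rw [← pow_two]; exact hE.2 e e.2
    calc (x : P) ^ (r e ^ 2) = ((x : P) ^ r e) ^ r e := by rw [pow_two, zpow_mul]
      _ = ((e : P) * x * (e : P)⁻¹) ^ r e := by rw [← hr e]
      _ = (e : P) * ((x : P) ^ r e) * (e : P)⁻¹ := conj_zpow
      _ = ((e : P) * e) * x * ((e : P) * e)⁻¹ := by rw [hr e]; group
      _ = (x : P) ^ (1 : ℤ) := by rw [h2, one_mul, inv_one, mul_one, zpow_one]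
  -- few cosets of `E ⊓ A`
  have hEA : Nat.card ↥(E ⊓ A) ≤ 2 := by
    haveI : IsCyclic ↥(E ⊓ A) := isCyclic_of_injective (Subgroup.inclusion (inf_le_right : E ⊓ A ≤ A)) (Subgroup.inclusion_injective _)
    obtain ⟨g, hg⟩ := IsCyclic.exists_generator (α := ↥(E ⊓ A))
    rw [← orderOf_eq_card_of_forall_mem_zpowers hg]
    exact Nat.le_of_dvd two_pos (orderOf_dvd_of_pow_eq_one (Subtype.ext (by
      rw [SubgroupClass.coe_pow]; exact hE.2 g (Subgroup.mem_inf.mp g.2).1)))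
  have hn2 : n ≤ 1 → False := fun hn1 => by
    have hall : E ≤ A := fun e he => hcomA e (by
      rw [← hr ⟨e, he⟩]
      conv_rhs => rw [← zpow_one (x : P)]
      rw [hz]
      interval_cases n
      · simp
      · have h := hr2 ⟨e, he⟩
        rcases Int.even_or_odd (r ⟨e, he⟩) with ⟨k, hk⟩ | ⟨k, hk⟩
        · exfalso; rw [hk] at h; obtain ⟨c, hc⟩ := h; ring_nf at hc; omega
        · exact ⟨k, by rw [hk]; ring⟩)
    rw [inf_eq_left.mpr hall] at hEA
    norm_num at hEc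
    omega
  by_cases hn1 : n ≤ 1
  · exact hn2 hn1
  push Not at hn1
  obtain ⟨m, rfl⟩ : ∃ m, n = m + 2 := ⟨n - 2, by omega⟩
  set M : ℤ := 2 ^ (m + 1) with hM
  have hcases : ∀ e : ↥E, (x : P) ^ r e = (x : P) ^ (1 : ℤ) ∨ (x : P) ^ r e = (x : P) ^ (1 + M) ∨
      (x : P) ^ r e = (x : P) ^ (-1 : ℤ) ∨ (x : P) ^ r e = (x : P) ^ (-1 + M) := fun e => by
    have h2M : (2 : ℤ) ^ (m + 2) = 2 * M := by rw [hM, pow_succ]; ring
    rcases CfsgLib.CyclicMax.sq_root_two (by omega) (hr2 e) with h | h <;>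
      rw [show m + 2 - 1 = m + 1 by omega, ← hM] at h <;> obtain ⟨c, hc⟩ := h <;>
      rcases Int.even_or_odd c with ⟨d, rfl⟩ | ⟨d, rfl⟩
    · exact Or.inl ((hz _ _).mpr ⟨d, by rw [h2M]; linear_combination hc⟩)
    · exact Or.inr (Or.inl ((hz _ _).mpr ⟨d, by rw [h2M]; linear_combination hc⟩))
    · exact Or.inr (Or.inr (Or.inl ((hz _ _).mpr ⟨d, by rw [h2M]; linear_combination hc⟩)))
    · exact Or.inr (Or.inr (Or.inr ((hz _ _).mpr ⟨d, by rw [h2M]; linear_combination hc⟩)))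
  -- some element acts as `1 + M`
  have hex : ∃ e : ↥E, (x : P) ^ r e = (x : P) ^ (1 + M) ∧ (x : P) ^ r e ≠ (x : P) ^ (1 : ℤ) ∧ 0 < m := by
    by_contra hall
    push Not at hall
    let f : ↥E → Bool := fun e => decide ((x : P) ^ r e = (x : P) ^ (1 : ℤ))
    have hsame : ∀ a b : ↥E, (x : P) ^ r a = (x : P) ^ r b → (a : P)⁻¹ * b ∈ E ⊓ A := fun a b h =>
      Subgroup.mem_inf.mpr ⟨mul_mem (inv_mem a.2) b.2, hcomA _ (by
        calc (a : P)⁻¹ * b * x * ((a : P)⁻¹ * b)⁻¹ = (a : P)⁻¹ * ((b : P) * x * (b : P)⁻¹) * a := by group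
          _ = (a : P)⁻¹ * ((a : P) * x * (a : P)⁻¹) * a := by rw [← hr b, ← h, hr a]
          _ = x := by group)⟩
    have hprod : ∀ a b : ↥E, (x : P) ^ r a = (x : P) ^ (-1 : ℤ) → (x : P) ^ r b = (x : P) ^ (-1 + M) →
        (x : P) ^ r (a * b) = (x : P) ^ (1 - M) := fun a b h1 h2 => by
      rw [hr (a * b)]
      calc ((a * b : ↥E) : P) * x * ((a * b : ↥E) : P)⁻¹ = (a : P) * ((b : P) * x * (b : P)⁻¹) * (a : P)⁻¹ := by
            rw [Subgroup.coe_mul]; group
        _ = (a : P) * (x : P) ^ (-1 + M) * (a : P)⁻¹ := by rw [← hr b, h2]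
        _ = ((a : P) * x * (a : P)⁻¹) ^ (-1 + M) := conj_zpow.symm
        _ = (x : P) ^ (1 - M) := by rw [← hr a, h1, ← zpow_mul]; congr 1; ring
    -- at most two kinds
    have hkinds : ∀ a b c : ↥E, (x : P) ^ r a = (x : P) ^ r b ∨ (x : P) ^ r a = (x : P) ^ r c ∨ (x : P) ^ r b = (x : P) ^ r c := by
      have hno : ∀ a b : ↥E, (x : P) ^ r a = (x : P) ^ (-1 : ℤ) → (x : P) ^ r b = (x : P) ^ (-1 + M) ∧ 0 < m →
          (x : P) ^ (-1 : ℤ) = (x : P) ^ (-1 + M) := fun a b h1 ⟨h2, hm0⟩ => by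
        have h3 := hprod a b h1 h2
        have hM2 : (x : P) ^ (1 - M) = (x : P) ^ (1 + M) := (hz _ _).mpr ⟨-1, by rw [hM, pow_succ (2 : ℤ) (m + 1)]; ring⟩
        have h4 : (x : P) ^ r (a * b) = (x : P) ^ (1 : ℤ) := by
          by_contra hne
          exact absurd (hall (a * b) (h3.trans hM2) hne) (by omega)
        rw [h3] at h4
        refine (hz _ _).mpr ?_
        have h5 := (hz _ _).mp h4
        rwa [show (1 : ℤ) - M - 1 = -1 - (-1 + M) by ring] at h5
      intro a b c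
      have h3 : ∀ e : ↥E, (x : P) ^ r e = (x : P) ^ (1 : ℤ) ∨ (x : P) ^ r e = (x : P) ^ (-1 : ℤ) ∨
          ((x : P) ^ r e = (x : P) ^ (-1 + M) ∧ 0 < m) := fun e => by
        rcases hcases e with h | h | h | h
        · exact Or.inl h
        · by_cases h1 : (x : P) ^ r e = (x : P) ^ (1 : ℤ)
          · exact Or.inl h1
          · have hm0 : m = 0 := Nat.le_zero.mp (hall e h h1)
            subst hm0
            exact Or.inr (Or.inl (h.trans ((hz _ _).mpr ⟨1, by rw [hM]; norm_num⟩)))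
        · exact Or.inr (Or.inl h)
        · rcases Nat.eq_zero_or_pos m with hm0 | hm0
          · subst hm0
            exact Or.inl (h.trans ((hz _ _).mpr ⟨0, by rw [hM]; norm_num⟩))
          · exact Or.inr (Or.inr ⟨h, hm0⟩)
      rcases h3 a with ha | ha | ha <;> rcases h3 b with hb | hb | hb <;> rcases h3 c with hc | hc | hc <;>
        first
        | exact Or.inl (ha.1.trans hb.1.symm)
        | exact Or.inr (Or.inl (ha.1.trans hc.1.symm))
        | exact Or.inr (Or.inr (hb.1.trans hc.1.symm))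
        | exact Or.inl (ha.trans hb.symm)
        | exact Or.inr (Or.inl (ha.trans hc.symm))
        | exact Or.inr (Or.inr (hb.trans hc.symm))
        | exact Or.inl ((ha.trans (hno a b ha hb)).trans hb.1.symm)
        | exact Or.inl ((hb.trans (hno b a hb ha)).trans ha.1.symm).symm
        | exact Or.inr (Or.inl ((ha.trans (hno a c ha hc)).trans hc.1.symm))
        | exact Or.inr (Or.inl ((hc.trans (hno c a hc ha)).trans ha.1.symm).symm)
        | exact Or.inr (Or.inr ((hb.trans (hno b c hb hc)).trans hc.1.symm))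
        | exact Or.inr (Or.inr ((hc.trans (hno c b hc hb)).trans hb.1.symm).symm)
    -- count
    have hcard : (E ⊓ A).relIndex E ≤ 2 := by
      by_contra h3
      push Not at h3
      set I := (E ⊓ A).subgroupOf E
      have h3' : 2 < Nat.card (↥E ⧸ I) := h3
      haveI : Fintype (↥E ⧸ I) := Fintype.ofFinite _
      rw [Nat.card_eq_fintype_card] at h3'
      obtain ⟨a, b, c, hab, hac, hbc⟩ := Fintype.two_lt_card_iff.mp h3'
      have hmk : ∀ u v : ↥E ⧸ I, (x : P) ^ r u.out = (x : P) ^ r v.out → u = v := fun u v h => by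
        rw [← QuotientGroup.out_eq' u, ← QuotientGroup.out_eq' v]
        exact QuotientGroup.eq.mpr (Subgroup.mem_subgroupOf.mpr (hsame _ _ h))
      rcases hkinds a.out b.out c.out with h | h | h
      exacts [hab (hmk _ _ h), hac (hmk _ _ h), hbc (hmk _ _ h)]
    have h4 := Subgroup.relIndex_mul_relIndex ⊥ (E ⊓ A) E bot_le inf_le_left
    rw [Subgroup.relIndex_bot_left, Subgroup.relIndex_bot_left] at h4
    have h5 : Nat.card ↥E ≤ 2 * 2 := h4 ▸ Nat.mul_le_mul hEA hcard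
    norm_num at hEc
    omega
  obtain ⟨e, he, he1, hm0⟩ := hex
  have hec : ∀ a ∈ A, ∃ i : ℤ, a = (x : P) ^ i ∧ (e : P) * a * (e : P)⁻¹ = (x : P) ^ ((1 + M) * i) := fun a ha => by
    obtain ⟨i, rfl⟩ := hxA a ha
    exact ⟨i, rfl, by rw [← conj_zpow, ← hr e, he, zpow_mul]⟩
  set z := (x : P) ^ M with hzdef
  have hz2 : z ^ 2 = 1 := by
    rw [hzdef, ← zpow_natCast, ← zpow_mul, ← zpow_zero (x : P), hz]
    exact ⟨1, by rw [hM, pow_succ (2 : ℤ) (m + 1)]; push_cast; ring⟩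
  have hze : (e : P) * z = z * e := by
    refine mul_inv_eq_iff_eq_mul.mp ?_
    rw [hzdef, ← conj_zpow, ← hr e, he, ← zpow_mul, hz]
    exact ⟨2 ^ m, by rw [hM]; ring⟩
  set U := Subgroup.closure ({z, (e : P)} : Set P) with hUdef
  have hUel : Cfsg.IsElementaryAbelian 2 U := by
    have h1 : Cfsg.IsElementaryAbelian 2 (Subgroup.zpowers z) := CfsgLib.PLocal.el_zpowers hz2
    have h2 : Cfsg.IsElementaryAbelian 2 (Subgroup.zpowers (e : P)) := CfsgLib.PLocal.el_zpowers (hE.2 e e.2)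
    refine CfsgLib.PLocal.el_mono (CfsgLib.PLocal.el_sup h1 h2 fun a ha b hb => ?_) ?_
    · obtain ⟨i, rfl⟩ := Subgroup.mem_zpowers_iff.mp ha
      obtain ⟨j, rfl⟩ := Subgroup.mem_zpowers_iff.mp hb
      exact ((show Commute z (e : P) from hze.symm).zpow_zpow i j).eq
    · rw [hUdef, Subgroup.closure_le]
      rintro y (rfl | rfl)
      · exact Subgroup.mem_sup_left (Subgroup.mem_zpowers _)
      · exact Subgroup.mem_sup_right (Subgroup.mem_zpowers _)
  -- the subgroup is normal, against the choice of the cyclic subgroup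
  have hzU : ∀ i : ℤ, (x : P) ^ (M * i) ∈ U := fun i => by
    rw [zpow_mul]; exact zpow_mem (show z ∈ U from Subgroup.subset_closure (Or.inl rfl)) i
  have hconjx : ∀ g : P, ∃ s : ℤ, g * x * g⁻¹ = (x : P) ^ s := fun g => by
    obtain ⟨s, hs⟩ := hxA _ (hA.1.1.conj_mem x x.2 g); exact ⟨s, hs.symm⟩
  have hUn : ∀ g : P, g * (e : P) * g⁻¹ ∈ U := by
    intro g
    obtain ⟨s, hs⟩ := hconjx g⁻¹
    rw [inv_inv] at hs
    set f := g * (e : P) * g⁻¹
    have hfa : f * x * f⁻¹ = (x : P) ^ (1 + M) := by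
      calc f * x * f⁻¹ = g * ((e : P) * (g⁻¹ * x * g) * (e : P)⁻¹) * g⁻¹ := by simp only [f]; group
        _ = g * ((x : P) ^ s) ^ (1 + M) * g⁻¹ := by rw [hs, ← conj_zpow, ← hr e, he, ← zpow_mul, ← zpow_mul, mul_comm]
        _ = (g * (x : P) ^ s * g⁻¹) ^ (1 + M) := conj_zpow.symm
        _ = (x : P) ^ (1 + M) := by rw [← hs]; group
    have hmem : (e : P)⁻¹ * f ∈ A := hcomA _ (by
      calc (e : P)⁻¹ * f * x * ((e : P)⁻¹ * f)⁻¹ = (e : P)⁻¹ * (f * x * f⁻¹) * e := by group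
        _ = (e : P)⁻¹ * ((e : P) * x * (e : P)⁻¹) * e := by rw [hfa, ← hr e, he]
        _ = x := by group)
    obtain ⟨i, hi, hi'⟩ := hec _ hmem
    have hee : (e : P) * e = 1 := by rw [← pow_two]; exact hE.2 e e.2
    have hf2 : f * f = 1 := by
      simp only [f]
      rw [show g * (e : P) * g⁻¹ * (g * e * g⁻¹) = g * ((e : P) * e) * g⁻¹ by group, hee]; group
    have hfe : f = (e : P) * (x : P) ^ i := by rw [← hi]; group
    have h0 : (x : P) ^ ((1 + M) * i + i) = (x : P) ^ (0 : ℤ) := by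
      rw [zpow_add, ← hi', hi, zpow_zero, ← hf2, hfe]
      have he' : (e : P)⁻¹ = e := inv_eq_of_mul_eq_one_right hee
      rw [he']; group
    obtain ⟨c, hc⟩ := (hz _ _).mp h0
    have hiM : M ∣ i := by
      have h2M : (2 : ℤ) ^ (m + 2) = 2 * M := by rw [hM, pow_succ]; ring
      rw [h2M] at hc
      have h1 : i * (1 + 2 ^ m) = M * c := by
        have : 2 * (i * (1 + 2 ^ m)) = 2 * (M * c) := by rw [hM] at hc ⊢; linear_combination hc
        linarith
      have hcop : IsCoprime M (1 + 2 ^ m) := by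
        rw [hM]; refine IsCoprime.pow_left ?_
        exact ⟨-2 ^ (m - 1), 1, by
          obtain ⟨k, rfl⟩ : ∃ k, m = k + 1 := ⟨m - 1, by omega⟩
          simp [pow_succ]⟩
      exact hcop.dvd_of_dvd_mul_right ⟨c, h1⟩
    obtain ⟨d, rfl⟩ := hiM
    rw [hfe]
    exact mul_mem (Subgroup.subset_closure (Or.inr rfl)) (hzU d)
  haveI hUnorm : U.Normal := ⟨fun u hu g => by
    have hle : U ≤ U.comap (MulAut.conj g).toMonoidHom := by
      rw [hUdef, Subgroup.closure_le]
      rintro y (rfl | rfl)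
      · obtain ⟨s, hs⟩ := hconjx g
        show g * (x : P) ^ M * g⁻¹ ∈ U
        rw [← conj_zpow, hs, ← zpow_mul, mul_comm]
        exact hzU s
      · exact hUn g
    exact hle hu⟩
  have hU4 : 2 ^ 2 ≤ Nat.card ↥U := by
    by_contra hlt
    push Not at hlt
    obtain ⟨k, hk⟩ := (CfsgLib.PLocal.el_isPGroup hUel).exists_card_eq
    have hk1 : k ≤ 1 := by
      by_contra h2
      rw [hk] at hlt
      exact absurd (Nat.pow_le_pow_right two_pos (by omega : 2 ≤ k)) (not_le.mpr hlt)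
    have hz1 : z ≠ 1 := fun h => he1 (by rw [he, zpow_add, ← hzdef, h, mul_one])
    have hzU' : Subgroup.zpowers z ≤ U := Subgroup.zpowers_le.mpr (Subgroup.subset_closure (Or.inl rfl))
    have heq : Subgroup.zpowers z = U := Subgroup.eq_of_le_of_card_ge hzU' (by
      rw [hk, Nat.card_zpowers, orderOf_eq_prime hz2 hz1]
      exact (Nat.pow_le_pow_right two_pos hk1).trans (pow_one 2).le)
    have heA : (e : P) ∈ A := (Subgroup.zpowers_le.mpr (zpow_mem x.2 M) : Subgroup.zpowers z ≤ A)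
      (heq.ge (Subgroup.subset_closure (Or.inr rfl)))
    refine he1 ?_
    rw [hr e, hAab _ heA _ x.2, mul_inv_cancel_right, zpow_one]
  exact hnone ⟨U, hUnorm, hUel, hU4⟩

end CfsgLib.RankGraphSq

namespace CfsgLib.RankGraphSq

universe v

variable {P : Type v} [Group P] [Finite P] {p : ℕ} [hp : Fact p.Prime]

/-- Adjacency in the rank two commuting graph. -/
abbrev Adj (p : ℕ) (A B : Subgroup P) : Prop :=
  Cfsg.IsElementaryAbelian p A ∧ p ^ 2 ≤ Nat.card ↥A ∧ Cfsg.IsElementaryAbelian p B ∧ p ^ 2 ≤ Nat.card ↥B ∧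
    ∀ a ∈ A, ∀ b ∈ B, a * b = b * a

theorem Adj.symm' {A B : Subgroup P} (h : Adj p A B) : Adj p B A :=
  ⟨h.2.2.1, h.2.2.2.1, h.1, h.2.1, fun b hb a ha => (h.2.2.2.2 a ha b hb).symm⟩

theorem exists_large {H : Subgroup P} (hP : IsPGroup p P) (h : ¬ Cfsg.PRankLE p 2 ↥H) :
    ∃ Y : Subgroup P, Y ≤ H ∧ Cfsg.IsElementaryAbelian p Y ∧ p ^ 3 ≤ Nat.card ↥Y := by
  unfold Cfsg.PRankLE at h
  push Not at h
  obtain ⟨B, hBc, hBe, hBn⟩ := h
  refine ⟨B.map H.subtype, Subgroup.map_subtype_le B, CfsgLib.PLocal.el_map H.subtype ⟨hBc, hBe⟩, ?_⟩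
  rw [Subgroup.card_map_of_injective H.subtype_injective]
  obtain ⟨k, hk⟩ := ((hP.to_subgroup H).to_subgroup B).exists_card_eq
  rw [hk] at hBn ⊢
  refine Nat.pow_le_pow_right hp.out.pos ?_
  by_contra hlt
  exact absurd hBn (not_lt.mpr (Nat.pow_le_pow_right hp.out.pos (by omega)))

theorem not_rankLE {H Y : Subgroup P} (hYH : Y ≤ H) (hY : Cfsg.IsElementaryAbelian p Y) (hc : p ^ 2 < Nat.card ↥Y) :
    ¬ Cfsg.PRankLE p 2 ↥H := fun h => by
  have h' := CfsgLib.PLocal.el_comap H.subtype H.subtype_injective hY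
  have := h _ h'.1 h'.2
  rw [← Subgroup.subgroupOf, Nat.card_congr (Subgroup.subgroupOfEquivOfLe hYH).toEquiv] at this
  omega

/-- The normal subgroup of order `p²` and its component. -/
theorem component (hP : IsPGroup p P) (hrk : ¬ Cfsg.PRankLE p 2 P) : ∃ U : Subgroup P, U.Normal ∧
    Cfsg.IsElementaryAbelian p U ∧ Nat.card ↥U = p ^ 2 ∧ ∀ X : Subgroup P, Cfsg.IsElementaryAbelian p X →
      p ^ 2 ≤ Nat.card ↥X → (Relation.ReflTransGen (Adj p) X U ↔
        ¬ Cfsg.PRankLE p 2 ↥(Subgroup.centralizer (X : Set P))) := by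
  classical
  obtain ⟨E, hE, hE3⟩ : ∃ E : Subgroup P, Cfsg.IsElementaryAbelian p E ∧ p ^ 3 ≤ Nat.card ↥E := by
    obtain ⟨Y, -, hY, hY3⟩ := exists_large (H := (⊤ : Subgroup P)) hP (fun h => hrk fun A hAc hAe => by
      have hA : Cfsg.IsElementaryAbelian p A := ⟨hAc, hAe⟩
      by_contra hlt
      exact not_rankLE (le_top : A ≤ ⊤) hA (not_le.mp hlt) h)
    exact ⟨Y, hY, hY3⟩
  obtain ⟨U, hUn, hUel, hUc⟩ := exists_normal_sq hP hE hE3
  have hidx : (Subgroup.centralizer (U : Set P)).index ≤ p :=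
    (CfsgLib.GroupB.RankTwoOdd.normal_sq hP hUn hUel.1 hUc).2.1
  haveI := hUn
  haveI : (Subgroup.centralizer (U : Set P)).Normal := inferInstance
  have hmeet : ∀ Y : Subgroup P, p ^ 3 ≤ Nat.card ↥Y → p ^ 2 ≤ Nat.card ↥(Y ⊓ Subgroup.centralizer (U : Set P)) := by
    intro Y hY
    have h1 := Subgroup.relIndex_mul_relIndex ⊥ (Y ⊓ Subgroup.centralizer (U : Set P)) Y bot_le inf_le_left
    rw [Subgroup.relIndex_bot_left, Subgroup.relIndex_bot_left, Subgroup.inf_relIndex_left] at h1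
    have h2 : (Subgroup.centralizer (U : Set P)).relIndex Y ≤ p := (Nat.le_of_dvd
      (Nat.pos_of_ne_zero Subgroup.index_ne_zero_of_finite) (Subgroup.relIndex_dvd_index_of_normal _ Y)).trans hidx
    refine Nat.le_of_mul_le_mul_right ?_ hp.out.pos
    calc p ^ 2 * p = p ^ 3 := by ring
      _ ≤ Nat.card ↥Y := hY
      _ ≤ _ := h1 ▸ Nat.mul_le_mul le_rfl h2
  refine ⟨U, hUn, hUel, hUc, fun X hX hX2 => ⟨fun hch => ?_, fun hr => ?_⟩⟩
  · by_contra hsmall
    have key : ∀ Z, Relation.ReflTransGen (Adj p) X Z → Z = X := by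
      intro Z hZ
      induction hZ with
      | refl => rfl
      | @tail B C _ hBC ihB =>
        obtain ⟨-, -, hC, hC2, hcomm⟩ := hBC
        rw [ihB] at hcomm
        have hsup := CfsgLib.PLocal.el_sup hX hC hcomm
        have hle : X ⊔ C ≤ Subgroup.centralizer (X : Set P) := sup_le
          (fun a ha b hb => congrArg Subtype.val (hX.1.is_comm.comm ⟨b, hb⟩ ⟨a, ha⟩))
          (fun c hc b hb => hcomm b hb c hc)
        have hcard : Nat.card ↥(X ⊔ C) ≤ p ^ 2 := by
          by_contra hlt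
          exact not_rankLE hle hsup (not_le.mp hlt) hsmall
        have h1 : X = X ⊔ C := Subgroup.eq_of_le_of_card_ge le_sup_left (hcard.trans hX2)
        exact Subgroup.eq_of_le_of_card_ge (h1 ▸ le_sup_right) ((Subgroup.card_le_of_le le_sup_left).trans (hcard.trans hC2))
    have hUX := key U hch
    subst hUX
    set W := E ⊓ Subgroup.centralizer (U : Set P) with hW
    have hsup := CfsgLib.PLocal.el_sup (CfsgLib.PLocal.el_mono hE (inf_le_left : W ≤ E)) hUel
      (fun a ha b hb => ((Subgroup.mem_inf.mp ha).2 b hb).symm)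
    have hle : W ⊔ U ≤ Subgroup.centralizer (U : Set P) := sup_le inf_le_right
      (fun a ha b hb => congrArg Subtype.val (hUel.1.is_comm.comm ⟨b, hb⟩ ⟨a, ha⟩))
    have hcard : Nat.card ↥(W ⊔ U) ≤ p ^ 2 := by
      by_contra hlt
      exact not_rankLE hle hsup (not_le.mp hlt) hsmall
    have h1 : U = W ⊔ U := Subgroup.eq_of_le_of_card_ge le_sup_right (hcard.trans hUc.ge)
    have h2 : W = U := Subgroup.eq_of_le_of_card_ge (h1 ▸ le_sup_left) (hUc.le.trans (hmeet E hE3))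
    have hEU : E ≤ Subgroup.centralizer (U : Set P) := fun a ha b hb =>
      congrArg Subtype.val (hE.1.is_comm.comm ⟨b, (h2.ge hb).1⟩ ⟨a, ha⟩)
    exact not_rankLE hEU hE (lt_of_lt_of_le (Nat.pow_lt_pow_right hp.out.one_lt (by norm_num)) hE3) hsmall
  · obtain ⟨Y, hYC, hY, hY3⟩ := exists_large hP hr
    have hY2 : p ^ 2 ≤ Nat.card ↥Y := (Nat.pow_le_pow_right hp.out.pos (by norm_num)).trans hY3
    refine Relation.ReflTransGen.head (b := Y) ⟨hX, hX2, hY, hY2, fun a ha b hb => hYC hb a ha⟩ ?_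
    refine Relation.ReflTransGen.head (b := Y ⊓ Subgroup.centralizer (U : Set P))
      ⟨hY, hY2, CfsgLib.PLocal.el_mono hY inf_le_left, hmeet Y hY3, fun a ha b hb =>
        congrArg Subtype.val (hY.1.is_comm.comm ⟨a, ha⟩ ⟨b, (Subgroup.mem_inf.mp hb).1⟩)⟩ ?_
    exact Relation.ReflTransGen.single ⟨CfsgLib.PLocal.el_mono hY inf_le_left, hmeet Y hY3, hUel, hUc.ge,
      fun a ha b hb => ((Subgroup.mem_inf.mp ha).2 b hb).symm⟩

end CfsgLib.RankGraphSq
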