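import Mathlib

/-! Normal subgroups of linear groups that are transitive on non-zero vectors. -/

set_option autoImplicit false

namespace CfsgLib.RegularLinear

variable {p : ℕ} [Fact p.Prime] {V : Type*} [AddCommGroup V] [Module (ZMod p) V]
variable {H : Subgroup (V ≃ₗ[ZMod p] V)}

/-- The endomorphism given by a group element. -/
def L : ↥H →* Module.End (ZMod p) V where
  toFun h := ((h : V ≃ₗ[ZMod p] V) : V →ₗ[ZMod p] V)
  map_one' := rfl
  map_mul' _ _ := rfl

theorem L_injective : Function.Injective (L (H := H)) := fun a b h =>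
  Subtype.ext (LinearEquiv.toLinearMap_injective h)

/-- Transitivity on non-zero vectors. -/
def Trans (H : Subgroup (V ≃ₗ[ZMod p] V)) : Prop :=
  ∀ v w : V, v ≠ 0 → w ≠ 0 → ∃ h : ↥H, L h v = w

/-- Invariance of a subspace. -/
def Inv (B : Subgroup ↥H) (W : Submodule (ZMod p) V) : Prop := ∀ b ∈ B, ∀ v ∈ W, L b v ∈ W

/-- A minimal invariant subspace. -/
def Min (B : Subgroup ↥H) (W : Submodule (ZMod p) V) : Prop :=
  W ≠ ⊥ ∧ Inv B W ∧ ∀ W' : Submodule (ZMod p) V, W' ≤ W → Inv B W' → W' = ⊥ ∨ W' = W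

/-- The algebra spanned by a subgroup. -/
def Alg (B : Subgroup ↥H) : Subalgebra (ZMod p) (Module.End (ZMod p) V) :=
  Algebra.adjoin (ZMod p) (L '' (B : Set ↥H))

theorem L_mem {B : Subgroup ↥H} {b : ↥H} (hb : b ∈ B) : L b ∈ Alg B :=
  Algebra.subset_adjoin ⟨b, hb, rfl⟩

theorem alg_inv {B : Subgroup ↥H} {W : Submodule (ZMod p) V} (hW : Inv B W) :
    ∀ r ∈ Alg B, ∀ v ∈ W, r v ∈ W := by
  intro r hr
  induction hr using Algebra.adjoin_induction with
  | mem x hx => obtain ⟨b, hb, rfl⟩ := hx; exact hW b hb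
  | algebraMap c => intro v hv; exact W.smul_mem c hv
  | add x y _ _ hx hy => intro v hv; exact W.add_mem (hx v hv) (hy v hv)
  | mul x y _ _ hx hy => intro v hv; exact hx _ (hy v hv)

theorem alg_comm {B : Subgroup ↥H} {s : Module.End (ZMod p) V} (h : ∀ b ∈ B, L b * s = s * L b) :
    ∀ r ∈ Alg B, r * s = s * r := by
  intro r hr
  induction hr using Algebra.adjoin_induction with
  | mem x hx => obtain ⟨b, hb, rfl⟩ := hx; exact h b hb
  | algebraMap c => exact Algebra.commutes c s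
  | add x y _ _ hx hy => rw [add_mul, mul_add, hx, hy]
  | mul x y _ _ hx hy => rw [mul_assoc, hy, ← mul_assoc, hx, mul_assoc]

/-- The cyclic submodule of a vector. -/
def cyc (B : Subgroup ↥H) (v : V) : Submodule (ZMod p) V where
  carrier := {x | ∃ r ∈ Alg B, r v = x}
  add_mem' := by
    rintro _ _ ⟨r, hr, rfl⟩ ⟨s, hs, rfl⟩
    exact ⟨r + s, add_mem hr hs, rfl⟩
  zero_mem' := ⟨0, zero_mem _, rfl⟩
  smul_mem' := by
    rintro c _ ⟨r, hr, rfl⟩
    exact ⟨c • r, Subalgebra.smul_mem _ hr c, rfl⟩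

theorem inv_cyc (B : Subgroup ↥H) (v : V) : Inv B (cyc B v) := by
  rintro b hb _ ⟨r, hr, rfl⟩
  exact ⟨L b * r, mul_mem (L_mem hb) hr, rfl⟩

theorem Min.cyc_eq {B : Subgroup ↥H} {W : Submodule (ZMod p) V} (hW : Min B W) {v : V} (hv : v ∈ W)
    (hv0 : v ≠ 0) : cyc B v = W := by
  refine (hW.2.2 _ ?_ (inv_cyc B v)).resolve_left fun h => ?_
  · rintro _ ⟨r, hr, rfl⟩
    exact alg_inv hW.2.1 r hr v hv
  · have : v ∈ cyc B v := ⟨1, one_mem _, rfl⟩
    rw [h, Submodule.mem_bot] at this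
    exact hv0 this

theorem Min.eq {B : Subgroup ↥H} {W W' : Submodule (ZMod p) V} (hW : Min B W) (hW' : Min B W') {v : V}
    (hv : v ∈ W) (hv' : v ∈ W') (hv0 : v ≠ 0) : W = W' := by
  rw [← hW.cyc_eq hv hv0, hW'.cyc_eq hv' hv0]

theorem exists_min [Finite V] [Nontrivial V] (B : Subgroup ↥H) : ∃ W : Submodule (ZMod p) V, Min B W := by
  have hfin : Finite (Submodule (ZMod p) V) := Finite.of_injective _ SetLike.coe_injective
  obtain ⟨W, -, hW⟩ := Finite.exists_le_minimal (p := fun W : Submodule (ZMod p) V => W ≠ ⊥ ∧ Inv B W)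
    (a := ⊤) ⟨top_ne_bot, fun _ _ _ _ => Submodule.mem_top⟩
  refine ⟨W, hW.1.1, hW.1.2, fun W' hle hinv => ?_⟩
  by_cases h : W' = ⊥
  · exact Or.inl h
  · exact Or.inr (le_antisymm hle (hW.2 ⟨h, hinv⟩ hle))

/-- Each non-zero vector lies in a minimal invariant subspace of a normal subgroup. -/
theorem exists_min_mem [Finite V] (ht : Trans H) (B : Subgroup ↥H) [B.Normal] {v : V} (hv : v ≠ 0) :
    ∃ W : Submodule (ZMod p) V, Min B W ∧ v ∈ W := by
  have : Nontrivial V := nontrivial_of_ne v 0 hv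
  obtain ⟨W, hW⟩ := exists_min B
  obtain ⟨w, hw, hw0⟩ := Submodule.exists_mem_ne_zero_of_ne_bot hW.1
  obtain ⟨h, hh⟩ := ht w v hw0 hv
  have hc : ∀ (k : ↥H) (X : Submodule (ZMod p) V), Inv B X → Inv B (X.map (L k)) := by
    rintro k X hX b hb _ ⟨x, hx, rfl⟩
    refine ⟨L (k⁻¹ * b * k) x, hX _ ?_ x hx, ?_⟩
    · have := Subgroup.Normal.conj_mem ‹B.Normal› b hb k⁻¹
      rwa [inv_inv] at this
    · show (L k * L (k⁻¹ * b * k)) x = (L b * L k) x
      rw [← map_mul, ← map_mul, show k * (k⁻¹ * b * k) = b * k by group]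
  have hk : ∀ (k : ↥H) (x : V), L k⁻¹ (L k x) = x := fun k x => by
    show (L k⁻¹ * L k) x = x
    rw [← map_mul, inv_mul_cancel, map_one]; rfl
  have hmap : ∀ (k : ↥H) (X : Submodule (ZMod p) V), (X.map (L k)).map (L k⁻¹) = X := fun k X => by
    ext x
    constructor
    · rintro ⟨_, ⟨y, hy, rfl⟩, rfl⟩
      rw [hk]; exact hy
    · exact fun hx => ⟨L k x, ⟨x, hx, rfl⟩, hk k x⟩
  refine ⟨W.map (L h), ⟨fun h0 => hW.1 ?_, hc h W hW.2.1, fun X hX hXi => ?_⟩, ⟨w, hw, hh⟩⟩
  · rw [← hmap h W, h0, Submodule.map_bot]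
  · have h2 : X.map (L h⁻¹) ≤ W := (Submodule.map_mono hX).trans (hmap h W).le
    have h3 := hmap h⁻¹ X
    rw [inv_inv] at h3
    rcases hW.2.2 _ h2 (hc h⁻¹ X hXi) with h1 | h1
    · exact Or.inl (by rw [← h3, h1, Submodule.map_bot])
    · exact Or.inr (by rw [← h1, h3])

/-- Schur's lemma. -/
theorem schur {B : Subgroup ↥H} (hirr : ∀ W : Submodule (ZMod p) V, Inv B W → W = ⊥ ∨ W = ⊤)
    {r : Module.End (ZMod p) V} (hr : ∀ b ∈ B, L b * r = r * L b) {v : V} (hv : v ≠ 0) (hrv : r v = 0) : r = 0 := by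
  rcases hirr (LinearMap.ker r) (fun b hb x hx => by
    rw [LinearMap.mem_ker] at hx ⊢
    show (r * L b) x = 0
    rw [← hr b hb, Module.End.mul_apply, hx, map_zero]) with h | h
  · exact absurd (LinearMap.mem_ker.mpr hrv) (by rw [h, Submodule.mem_bot]; exact hv)
  · exact LinearMap.ker_eq_top.mp h

/-- In the reducible case the algebra of a normal subgroup has no zero divisors. -/
theorem red [Finite V] (ht : Trans H) {B : Subgroup ↥H} [B.Normal] {X : Submodule (ZMod p) V} (hX : Inv B X)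
    (hX0 : X ≠ ⊥) (hX1 : X ≠ ⊤) {r : Module.End (ZMod p) V} (hr : r ∈ Alg B) {v : V} (hv : v ≠ 0) (hrv : r v = 0) :
    r = 0 := by
  obtain ⟨U, hU, hvU⟩ := exists_min_mem ht B hv
  have hU1 : U ≠ ⊤ := fun h => (hU.2.2 X (h ▸ le_top) hX).elim hX0 (fun h' => hX1 (h'.trans h))
  have key : ∀ w, w ∉ U → r w = 0 := by
    intro w hw
    by_contra hrw
    have hw0 : w ≠ 0 := fun h => hw (h ▸ U.zero_mem)
    have hu0 : v + w ≠ 0 := fun h => hw (by rw [eq_neg_of_add_eq_zero_right h]; exact U.neg_mem hvU)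
    obtain ⟨W, hW, hwW⟩ := exists_min_mem ht B hw0
    obtain ⟨W', hW', huW⟩ := exists_min_mem ht B hu0
    have h1 : r (v + w) = r w := by rw [map_add, hrv, zero_add]
    have h2 : r w ∈ W' := h1 ▸ alg_inv hW'.2.1 r hr _ huW
    have e := hW.eq hW' (alg_inv hW.2.1 r hr w hwW) h2 hrw
    have h3 : v ∈ W := by
      have := W.sub_mem (e ▸ huW) hwW
      rwa [add_sub_cancel_right] at this
    exact hw (hU.eq hW hvU h3 hv ▸ hwW)
  obtain ⟨w, hw⟩ : ∃ w, w ∉ U := by
    by_contra h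
    push Not at h
    exact hU1 (Submodule.eq_top_iff'.mpr h)
  refine LinearMap.ext fun u => ?_
  rw [LinearMap.zero_apply]
  by_cases hu : u ∈ U
  · have h1 := key (u + w) (fun h => hw (by simpa using U.sub_mem h hu))
    rwa [map_add, key w hw, add_zero] at h1
  · exact key u hu

theorem finite_group [Finite V] : Finite ↥H := by
  have : Finite (Module.End (ZMod p) V) := Finite.of_injective _ DFunLike.coe_injective
  exact Finite.of_injective L L_injective

section
variable [Finite V] [Nontrivial V] {B : Subgroup ↥H}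

theorem finite_alg : Finite (Alg B) := by
  have : Finite (Module.End (ZMod p) V) := Finite.of_injective _ DFunLike.coe_injective
  infer_instance

/-- If non-zero elements of the algebra have trivial kernel, the algebra is a finite field. -/
theorem isField_alg (h : ∀ r ∈ Alg B, ∀ v : V, v ≠ 0 → r v = 0 → r = 0) : IsField (Alg B) := by
  have := finite_alg (B := B)
  have : Nontrivial (Alg B) := by
    refine ⟨0, 1, fun e => ?_⟩
    obtain ⟨v, hv⟩ := exists_ne (0 : V)
    exact hv (congrArg (fun r : Alg B => (r : Module.End (ZMod p) V) v) e).symm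
  have : NoZeroDivisors (Alg B) := ⟨fun {a b} hab => by
    by_cases hb : b = 0
    · exact Or.inr hb
    refine Or.inl ?_
    obtain ⟨y, hy⟩ : ∃ y, (b : Module.End (ZMod p) V) y ≠ 0 := by
      by_contra h'
      push Not at h'
      exact hb (Subtype.ext (LinearMap.ext fun y => by simpa using h' y))
    have h1 : (a : Module.End (ZMod p) V) ((b : Module.End (ZMod p) V) y) = 0 :=
      congrArg (fun r : Alg B => (r : Module.End (ZMod p) V) y) hab
    exact Subtype.ext (h _ a.2 _ hy h1)⟩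
  have : IsDomain (Alg B) := NoZeroDivisors.to_isDomain _
  exact Finite.isDomain_to_isField _

theorem comm_of_isField (h : IsField (Alg B)) : IsMulCommutative ↥B :=
  ⟨⟨fun a b => Subtype.ext (L_injective (by
    have := congrArg Subtype.val (h.mul_comm ⟨L a, L_mem a.2⟩ ⟨L b, L_mem b.2⟩)
    simpa [map_mul] using this))⟩⟩

/-- The inclusion in the algebra. -/
def toAlg (B : Subgroup ↥H) : ↥B →* Alg B where
  toFun b := ⟨L b, L_mem b.2⟩
  map_one' := rfl
  map_mul' _ _ := rfl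

theorem toAlg_injective : Function.Injective (toAlg B) := fun _ _ h =>
  Subtype.ext (L_injective (congrArg Subtype.val h))

theorem isCyclic_of_isField (h : IsField (Alg B)) : IsCyclic ↥B := by
  have := finite_group (H := H)
  let : Field (Alg B) := h.toField
  exact isCyclic_of_subgroup_isDomain (toAlg B) toAlg_injective

theorem card_dvd_of_isField (h : IsField (Alg B)) : Nat.card ↥B ∣ Nat.card (Alg B) - 1 := by
  have := finite_alg (B := B)
  let : Field (Alg B) := h.toField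
  rw [← Nat.card_units]
  refine Subgroup.card_dvd_of_injective (toAlg B).toHomUnits fun a b e => toAlg_injective ?_
  exact congrArg Units.val e

theorem card_min (h : ∀ r ∈ Alg B, ∀ v : V, v ≠ 0 → r v = 0 → r = 0) {W : Submodule (ZMod p) V} (hW : Min B W) :
    Nat.card W = Nat.card (Alg B) := by
  obtain ⟨w, hw, hw0⟩ := Submodule.exists_mem_ne_zero_of_ne_bot hW.1
  symm
  refine Nat.card_congr (Equiv.ofBijective (fun r : Alg B => (⟨(r : Module.End (ZMod p) V) w,
    alg_inv hW.2.1 _ r.2 w hw⟩ : W)) ⟨fun r s e => Subtype.ext (sub_eq_zero.mp (h _ (sub_mem r.2 s.2) w hw0 ?_)), fun x => ?_⟩)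
  · rw [LinearMap.sub_apply, sub_eq_zero]; exact congrArg Subtype.val e
  · obtain ⟨r, hr, e⟩ : (x : V) ∈ cyc B w := (hW.cyc_eq hw hw0).symm ▸ x.2
    exact ⟨⟨r, hr⟩, Subtype.ext e⟩

end

/-- A commutative normal subgroup: non-zero algebra elements have trivial kernel. -/
theorem abelian_zero [Finite V] (ht : Trans H) {B : Subgroup ↥H} [B.Normal] (hc : IsMulCommutative ↥B) :
    ∀ r ∈ Alg B, ∀ v : V, v ≠ 0 → r v = 0 → r = 0 := by
  intro r hr v hv hrv
  by_cases hirr : ∀ W : Submodule (ZMod p) V, Inv B W → W = ⊥ ∨ W = ⊤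
  · refine schur hirr (fun b hb => ?_) hv hrv
    refine (alg_comm (fun c hc' => ?_) r hr).symm
    rw [← map_mul, ← map_mul]
    exact congrArg L (congrArg Subtype.val (mul_comm' (⟨c, hc'⟩ : B) ⟨b, hb⟩))
  · push Not at hirr
    obtain ⟨X, hX, hX0, hX1⟩ := hirr
    exact red ht hX hX0 hX1 hr hv hrv

theorem card_eq [Finite V] [Nontrivial V] (hreg : ∀ v w : V, v ≠ 0 → w ≠ 0 → ∃! h : ↥H, L h v = w) :
    Nat.card V = Nat.card ↥H + 1 := by
  have := finite_group (H := H)
  obtain ⟨v, hv⟩ := exists_ne (0 : V)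
  have hne : ∀ h : ↥H, L h v ≠ 0 := fun h e => hv ((h : V ≃ₗ[ZMod p] V).map_eq_zero_iff.mp e)
  rw [← Finite.card_option]
  symm
  refine Nat.card_congr (Equiv.ofBijective (fun o => o.elim 0 fun h => L h v) ⟨?_, ?_⟩)
  · rintro (_ | a) (_ | b) e
    · rfl
    · exact absurd e.symm (hne b)
    · exact absurd e (hne a)
    · exact congrArg some ((hreg v (L a v) hv (hne a)).unique rfl e.symm)
  · intro w
    by_cases hw : w = 0
    · exact ⟨none, hw.symm⟩
    · obtain ⟨h, hh, -⟩ := hreg v w hv hw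
      exact ⟨some h, hh⟩

end CfsgLib.RegularLinear
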