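import Mathlib

/-! Grids of signed vectors of norm three (the combinatorics of cyclic TI subgroups). -/

set_option autoImplicit false

namespace CfsgLib.SignedGrid

def allVec : Nat → List (List Int)
  | 0 => [[]]
  | n+1 => [-1,0,1].flatMap fun a => (allVec n).map (List.cons a)

def lsum (L : List Nat) (c : List Int) : Int := (L.map fun y => c.getD y 0).sum

def dot (a b : List Int) : Int := (List.zipWith (· * ·) a b).sum

def opts (p : Nat) (L : List (List Nat)) (j : Nat) : List (List Int) :=
  (allVec p).filter fun c => decide (dot c c ≤ 3) && (List.range 4).all fun k => lsum (L.getD k []) c == if k == j then 1 else 0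

def compat (a b : List Int) : Bool :=
  (List.zipWith (· * ·) a b).all (fun t => t != -1) && (dot a b == 1 || (decide (dot a b ≤ 1) && dot a a != 3 && dot b b != 3))

def noGrid (p : Nat) (L : List (List Nat)) : Bool :=
  let o := (List.range 4).map (opts p L)
  (o.getD 0 []).all fun a => (o.getD 1 []).all fun b => !compat a b || (o.getD 2 []).all fun c =>
    !(compat a c && compat b c) || (o.getD 3 []).all fun d => !(compat a d && compat b d && compat c d)

def tableA : List (List Nat) := [[0,1,2],[0,3,4],[1,3,5],[2,4,5]]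

def tableB : List (List Nat) := [[0,1,4],[0,2,5],[0,3,6],[4,5,6]]

set_option maxRecDepth 100000 in
theorem noGridA : noGrid 6 tableA = true := by decide +kernel

set_option maxRecDepth 100000 in
theorem noGridB : noGrid 7 tableB = true := by decide +kernel

variable {ι : Type*} [Fintype ι]

/-- Inner product of integer vectors. -/
def ip (u v : ι → ℤ) : ℤ := ∑ i, u i * v i

theorem ip_comm (u v : ι → ℤ) : ip u v = ip v u := Finset.sum_congr rfl fun _ _ => mul_comm _ _

theorem ip_add_right (u v w : ι → ℤ) : ip u (v + w) = ip u v + ip u w := by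
  simp [ip, mul_add, Finset.sum_add_distrib]

theorem ip_sub_right (u v w : ι → ℤ) : ip u (v - w) = ip u v - ip u w := by
  simp [ip, mul_sub, Finset.sum_sub_distrib]

theorem ip_sub_left (u v w : ι → ℤ) : ip (u - v) w = ip u w - ip v w := by
  simp [ip, sub_mul, Finset.sum_sub_distrib]

/-- A vector of norm three and total weight `-1`. -/
def Three (d v : ι → ℤ) : Prop := ip v v = 3 ∧ ∑ i, d i * v i = -1

variable {d : ι → ℤ}

theorem entry {v : ι → ℤ} (h : ip v v ≤ 3) (i : ι) : v i = -1 ∨ v i = 0 ∨ v i = 1 := by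
  have h1 : v i * v i ≤ 3 :=
    le_trans (Finset.single_le_sum (f := fun i => v i * v i) (fun _ _ => mul_self_nonneg _) (Finset.mem_univ i)) h
  have : -1 ≤ v i ∧ v i ≤ 1 := ⟨by nlinarith, by nlinarith⟩
  omega

theorem supp_card [DecidableEq ι] {v : ι → ℤ} (h : ip v v = 3) :
    (Finset.univ.filter fun i => v i ≠ 0).card = 3 := by
  have : ((Finset.univ.filter fun i => v i ≠ 0).card : ℤ) = ip v v := by
    rw [ip, Finset.card_filter, Nat.cast_sum]
    refine Finset.sum_congr rfl fun i _ => ?_
    rcases entry h.le i with e | e | e <;> simp [e]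
  rw [h] at this
  exact_mod_cast this

/-- Two adjacent vectors share exactly one entry, with equal signs. -/
theorem adjacent (hd : ∀ i, 0 < d i) {v w : ι → ℤ} (hv : Three d v) (hw : Three d w) (h : ip v w = 1) :
    ∃ i, v i ≠ 0 ∧ w i = v i ∧ ∀ j, v j ≠ 0 → w j ≠ 0 → j = i := by
  classical
  set C := Finset.univ.filter fun i => v i ≠ 0 ∧ w i ≠ 0 with hC
  have hle : C.card ≤ 3 := by
    rw [← supp_card hv.1]
    exact Finset.card_le_card fun i hi => by simp only [hC, Finset.mem_filter] at hi ⊢; exact ⟨hi.1, hi.2.1⟩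
  set A := C.filter fun i => w i = v i with hA
  set B := C.filter fun i => ¬ w i = v i with hB
  have hAB : A.card + B.card = C.card := Finset.card_filter_add_card_filter_not _
  have hdot : ((A.card : ℤ) - B.card) = 1 := by
    rw [← h, ip, ← Finset.sum_subset (Finset.subset_univ C), ← Finset.sum_filter_add_sum_filter_not C (fun i => w i = v i),
      ← hA, ← hB, Finset.sum_congr rfl (g := fun _ => (1 : ℤ)), Finset.sum_congr (s₁ := B) rfl (g := fun _ => (-1 : ℤ))]
    · simp; ring
    · intro i hi
      simp only [hB, hC, Finset.mem_filter] at hi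
      rcases entry hv.1.le i with e | e | e <;> rcases entry hw.1.le i with e' | e' | e' <;> simp_all
    · intro i hi
      simp only [hA, hC, Finset.mem_filter] at hi
      rcases entry hv.1.le i with e | e | e <;> rcases entry hw.1.le i with e' | e' | e' <;> simp_all
    · intro i _ hi
      simp only [hC, Finset.mem_filter, Finset.mem_univ, true_and, not_and, not_not] at hi
      by_cases e : v i = 0
      · simp [e]
      · simp [hi e]
  rcases Nat.eq_zero_or_pos B.card with hB0 | hB1
  · obtain ⟨i, hi⟩ := Finset.card_eq_one.1 (show A.card = 1 by omega)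
    have him : i ∈ A := hi ▸ Finset.mem_singleton_self i
    simp only [hA, hC, Finset.mem_filter, Finset.mem_univ, true_and] at him
    refine ⟨i, him.1.1, him.2, fun j hj hj' => ?_⟩
    have hjC : j ∈ C := by simp [hC, hj, hj']
    have : j ∈ A := by
      rw [hA, Finset.mem_filter]
      refine ⟨hjC, ?_⟩
      by_contra hne
      have : j ∈ B := by rw [hB, Finset.mem_filter]; exact ⟨hjC, hne⟩
      rw [Finset.card_eq_zero.1 hB0] at this
      simp at this
    rw [hi, Finset.mem_singleton] at this
    exact this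
  · exfalso
    obtain ⟨j, hj⟩ := Finset.card_eq_one.1 (show B.card = 1 by omega)
    have hsub : ∀ {u : ι → ℤ}, ip u u = 3 → (∀ i ∈ C, u i ≠ 0) → Finset.univ.filter (fun i => u i ≠ 0) = C := fun hu hi =>
      (Finset.eq_of_subset_of_card_le (fun i h => by simp [hi i h]) (by rw [supp_card hu]; omega)).symm
    have hsv := hsub hv.1 fun i hi => by simp only [hC, Finset.mem_filter] at hi; exact hi.2.1
    have hsw := hsub hw.1 fun i hi => by simp only [hC, Finset.mem_filter] at hi; exact hi.2.2
    have hjm : j ∈ B := hj ▸ Finset.mem_singleton_self j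
    simp only [hB, hC, Finset.mem_filter, Finset.mem_univ, true_and] at hjm
    have hzero : ∑ i, d i * (v i - w i) = 0 := by
      simp only [mul_sub, Finset.sum_sub_distrib]; rw [hv.2, hw.2]; ring
    rw [Finset.sum_eq_single j] at hzero
    · rcases mul_eq_zero.1 hzero with e | e
      · exact absurd e (hd j).ne'
      · exact hjm.2 (by linarith)
    · intro i _ hij
      by_cases hiC : i ∈ C
      · have : w i = v i := by
          by_contra hne
          have : i ∈ B := by rw [hB, Finset.mem_filter]; exact ⟨hiC, hne⟩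
          rw [hj, Finset.mem_singleton] at this
          exact hij this
        simp [this]
      · have e1 : v i = 0 := by
          by_contra e; exact hiC (hsv ▸ (by simp [e]))
        have e2 : w i = 0 := by
          by_contra e; exact hiC (hsw ▸ (by simp [e]))
        simp [e1, e2]
    · simp

theorem mem_allVec : ∀ (c : List Int), (∀ a ∈ c, a = -1 ∨ a = 0 ∨ a = 1) → c ∈ allVec c.length
  | [], _ => by simp [allVec]
  | a :: c, h => by
    simp only [List.length_cons, allVec, List.mem_flatMap, List.mem_map]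
    exact ⟨a, by simpa using h a (List.mem_cons_self ..), c, mem_allVec c fun b hb => h b (List.mem_cons_of_mem _ hb), rfl⟩

theorem sum_ofFn_getD {p : ℕ} (L : List Nat) (hL : L.Nodup) (hLp : ∀ y ∈ L, y < p) (c : Fin p → ℤ) :
    lsum L (List.ofFn c) = ∑ y ∈ Finset.univ.filter (fun y : Fin p => (y : ℕ) ∈ L), c y := by
  induction L with
  | nil => simp [lsum]
  | cons a L ih =>
    rw [List.nodup_cons] at hL
    have ha := hLp a (List.mem_cons_self ..)
    have hset : Finset.univ.filter (fun y : Fin p => (y : ℕ) ∈ a :: L) =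
        insert ⟨a, ha⟩ (Finset.univ.filter (fun y : Fin p => (y : ℕ) ∈ L)) := by
      ext y; simp [Fin.ext_iff]
    rw [hset, Finset.sum_insert (by simp [hL.1]), ← ih hL.2 fun y hy => hLp y (List.mem_cons_of_mem _ hy)]
    simp [lsum, ha]

theorem dot_ofFn {p : ℕ} (a b : Fin p → ℤ) : dot (List.ofFn a) (List.ofFn b) = ∑ y, a y * b y := by
  rw [dot, ← List.sum_ofFn]
  congr 1
  apply List.ext_getElem <;> simp

/-- Reduction of a labelled configuration to a table. -/
theorem table (hd : ∀ i, 0 < d i) (p : ℕ) (T : List (List Nat)) (hT : noGrid p T = true)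
    (hTn : ∀ k : Fin 4, (T.getD k []).Nodup ∧ ∀ y ∈ T.getD k [], y < p)
    (v w : Fin 4 → ι → ℤ) (P : Fin p → ι) (hP : Function.Injective P)
    (hsupp : ∀ k i, v k i ≠ 0 → ∃ y : Fin p, (y : ℕ) ∈ T.getD k [] ∧ P y = i)
    (σ : Fin p → ℤ) (hσ : ∀ (k : Fin 4) (y : Fin p), (y : ℕ) ∈ T.getD k [] → v k (P y) = σ y)
    (hcov : ∀ y, σ y * σ y = 1)
    (hw : ∀ j, Three d (w j)) (hww : ∀ j l, j ≠ l → ip (w j) (w l) = 1)
    (hvw : ∀ k j, ip (v k) (w j) = if k = j then 1 else 0) : False := by
  classical
  let c : Fin 4 → Fin p → ℤ := fun j y => σ y * w j (P y)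
  have hcc : ∀ j l y, c j y * c l y = w j (P y) * w l (P y) := fun j l y => by
    simp only [c]
    calc σ y * w j (P y) * (σ y * w l (P y)) = (σ y * σ y) * (w j (P y) * w l (P y)) := by ring
      _ = _ := by rw [hcov, one_mul]
  have himg : ∀ f : ι → ℤ, ∑ y, f (P y) = ∑ i ∈ Finset.univ.image P, f i := fun f =>
    (Finset.sum_image fun a _ b _ h => hP h).symm
  have hnorm : ∀ j, ∑ y, c j y * c j y ≤ 3 := fun j => by
    simp only [hcc]
    rw [himg (fun i => w j i * w j i), ← (hw j).1]
    exact Finset.sum_le_sum_of_subset_of_nonneg (Finset.subset_univ _) fun i _ _ => mul_self_nonneg _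
  have hentry : ∀ j y, c j y = -1 ∨ c j y = 0 ∨ c j y = 1 := fun j y => by
    have h := hcov y
    rcases mul_self_eq_one_iff.1 h with e | e <;> rcases entry (hw j).1.le (P y) with e' | e' | e' <;> simp [c, e, e']
  have hmem : ∀ j : Fin 4, List.ofFn (c j) ∈ opts p T j := by
    intro j
    rw [opts, List.mem_filter]
    refine ⟨by
      have := mem_allVec (List.ofFn (c j)) (by simpa [List.mem_ofFn] using fun y => hentry j y)
      rwa [List.length_ofFn] at this, ?_⟩
    rw [Bool.and_eq_true, decide_eq_true_eq, dot_ofFn, List.all_eq_true]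
    refine ⟨hnorm j, fun k hk => ?_⟩
    rw [List.mem_range] at hk
    rw [beq_iff_eq, sum_ofFn_getD _ (hTn ⟨k, hk⟩).1 (hTn ⟨k, hk⟩).2]
    have h := hvw ⟨k, hk⟩ j
    rw [ip, ← Finset.sum_subset (Finset.subset_univ ((Finset.univ.filter fun y : Fin p => (y : ℕ) ∈ T.getD k []).image P)),
      Finset.sum_image fun a _ b _ h => hP h] at h
    · have e : ∀ y ∈ Finset.univ.filter (fun y : Fin p => (y : ℕ) ∈ T.getD k []), v ⟨k, hk⟩ (P y) * w j (P y) = c j y :=
        fun y hy => by rw [hσ ⟨k, hk⟩ y (Finset.mem_filter.1 hy).2]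
      rw [Finset.sum_congr rfl e] at h
      rw [h]
      simp [Fin.ext_iff]
    · intro i _ hi
      by_contra hne
      obtain ⟨y, hy, rfl⟩ := hsupp ⟨k, hk⟩ i (fun e => hne (by rw [e, zero_mul]))
      exact hi (Finset.mem_image_of_mem P (Finset.mem_filter.2 ⟨Finset.mem_univ _, hy⟩))
  have hcompat : ∀ j l : Fin 4, j ≠ l → compat (List.ofFn (c j)) (List.ofFn (c l)) = true := by
    intro j l hjl
    obtain ⟨i₀, hi₀, hsame, huniq⟩ := adjacent hd (hw j) (hw l) (hww j l hjl)
    have hpos : ∀ i, w j i * w l i = if i = i₀ then 1 else 0 := by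
      intro i
      split_ifs with e
      · subst e; rw [hsame]
        rcases entry (hw j).1.le i with e' | e' | e' <;> simp_all
      · by_contra hne
        rw [mul_eq_zero, not_or] at hne
        exact e (huniq i hne.1 hne.2)
    rw [compat, Bool.and_eq_true, List.all_eq_true]
    refine ⟨fun t ht => ?_, ?_⟩
    · obtain ⟨n, hn, rfl⟩ := List.mem_iff_getElem.1 ht
      simp only [List.getElem_zipWith, List.getElem_ofFn, hcc, hpos]
      split_ifs <;> decide
    · rw [dot_ofFn, dot_ofFn, dot_ofFn]
      have hd1 : ∑ y, c j y * c l y = if i₀ ∈ Finset.univ.image P then 1 else 0 := by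
        simp only [hcc, hpos]
        rw [himg (fun i => if i = i₀ then (1 : ℤ) else 0), Finset.sum_ite_eq']
      by_cases hm : i₀ ∈ Finset.univ.image P
      · rw [hd1, if_pos hm]; rfl
      · have hlt : ∀ j' : Fin 4, w j' i₀ ≠ 0 → ∑ y, c j' y * c j' y ≠ 3 := fun j' h0 e => by
          simp only [hcc] at e
          rw [himg (fun i => w j' i * w j' i)] at e
          have := Finset.sum_le_sum_of_subset_of_nonneg (f := fun i => w j' i * w j' i)
            (Finset.subset_univ (insert i₀ (Finset.univ.image P))) (fun i _ _ => mul_self_nonneg _)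
          rw [Finset.sum_insert hm, e] at this
          have h3 : ∑ i, w j' i * w j' i = 3 := (hw j').1
          have := mul_self_pos.2 h0
          omega
        rw [hd1, if_neg hm]
        simp [hlt j hi₀, hlt l (hsame ▸ hi₀)]
  have h := hT
  simp only [noGrid, List.all_eq_true, Bool.or_eq_true, Bool.not_eq_true'] at h
  have h1 := (h _ (by simpa using hmem 0) _ (by simpa using hmem 1)).resolve_left (by simp [hcompat 0 1 (by decide)])
  have h2 := (h1 _ (by simpa using hmem 2)).resolve_left (by simp [hcompat 0 2 (by decide), hcompat 1 2 (by decide)])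
  have h3 := h2 _ (by simpa using hmem 3)
  simp [hcompat 0 3 (by decide), hcompat 1 3 (by decide), hcompat 2 3 (by decide)] at h3

/-- Four vectors of a row have a common entry, given four vectors of another row. -/
theorem quad (hd : ∀ i, 0 < d i) (v w : Fin 4 → ι → ℤ) (hv : ∀ k, Three d (v k)) (hw : ∀ k, Three d (w k))
    (hvv : ∀ k l, k ≠ l → ip (v k) (v l) = 1) (hww : ∀ k l, k ≠ l → ip (w k) (w l) = 1)
    (hvw : ∀ k j, ip (v k) (w j) = if k = j then 1 else 0) : ∃ i, ∀ k, v k i ≠ 0 := by
  classical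
  by_contra hno
  push Not at hno
  have hsh : ∀ k l : Fin 4, ∃ i, k ≠ l → v k i ≠ 0 ∧ v l i = v k i ∧ ∀ j, v k j ≠ 0 → v l j ≠ 0 → j = i := by
    intro k l
    by_cases e : k = l
    · obtain ⟨i, hi⟩ := Finset.card_pos.1 (show 0 < (Finset.univ.filter fun i => v k i ≠ 0).card by rw [supp_card (hv k).1]; omega)
      exact ⟨i, fun h => absurd e h⟩
    · obtain ⟨i, hi⟩ := adjacent hd (hv k) (hv l) (hvv k l e)
      exact ⟨i, fun _ => hi⟩
  choose s hs using hsh
  have hsl : ∀ k l, k ≠ l → v l (s k l) ≠ 0 := fun k l h => by rw [(hs k l h).2.1]; exact (hs k l h).1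
  have hun : ∀ {k l} (i : ι), k ≠ l → v k i ≠ 0 → v l i ≠ 0 → i = s k l := fun i h a b => (hs _ _ h).2.2 i a b
  have hσ1 : ∀ (k : Fin 4) i, v k i ≠ 0 → v k i * v k i = 1 := fun k i h => by
    rcases entry (hv k).1.le i with e | e | e <;> simp_all
  have htriple : ∀ (u z : Fin 4 → ι → ℤ) (x : ι), (∀ k, Three d (u k)) → (∀ k, Three d (z k)) →
      (∀ k l, k ≠ l → ip (u k) (u l) = 1) → (∀ k l, k ≠ l → ip (z k) (z l) = 1) →
      (∀ k j, ip (u k) (z j) = if k = j then 1 else 0) → u 0 x ≠ 0 → u 1 x ≠ 0 → u 2 x ≠ 0 → u 3 x = 0 → False := by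
    intro u z x hu hz huu hzz huz h0 h1 h2 h3
    have hx : ∀ k : Fin 4, k ≠ 3 → u k x ≠ 0 := fun k hk => by fin_cases k <;> first | exact h0 | exact h1 | exact h2 | exact absurd rfl hk
    have hp : ∀ k : Fin 4, ∃ p, k ≠ 3 → u k p ≠ 0 ∧ u 3 p = u k p ∧ ∀ j, u k j ≠ 0 → u 3 j ≠ 0 → j = p := fun k => by
      by_cases e : k = 3
      · exact ⟨x, fun h => absurd e h⟩
      · obtain ⟨p, hp⟩ := adjacent hd (hu k) (hu 3) (huu k 3 e)
        exact ⟨p, fun _ => hp⟩
    choose p hp using hp
    have hp3 : ∀ k, k ≠ 3 → u 3 (p k) ≠ 0 := fun k h => by rw [(hp k h).2.1]; exact (hp k h).1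
    have hxu : ∀ k l : Fin 4, k ≠ 3 → l ≠ 3 → k ≠ l → ∀ i, u k i ≠ 0 → u l i ≠ 0 → i = x ∧ u l i = u k i := by
      intro k l hk hl hkl i a b
      obtain ⟨i', -, hsame, h'⟩ := adjacent hd (hu k) (hu l) (huu k l hkl)
      have e := h' i a b
      have e' := h' x (hx k hk) (hx l hl)
      subst e e'
      exact ⟨rfl, hsame⟩
    have hpx : ∀ k, k ≠ 3 → p k ≠ x := fun k h e => hp3 k h (by rw [e]; exact h3)
    have hpinj : ∀ k l : Fin 4, k ≠ 3 → l ≠ 3 → k ≠ l → p k ≠ p l := fun k l hk hl hkl e =>
      hpx k hk (hxu k l hk hl hkl _ (hp k hk).1 (e ▸ (hp l hl).1)).1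
    have ha : ∀ k : Fin 4, ∃ a, k ≠ 3 → u k a ≠ 0 ∧ a ≠ x ∧ a ≠ p k ∧ (∀ i, u k i ≠ 0 → i = x ∨ i = p k ∨ i = a) := fun k => by
      by_cases e : k = 3
      · exact ⟨x, fun h => absurd e h⟩
      set S := Finset.univ.filter fun i => u k i ≠ 0 with hS
      have hsub : ({x, p k} : Finset ι) ⊆ S := by
        intro i hi
        simp only [Finset.mem_insert, Finset.mem_singleton] at hi
        rcases hi with rfl | rfl
        · simp [hS, hx k e]
        · simp [hS, (hp k e).1]
      have hc : (S \ {x, p k}).card = 1 := by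
        rw [Finset.card_sdiff_of_subset hsub, hS, supp_card (hu k).1, Finset.card_pair (hpx k e).symm]
      obtain ⟨a, ha⟩ := Finset.card_eq_one.1 hc
      have ham : a ∈ S \ {x, p k} := ha ▸ Finset.mem_singleton_self a
      simp only [hS, Finset.mem_sdiff, Finset.mem_filter, Finset.mem_univ, true_and, Finset.mem_insert, Finset.mem_singleton, not_or] at ham
      refine ⟨a, fun _ => ⟨ham.1, ham.2.1, ham.2.2, fun i hi => ?_⟩⟩
      by_contra hcon
      push Not at hcon
      have : i ∈ S \ {x, p k} := by simp [hS, hi, hcon.1, hcon.2.1]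
      rw [ha, Finset.mem_singleton] at this
      exact hcon.2.2 this
    choose a ha using ha
    have ha3 : ∀ k, k ≠ 3 → u 3 (a k) = 0 := fun k h => by
      by_contra e
      exact (ha k h).2.2.1 ((hp k h).2.2 _ (ha k h).1 e)
    have hainj : ∀ k l : Fin 4, k ≠ 3 → l ≠ 3 → k ≠ l → u l (a k) = 0 := fun k l hk hl hkl => by
      by_contra e
      exact (ha k hk).2.1 (hxu k l hk hl hkl _ (ha k hk).1 e).1
    let P : Fin 7 → ι := ![x, a 0, a 1, a 2, p 0, p 1, p 2]
    have hx3 : ∀ i, u 3 i ≠ 0 → i = p 0 ∨ i = p 1 ∨ i = p 2 := by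
      intro i hi
      have hsub : ({p 0, p 1, p 2} : Finset ι) = Finset.univ.filter fun i => u 3 i ≠ 0 := by
        refine Finset.eq_of_subset_of_card_le (fun i hi => ?_) ?_
        · simp only [Finset.mem_insert, Finset.mem_singleton] at hi
          rcases hi with rfl | rfl | rfl <;> simp [hp3 0 (by decide), hp3 1 (by decide), hp3 2 (by decide)]
        · rw [supp_card (hu 3).1, Finset.card_insert_of_notMem (by simp [hpinj 0 1 (by decide) (by decide) (by decide), hpinj 0 2 (by decide) (by decide) (by decide)]),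
            Finset.card_pair (hpinj 1 2 (by decide) (by decide) (by decide))]
      have : i ∈ ({p 0, p 1, p 2} : Finset ι) := by rw [hsub]; simp [hi]
      simpa using this
    have hPinj : Function.Injective P := by
      -- the lines through a point determine it
      have hpat : ∀ y : Fin 7, ∀ k : Fin 4, (u k (P y) ≠ 0 ↔ (y : ℕ) ∈ tableB.getD k []) := by
        have e3 : ∀ k : Fin 4, k ≠ 3 → ∀ l : Fin 4, l ≠ 3 → k ≠ l → u l (p k) = 0 := fun k hk l hl hkl => by
          by_contra e
          exact hpx k hk (hxu k l hk hl hkl _ (hp k hk).1 e).1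
        intro y k
        fin_cases y <;> fin_cases k <;> simp [P, tableB, h0, h1, h2, h3, (ha 0 (by decide)).1, (ha 1 (by decide)).1,
          (ha 2 (by decide)).1, ha3 0 (by decide), ha3 1 (by decide), ha3 2 (by decide),
          hainj 0 1 (by decide) (by decide) (by decide), hainj 0 2 (by decide) (by decide) (by decide),
          hainj 1 0 (by decide) (by decide) (by decide), hainj 1 2 (by decide) (by decide) (by decide),
          hainj 2 0 (by decide) (by decide) (by decide), hainj 2 1 (by decide) (by decide) (by decide),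
          (hp 0 (by decide)).1, (hp 1 (by decide)).1, (hp 2 (by decide)).1,
          hp3 0 (by decide), hp3 1 (by decide), hp3 2 (by decide),
          e3 0 (by decide) 1 (by decide) (by decide), e3 0 (by decide) 2 (by decide) (by decide),
          e3 1 (by decide) 0 (by decide) (by decide), e3 1 (by decide) 2 (by decide) (by decide),
          e3 2 (by decide) 0 (by decide) (by decide), e3 2 (by decide) 1 (by decide) (by decide)]
      intro y y' h
      have hall : ∀ k : Fin 4, ((y : ℕ) ∈ tableB.getD k [] ↔ (y' : ℕ) ∈ tableB.getD k []) := fun k => by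
        rw [← hpat, ← hpat, h]
      revert hall
      clear h
      revert y y'
      decide
    let σ : Fin 7 → ℤ := ![u 0 x, u 0 (a 0), u 1 (a 1), u 2 (a 2), u 3 (p 0), u 3 (p 1), u 3 (p 2)]
    refine table hd 7 tableB noGridB (by decide) u z P hPinj ?_ σ ?_ ?_ hz hzz huz
    · intro k i hi
      fin_cases k
      · rcases (ha 0 (by decide)).2.2.2 i hi with rfl | rfl | rfl
        exacts [⟨0, by decide, rfl⟩, ⟨4, by decide, rfl⟩, ⟨1, by decide, rfl⟩]
      · rcases (ha 1 (by decide)).2.2.2 i hi with rfl | rfl | rfl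
        exacts [⟨0, by decide, rfl⟩, ⟨5, by decide, rfl⟩, ⟨2, by decide, rfl⟩]
      · rcases (ha 2 (by decide)).2.2.2 i hi with rfl | rfl | rfl
        exacts [⟨0, by decide, rfl⟩, ⟨6, by decide, rfl⟩, ⟨3, by decide, rfl⟩]
      · rcases hx3 i hi with rfl | rfl | rfl
        exacts [⟨4, by decide, rfl⟩, ⟨5, by decide, rfl⟩, ⟨6, by decide, rfl⟩]
    · intro k y hy
      fin_cases k <;> fin_cases y <;> first | (exfalso; revert hy; decide) | skip
      · rfl
      · rfl
      · exact ((hp 0 (by decide)).2.1).symm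
      · exact (hxu 0 1 (by decide) (by decide) (by decide) x h0 h1).2
      · rfl
      · exact ((hp 1 (by decide)).2.1).symm
      · exact (hxu 0 2 (by decide) (by decide) (by decide) x h0 h2).2
      · rfl
      · exact ((hp 2 (by decide)).2.1).symm
      · rfl
      · rfl
      · rfl
    · intro y
      have sq : ∀ (k : Fin 4) i, u k i ≠ 0 → u k i * u k i = 1 := fun k i h => by
        rcases entry (hu k).1.le i with e | e | e <;> simp_all
      fin_cases y
      exacts [sq 0 x h0, sq 0 _ (ha 0 (by decide)).1, sq 1 _ (ha 1 (by decide)).1, sq 2 _ (ha 2 (by decide)).1,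
        sq 3 _ (hp3 0 (by decide)), sq 3 _ (hp3 1 (by decide)), sq 3 _ (hp3 2 (by decide))]
  by_cases hT : ∃ (m : Fin 4) (x : ι), ∀ k, k ≠ m → v k x ≠ 0
  · obtain ⟨m, x, hx⟩ := hT
    obtain ⟨k, hk⟩ := hno x
    have hkm : k = m := by by_contra e; exact hx k e hk
    subst hkm
    let e : Equiv.Perm (Fin 4) := Equiv.swap k 3
    have he3 : e 3 = k := Equiv.swap_apply_right k 3
    have hne : ∀ l : Fin 4, l ≠ 3 → e l ≠ k := fun l hl h => hl (e.injective (h.trans he3.symm))
    exact htriple (v ∘ e) (w ∘ e) x (fun l => hv _) (fun l => hw _) (fun l l' h => hvv _ _ (e.injective.ne h))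
      (fun l l' h => hww _ _ (e.injective.ne h))
      (fun l j => by simp only [Function.comp_apply, hvw, e.injective.eq_iff])
      (hx _ (hne 0 (by decide))) (hx _ (hne 1 (by decide))) (hx _ (hne 2 (by decide)))
      (show v (e 3) x = 0 by rw [he3]; exact hk)
  · push Not at hT
    have hno3 : ∀ k l m : Fin 4, k ≠ l → k ≠ m → l ≠ m → ∀ i, v k i ≠ 0 → v l i ≠ 0 → v m i = 0 := by
      intro k l m hkl hkm hlm i a b
      by_contra c
      obtain ⟨q, hq⟩ := (by decide : ∀ k l m : Fin 4, k ≠ l → k ≠ m → l ≠ m →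
        ∃ q : Fin 4, ∀ r, r ≠ q → r = k ∨ r = l ∨ r = m) k l m hkl hkm hlm
      obtain ⟨r, hr, hr0⟩ := hT q i
      rcases hq r hr with rfl | rfl | rfl <;> contradiction
    let P : Fin 6 → ι := ![s 0 1, s 0 2, s 0 3, s 1 2, s 1 3, s 2 3]
    let A : Fin 6 → Fin 4 := ![0, 0, 0, 1, 1, 2]
    let B : Fin 6 → Fin 4 := ![1, 2, 3, 2, 3, 3]
    have hPA : ∀ y, v (A y) (P y) ≠ 0 ∧ v (B y) (P y) = v (A y) (P y) := by
      intro y
      fin_cases y
      exacts [⟨(hs 0 1 (by decide)).1, (hs 0 1 (by decide)).2.1⟩, ⟨(hs 0 2 (by decide)).1, (hs 0 2 (by decide)).2.1⟩,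
        ⟨(hs 0 3 (by decide)).1, (hs 0 3 (by decide)).2.1⟩, ⟨(hs 1 2 (by decide)).1, (hs 1 2 (by decide)).2.1⟩,
        ⟨(hs 1 3 (by decide)).1, (hs 1 3 (by decide)).2.1⟩, ⟨(hs 2 3 (by decide)).1, (hs 2 3 (by decide)).2.1⟩]
    have hAB : ∀ y, A y ≠ B y := by decide
    have hPinj : Function.Injective P := by
      intro y y' h
      by_contra hne
      obtain ⟨m, hm, hm1, hm2⟩ := (by decide : ∀ y y' : Fin 6, ¬y = y' → ∃ m, (m = A y' ∨ m = B y') ∧ m ≠ A y ∧ m ≠ B y) y y' hne
      have h1 := (hPA y).1
      have h2 : v (B y) (P y) ≠ 0 := by rw [(hPA y).2]; exact h1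
      have := hno3 (A y) (B y) m (hAB y) (Ne.symm hm1) (Ne.symm hm2) (P y) h1 h2
      rw [h] at this
      rcases hm with rfl | rfl
      · exact (hPA y').1 this
      · rw [(hPA y').2] at this; exact (hPA y').1 this
    have hmemv : ∀ (k : Fin 4) (y : Fin 6), (y : ℕ) ∈ tableA.getD k [] → v k (P y) = v (A y) (P y) := by
      intro k y hy
      have : k = A y ∨ k = B y := by revert hy; revert k y; decide
      rcases this with rfl | rfl
      · rfl
      · exact (hPA y).2
    refine table hd 6 tableA noGridA (by decide) v w P hPinj ?_ (fun y => v (A y) (P y)) hmemv ?_ hw hww hvw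
    · intro k i hi
      have hsub : ((Finset.univ.filter fun y : Fin 6 => (y : ℕ) ∈ tableA.getD k []).image P) = Finset.univ.filter fun i => v k i ≠ 0 := by
        refine Finset.eq_of_subset_of_card_le (fun j hj => ?_) ?_
        · obtain ⟨y, hy, rfl⟩ := Finset.mem_image.1 hj
          rw [Finset.mem_filter]
          refine ⟨Finset.mem_univ _, ?_⟩
          rw [hmemv k y (Finset.mem_filter.1 hy).2]
          exact (hPA y).1
        · rw [supp_card (hv k).1, Finset.card_image_of_injective _ hPinj]
          exact (by decide : ∀ k : Fin 4, 3 ≤ (Finset.univ.filter fun y : Fin 6 => (y : ℕ) ∈ tableA.getD k []).card) k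
      have : i ∈ Finset.univ.filter fun i => v k i ≠ 0 := by simp [hi]
      rw [← hsub, Finset.mem_image] at this
      obtain ⟨y, hy, rfl⟩ := this
      exact ⟨y, (Finset.mem_filter.1 hy).2, rfl⟩
    · intro y
      exact hσ1 _ _ (hPA y).1

/-- A vector with one signed entry. -/
def Unit' (u : ι → ℤ) : Prop := ip u u = 1

theorem unit_at [DecidableEq ι] (i : ι) {s : ℤ} (hs : s * s = 1) : Unit' (fun j => if j = i then s else 0) := by
  simp [Unit', ip, hs]

theorem ip_at [DecidableEq ι] (i : ι) (s : ℤ) (v : ι → ℤ) : ip (fun j => if j = i then s else 0) v = s * v i := by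
  simp [ip]

variable {M N : Type*} [DecidableEq M] [DecidableEq N] {v : M → N → ι → ℤ}

/-- Each row has an entry of its own. -/
theorem row [Fintype N] (hd : ∀ i, 0 < d i) (hv : ∀ m n, Three d (v m n))
    (hg : ∀ m n m' n', ip (v m n) (v m' n') =
      (if m = m' then 1 else 0) + (if n = n' then 1 else 0) + (if m = m' then 1 else 0) * (if n = n' then 1 else 0))
    (hN : 4 ≤ Fintype.card N) (m m₁ : M) (hm : m₁ ≠ m) :
    ∃ X : ι → ℤ, Unit' X ∧ (∀ m' n, ip X (v m' n) = if m' = m then 1 else 0) := by
  classical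
  have hrow : ∀ m n n', n ≠ n' → ip (v m n) (v m n') = 1 := fun m n n' h => by simp [hg, h]
  have hfour : ∀ n n' : N, n ≠ n' → ∀ c, ∃ q : Fin 4 ↪ N, q 0 = n ∧ q 1 = n' ∧ (c = n ∨ c = n' ∨ q 2 = c) := by
    intro n n' hne c
    obtain ⟨e, he⟩ : ∃ e, (e ≠ n ∧ e ≠ n') ∧ (c = n ∨ c = n' ∨ e = c) := by
      by_cases h : c = n ∨ c = n'
      · obtain ⟨e, -, he⟩ := Finset.exists_mem_notMem_of_card_lt_card (s := ({n, n'} : Finset N)) (t := Finset.univ)
          (by rw [Finset.card_univ]; exact Finset.card_le_two.trans_lt (by omega))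
        simp only [Finset.mem_insert, Finset.mem_singleton, not_or] at he
        exact ⟨e, he, by tauto⟩
      · push Not at h; exact ⟨c, ⟨h.1, h.2⟩, by simp⟩
    obtain ⟨f, -, hf⟩ := Finset.exists_mem_notMem_of_card_lt_card (s := ({n, n', e} : Finset N)) (t := Finset.univ)
      (by rw [Finset.card_univ]; exact Finset.card_le_three.trans_lt (by omega))
    simp only [Finset.mem_insert, Finset.mem_singleton, not_or] at hf
    refine ⟨⟨![n, n', e, f], ?_⟩, rfl, rfl, he.2⟩
    intro a b h
    fin_cases a <;> fin_cases b <;> simp_all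
  haveI : Nontrivial N := Fintype.one_lt_card_iff_nontrivial.1 (by omega)
  obtain ⟨n, n', hne⟩ := exists_pair_ne N
  obtain ⟨i, hi, hsame, huniq⟩ := adjacent hd (hv m n) (hv m n') (hrow m n n' hne)
  have hall : ∀ c, v m c i = v m n i := by
    intro c
    obtain ⟨q, hq0, hq1, hq2⟩ := hfour n n' hne c
    have hgv : ∀ (a : M) k l, k ≠ l → ip (v a (q k)) (v a (q l)) = 1 := fun a k l h => hrow a _ _ (q.injective.ne h)
    obtain ⟨j, hj⟩ := quad hd (fun k => v m (q k)) (fun k => v m₁ (q k)) (fun k => hv _ _) (fun k => hv _ _)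
      (hgv m) (hgv m₁) (fun k l => by simp [hg, Ne.symm hm])
    have hji : j = i := huniq j (hq0 ▸ hj 0) (hq1 ▸ hj 1)
    subst hji
    rcases hq2 with rfl | rfl | rfl
    · rfl
    · exact hsame
    · by_cases e : n = q 2
      · rw [← e]
      obtain ⟨j', -, hs', hu'⟩ := adjacent hd (hv m n) (hv m (q 2)) (hrow m _ _ e)
      rw [hu' j hi (hj 2), hs']
  have hs1 : v m n i * v m n i = 1 := by
    rcases entry (hv m n).1.le i with e | e | e <;> simp_all
  refine ⟨_, unit_at i hs1, fun m' c => ?_⟩
  rw [ip_at]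
  split_ifs with e
  · subst e; rw [hall c]; exact hs1
  · refine mul_eq_zero_of_right _ ?_
    by_contra hw
    have hex : ∀ k, k ≠ c → ∃ j, j ≠ i ∧ v m k j ≠ 0 ∧ v m' c j ≠ 0 := by
      intro k hk
      by_contra hno
      push Not at hno
      have h := hg m k m' c
      rw [if_neg (Ne.symm e), if_neg hk, ip, Finset.sum_eq_single i] at h
      · rcases mul_eq_zero.1 (h.trans (by ring)) with h' | h'
        · exact hi (hall k ▸ h')
        · exact hw h'
      · intro j _ hj
        by_cases h' : v m k j = 0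
        · rw [h', zero_mul]
        · rw [hno j hj h', mul_zero]
      · simp
    haveI : Nonempty ι := ⟨i⟩
    choose! f hf using hex
    have hinj : Set.InjOn f ↑(Finset.univ.erase c) := by
      intro a ha b hb hab
      simp only [Finset.coe_erase, Set.mem_sdiff, Set.mem_singleton_iff] at ha hb
      by_contra hne'
      obtain ⟨j', -, -, hu'⟩ := adjacent hd (hv m a) (hv m b) (hrow m a b hne')
      exact (hf a ha.2).1 ((hu' _ (hf a ha.2).2.1 (hab ▸ (hf b hb.2).2.1)).trans
        (hu' i (hall a ▸ hi) (hall b ▸ hi)).symm)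
    have h1 := Finset.card_le_card_of_injOn (t := (Finset.univ.filter fun j => v m' c j ≠ 0).erase i) f
      (fun a ha => by
        simp only [Finset.coe_erase, Set.mem_sdiff, Set.mem_singleton_iff, Finset.coe_filter] at ha ⊢
        simp [(hf a ha.2).2.2, (hf a ha.2).1]) hinj
    rw [Finset.card_erase_of_mem (Finset.mem_univ c), Finset.card_univ, Finset.card_erase_of_mem (by simp [hw]),
      supp_card (hv m' c).1] at h1
    omega

/-- When there are two rows, each column has an entry of its own as well. -/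
theorem col_two [Fintype M] [Fintype N] (hd : ∀ i, 0 < d i) (hv : ∀ m n, Three d (v m n))
    (hg : ∀ m n m' n', ip (v m n) (v m' n') =
      (if m = m' then 1 else 0) + (if n = n' then 1 else 0) + (if m = m' then 1 else 0) * (if n = n' then 1 else 0))
    (hN : 4 ≤ Fintype.card N) (hM : Fintype.card M = 2) (n : N) :
    ∃ Y : ι → ℤ, Unit' Y ∧ (∀ m n', ip Y (v m n') = if n' = n then 1 else 0) := by
  classical
  haveI : Nontrivial M := Fintype.one_lt_card_iff_nontrivial.1 (by omega)
  obtain ⟨a, b, hab⟩ := exists_pair_ne M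
  have hcases : ∀ m : M, m = a ∨ m = b := fun m => by
    by_contra h
    push Not at h
    have hle := Finset.card_le_univ ({m, a, b} : Finset M)
    rw [Finset.card_insert_of_notMem (by simp [h.1, h.2]), Finset.card_pair hab] at hle
    omega
  obtain ⟨i, hi, hsame, huniq⟩ := adjacent hd (hv a n) (hv b n) (by simp [hg, hab])
  have hs1 : v a n i * v a n i = 1 := by
    rcases entry (hv a n).1.le i with e | e | e <;> simp_all
  refine ⟨_, unit_at i hs1, fun m n' => ?_⟩
  rw [ip_at]
  split_ifs with e
  · subst e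
    rcases hcases m with rfl | rfl
    · exact hs1
    · rw [hsame, hs1]
  · refine mul_eq_zero_of_right _ ?_
    by_contra hw
    have key : ∀ c c', c ≠ c' → v c n i ≠ 0 → v c' n i ≠ 0 → v c n' i ≠ 0 → False := by
      intro c c' hcc hc hc' hw'
      obtain ⟨X, hX, hXv⟩ := row hd hv hg hN c c' hcc.symm
      obtain ⟨j, hj, -, hu⟩ := adjacent hd (hv c n) (hv c n') (by simp [hg, Ne.symm e])
      have hij := hu i hc hw'
      subst hij
      have hXs : ∀ k, X k * v c' n k = 0 := by
        have h1 : ip X X = 1 := hX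
        obtain ⟨k₀, hk₀⟩ : ∃ k₀, X k₀ ≠ 0 := by
          by_contra h
          push Not at h
          rw [ip, Finset.sum_eq_zero (fun k _ => by rw [h k, zero_mul])] at h1
          exact zero_ne_one h1
        have hz : ∀ k, k ≠ k₀ → X k = 0 := fun k hk => by
          by_contra h
          have hle := Finset.sum_le_sum_of_subset_of_nonneg (f := fun k => X k * X k)
            (Finset.subset_univ ({k, k₀} : Finset ι)) (fun j _ _ => mul_self_nonneg _)
          rw [Finset.sum_pair hk] at hle
          have : ∑ k, X k * X k = 1 := h1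
          have := mul_self_pos.2 h
          have := mul_self_pos.2 hk₀
          omega
        intro k
        by_cases hk : k = k₀
        · subst hk
          have h2 := hXv c' n
          rwa [if_neg hcc.symm, ip, Finset.sum_eq_single k (fun j _ hj => by rw [hz j hj, zero_mul]) (by simp)] at h2
        · rw [hz k hk, zero_mul]
      obtain ⟨k, hk⟩ : ∃ k, X k * v c n k ≠ 0 ∧ X k * v c n' k ≠ 0 := by
        have h1 := hXv c n
        rw [if_pos rfl] at h1
        obtain ⟨k, -, hk⟩ := Finset.exists_ne_zero_of_sum_ne_zero (show (∑ k, X k * v c n k) ≠ 0 by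
          rw [show (∑ k, X k * v c n k) = 1 from h1]; exact one_ne_zero)
        refine ⟨k, hk, ?_⟩
        have h2 := hXv c n'
        rw [if_pos rfl] at h2
        obtain ⟨k', -, hk'⟩ := Finset.exists_ne_zero_of_sum_ne_zero (show (∑ k, X k * v c n' k) ≠ 0 by
          rw [show (∑ k, X k * v c n' k) = 1 from h2]; exact one_ne_zero)
        have hkk : k' = k := by
          have h1 : ip X X = 1 := hX
          by_contra hne
          have hle := Finset.sum_le_sum_of_subset_of_nonneg (f := fun k => X k * X k)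
            (Finset.subset_univ ({k', k} : Finset ι)) (fun j _ _ => mul_self_nonneg _)
          rw [Finset.sum_pair hne] at hle
          have : ∑ k, X k * X k = 1 := h1
          have := mul_self_pos.2 (left_ne_zero_of_mul hk)
          have := mul_self_pos.2 (left_ne_zero_of_mul hk')
          omega
        subst hkk
        exact hk'
      have := hu k (right_ne_zero_of_mul hk.1) (right_ne_zero_of_mul hk.2)
      subst this
      exact (mul_ne_zero (left_ne_zero_of_mul hk.1) hc') (hXs _)
    have hbi : v b n i ≠ 0 := by rw [hsame]; exact hi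
    rcases hcases m with rfl | rfl
    · exact key _ _ hab hi hbi hw
    · exact key _ _ hab.symm hbi hi hw

/-- The structure of a grid. -/
theorem grid [Fintype M] [Fintype N] (hd : ∀ i, 0 < d i) (hv : ∀ m n, Three d (v m n))
    (hg : ∀ m n m' n', ip (v m n) (v m' n') =
      (if m = m' then 1 else 0) + (if n = n' then 1 else 0) + (if m = m' then 1 else 0) * (if n = n' then 1 else 0))
    (hN : 4 ≤ Fintype.card N) (hM : Fintype.card M = 2 ∨ 4 ≤ Fintype.card M) :
    ∃ (X : M → ι → ℤ) (Y : N → ι → ℤ) (Z : M → N → ι → ℤ),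
      (∀ m n, v m n = X m + Y n + Z m n) ∧
      (∀ m m', ip (X m) (X m') = if m = m' then 1 else 0) ∧ (∀ n n', ip (Y n) (Y n') = if n = n' then 1 else 0) ∧
      (∀ m n, ip (X m) (Y n) = 0) ∧ (∀ m m' n, ip (X m') (Z m n) = 0) ∧ (∀ m n n', ip (Y n') (Z m n) = 0) ∧
      (∀ m n m' n', ip (Z m n) (Z m' n') = (if m = m' then 1 else 0) * (if n = n' then 1 else 0)) := by
  classical
  haveI : Nontrivial M := Fintype.one_lt_card_iff_nontrivial.1 (by omega)
  haveI : Nontrivial N := Fintype.one_lt_card_iff_nontrivial.1 (by omega)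
  have hX : ∀ m, ∃ X : ι → ℤ, Unit' X ∧ (∀ m' n, ip X (v m' n) = if m' = m then 1 else 0) := fun m => by
    obtain ⟨m₁, hm⟩ := exists_ne m
    exact row hd hv hg hN m m₁ hm
  have hY : ∀ n, ∃ Y : ι → ℤ, Unit' Y ∧ (∀ m n', ip Y (v m n') = if n' = n then 1 else 0) := fun n => by
    rcases hM with h | h
    · exact col_two hd hv hg hN h n
    · obtain ⟨n₁, hn⟩ := exists_ne n
      obtain ⟨Y, hY, hYv⟩ := row (v := fun n m => v m n) hd (fun n m => hv m n)
        (fun n m n' m' => by rw [hg]; ring) h n n₁ hn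
      exact ⟨Y, hY, fun m n' => hYv n' m⟩
  choose X hX1 hXv using hX
  choose Y hY1 hYv using hY
  -- two unit vectors with different profiles are orthogonal
  have hunit : ∀ A B : ι → ℤ, Unit' A → Unit' B → ∀ u : ι → ℤ, ip A u ≠ 0 → ip B u = 0 → ip A B = 0 := by
    intro A B hA hB u hAu hBu
    have single : ∀ C : ι → ℤ, Unit' C → ∀ k l, C k ≠ 0 → C l ≠ 0 → k = l := by
      intro C hC k l hk hl
      by_contra hne
      have hle := Finset.sum_le_sum_of_subset_of_nonneg (f := fun k => C k * C k)
        (Finset.subset_univ ({k, l} : Finset ι)) (fun j _ _ => mul_self_nonneg _)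
      rw [Finset.sum_pair hne] at hle
      have : ∑ k, C k * C k = 1 := hC
      have := mul_self_pos.2 hk
      have := mul_self_pos.2 hl
      omega
    obtain ⟨k, -, hk⟩ := Finset.exists_ne_zero_of_sum_ne_zero hAu
    refine Finset.sum_eq_zero fun l _ => ?_
    by_cases hl : A l = 0
    · rw [hl, zero_mul]
    · have := single A hA k l (left_ne_zero_of_mul hk) hl
      subst this
      refine mul_eq_zero_of_right _ ?_
      by_contra hb
      rw [ip, Finset.sum_eq_single k (fun j _ hj => by
        have : B j = 0 := by by_contra h; exact hj (single B hB j k h hb)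
        rw [this, zero_mul]) (by simp)] at hBu
      exact mul_ne_zero hb (right_ne_zero_of_mul hk) hBu
  have hXX : ∀ m m', ip (X m) (X m') = if m = m' then 1 else 0 := fun m m' => by
    by_cases e : m = m'
    · subst e; rw [if_pos rfl]; exact hX1 m
    · obtain ⟨n⟩ := (inferInstance : Nonempty N)
      rw [if_neg e]
      exact hunit _ _ (hX1 m) (hX1 m') (v m n) (by rw [hXv]; simp) (by rw [hXv, if_neg e])
  have hYY : ∀ n n', ip (Y n) (Y n') = if n = n' then 1 else 0 := fun n n' => by
    by_cases e : n = n'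
    · subst e; rw [if_pos rfl]; exact hY1 n
    · obtain ⟨m⟩ := (inferInstance : Nonempty M)
      rw [if_neg e]
      exact hunit _ _ (hY1 n) (hY1 n') (v m n) (by rw [hYv]; simp) (by rw [hYv, if_neg e])
  have hXY : ∀ m n, ip (X m) (Y n) = 0 := fun m n => by
    obtain ⟨n', hn⟩ := exists_ne n
    exact hunit _ _ (hX1 m) (hY1 n) (v m n') (by rw [hXv]; simp) (by rw [hYv, if_neg hn])
  refine ⟨X, Y, fun m n => v m n - X m - Y n,
    fun m n => by funext j; simp only [Pi.add_apply, Pi.sub_apply]; ring, hXX, hYY, hXY, ?_, ?_, ?_⟩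
  · intro m m' n
    rw [ip_sub_right, ip_sub_right, hXv, hXX, hXY]
    by_cases e : m = m' <;> simp [e, eq_comm]
  · intro m n n'
    rw [ip_sub_right, ip_sub_right, hYv, hYY, ip_comm (Y n') (X m), hXY]
    by_cases e : n = n' <;> simp [e, eq_comm]
  · intro m n m' n'
    simp only [ip_sub_left, ip_sub_right, hg, hXv, hYv, hXX, hYY, hXY, ip_comm (v m n) (X m'), ip_comm (v m n) (Y n'),
      ip_comm (Y n) (X m'), ip_comm (Y n) (v m' n')]
    by_cases e : m = m' <;> by_cases e' : n = n' <;> simp [e, e', eq_comm]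

end CfsgLib.SignedGrid
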