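import Cfsg.Prelude.Def_LieRecognition
import Mathlib

/-! The centre of a Suzuki 2-group is elementary abelian. -/

set_option autoImplicit false
set_option maxHeartbeats 1000000

namespace CfsgLib.SuzukiTwoCentre

variable {P : Type*} [Group P]

/-- the standing hypotheses -/
structure Setup (K : Subgroup (MulAut P)) : Prop where
  comm : ∀ k ∈ K, ∀ l ∈ K, k * l = l * k
  sq : ∀ k ∈ K, ∃ l ∈ K, k = l * l
  central : ∀ x : P, x * x = 1 → ∀ y, x * y = y * x
  trans : ∀ x y : P, x ≠ 1 → x * x = 1 → y ≠ 1 → y * y = 1 → ∃ k ∈ K, k x = y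

/-- no non-trivial equivariant alternating biadditive map on the involutions -/
theorem alt_trivial {K : Subgroup (MulAut P)} (hS : Setup K) (β : P → P → P)
    (hval : ∀ a b : P, a * a = 1 → b * b = 1 → β a b * β a b = 1)
    (hl : ∀ a a' b : P, a * a = 1 → a' * a' = 1 → b * b = 1 → β (a * a') b = β a b * β a' b)
    (hr : ∀ a b b' : P, a * a = 1 → b * b = 1 → b' * b' = 1 → β a (b * b') = β a b * β a b')
    (halt : ∀ a : P, a * a = 1 → β a a = 1)
    (heq : ∀ k ∈ K, ∀ a b : P, a * a = 1 → b * b = 1 → β (k a) (k b) = k (β a b)) :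
    ∀ a b : P, a * a = 1 → b * b = 1 → β a b = 1 := by
  intro e b he hb
  by_cases he1 : e = 1
  · subst he1
    have h := hl 1 1 b he he hb
    rw [one_mul] at h
    exact mul_eq_left.1 h.symm
  by_cases hb1 : b = 1
  · subst hb1
    have h := hr e 1 1 he hb hb
    rw [one_mul] at h
    exact mul_eq_left.1 h.symm
  obtain ⟨k2, hk2, rfl⟩ := hS.trans e b he1 he hb1 hb
  obtain ⟨k, hk, rfl⟩ := hS.sq k2 hk2
  have inv : ∀ (l : MulAut P) (x : P), x * x = 1 → l x * l x = 1 := fun l x hx => by rw [← map_mul, hx, map_one]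
  by_cases hfix : k e = e
  · rw [MulAut.mul_apply, hfix, hfix]; exact halt e he
  have hke := inv k e he
  have hee : e * k e ≠ 1 := fun h => hfix (mul_left_cancel (h.trans he.symm))
  have hee2 : e * k e * (e * k e) = 1 := by
    calc e * k e * (e * k e) = e * (k e * e) * k e := by group
      _ = e * (e * k e) * k e := by rw [← hS.central e he (k e)]
      _ = (e * e) * (k e * k e) := by group
      _ = 1 := by rw [he, hke, one_mul]
  obtain ⟨l, hl', hle⟩ := hS.trans e (e * k e) he1 he hee hee2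
  have hlk : l (k e) = k e * k (k e) := by
    have := DFunLike.congr_fun (hS.comm l hl' k hk) e
    rw [MulAut.mul_apply, MulAut.mul_apply, hle, map_mul] at this
    exact this
  have h1 := heq l hl' e (k e) he hke
  have hkk : k (k e) * k (k e) = 1 := inv k _ hke
  rw [hle, hlk] at h1
  have hβ := hval e (k e) he hke
  have hl2 : l (β e (k e)) = β e (k e) * k (β e (k e)) := by
    by_cases hb : β e (k e) = 1
    · rw [hb, map_one, map_one, one_mul]
    · obtain ⟨m, hm, hme⟩ := hS.trans e _ he1 he hb hβ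
      rw [← hme]
      have c1 := DFunLike.congr_fun (hS.comm l hl' m hm) e
      have c2 := DFunLike.congr_fun (hS.comm k hk m hm) e
      rw [MulAut.mul_apply, MulAut.mul_apply] at c1 c2
      rw [c1, hle, map_mul, ← c2]
  have hin : k e * k (k e) * (k e * k (k e)) = 1 := by rw [← map_mul, ← map_mul, hee2, map_one]
  rw [hl e (k e) _ he hke hin, hr e _ _ he hke hkk, hr (k e) _ _ hke hke hkk, halt _ hke, one_mul, hl2,
    heq k hk e (k e) he hke] at h1
  have h2 : β e (k e) * β e (k (k e)) = β e (k e) := mul_right_cancel h1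
  rw [MulAut.mul_apply]
  exact mul_eq_left.1 h2

/-- the factorised form -/
theorem pairing_trivial {K : Subgroup (MulAut P)} (hS : Setup K) (X Y : Subgroup P) (ψ π : P → P)
    (T : P → P → P) (hKX : ∀ k ∈ K, ∀ g ∈ X, k g ∈ X) (hKY : ∀ k ∈ K, ∀ g ∈ Y, k g ∈ Y)
    (hψA : ∀ g ∈ X, ψ g * ψ g = 1) (hψm : ∀ g ∈ X, ∀ g' ∈ X, ψ (g * g') = ψ g * ψ g')
    (hψs : ∀ a : P, a * a = 1 → ∃ g ∈ X, ψ g = a) (hψe : ∀ k ∈ K, ∀ g ∈ X, ψ (k g) = k (ψ g))
    (hπA : ∀ g ∈ Y, π g * π g = 1) (hπm : ∀ g ∈ Y, ∀ g' ∈ Y, π (g * g') = π g * π g')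
    (hπs : ∀ a : P, a * a = 1 → ∃ g ∈ Y, π g = a) (hπe : ∀ k ∈ K, ∀ g ∈ Y, π (k g) = k (π g))
    (hT : ∀ g ∈ X, ∀ y ∈ Y, T g y * T g y = 1)
    (hTl : ∀ g ∈ X, ∀ g' ∈ X, ∀ y ∈ Y, T (g * g') y = T g y * T g' y)
    (hTr : ∀ g ∈ X, ∀ y ∈ Y, ∀ y' ∈ Y, T g (y * y') = T g y * T g y')
    (hTe : ∀ k ∈ K, ∀ g ∈ X, ∀ y ∈ Y, T (k g) (k y) = k (T g y))
    (hker₁ : ∀ g ∈ X, ∀ y ∈ Y, ψ g = 1 → T g y = 1) (hker₂ : ∀ g ∈ X, ∀ y ∈ Y, π y = 1 → T g y = 1)
    (hdiag : ∀ g ∈ X, ∃ y ∈ Y, π y = ψ g ∧ T g y = 1) : ∀ g ∈ X, ∀ y ∈ Y, T g y = 1 := by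
  classical
  choose! s hsX hsψ using hψs
  choose! t htY htπ using hπs
  have hψ1 : ψ 1 = 1 := by
    have h := hψm 1 X.one_mem 1 X.one_mem
    rw [one_mul] at h; exact mul_eq_left.1 h.symm
  have hπ1 : π 1 = 1 := by
    have h := hπm 1 Y.one_mem 1 Y.one_mem
    rw [one_mul] at h; exact mul_eq_left.1 h.symm
  have wd : ∀ g ∈ X, ∀ y ∈ Y, T g y = T (s (ψ g)) (t (π y)) := by
    intro g hg y hy
    have hg' := hsX _ (hψA g hg)
    have hy' := htY _ (hπA y hy)
    have e1 : ψ ((s (ψ g))⁻¹ * g) = 1 := by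
      have h := hψm (s (ψ g))⁻¹ (X.inv_mem hg') (s (ψ g)) hg'
      rw [inv_mul_cancel, hψ1, hsψ _ (hψA g hg)] at h
      rw [hψm _ (X.inv_mem hg') _ hg, ← h]
    have e2 : π ((t (π y))⁻¹ * y) = 1 := by
      have h := hπm (t (π y))⁻¹ (Y.inv_mem hy') (t (π y)) hy'
      rw [inv_mul_cancel, hπ1, htπ _ (hπA y hy)] at h
      rw [hπm _ (Y.inv_mem hy') _ hy, ← h]
    calc T g y = T (s (ψ g) * ((s (ψ g))⁻¹ * g)) y := by rw [mul_inv_cancel_left]
      _ = T (s (ψ g)) y := by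
          rw [hTl _ hg' _ (X.mul_mem (X.inv_mem hg') hg) _ hy, hker₁ _ (X.mul_mem (X.inv_mem hg') hg) _ hy e1, mul_one]
      _ = T (s (ψ g)) (t (π y) * ((t (π y))⁻¹ * y)) := by rw [mul_inv_cancel_left]
      _ = _ := by
          rw [hTr _ hg' _ hy' _ (Y.mul_mem (Y.inv_mem hy') hy), hker₂ _ hg' _ (Y.mul_mem (Y.inv_mem hy') hy) e2, mul_one]
  have key := alt_trivial hS (fun a b => T (s a) (t b)) (fun a b ha hb => hT _ (hsX a ha) _ (htY b hb))
    (fun a a' b ha ha' hb => by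
      rw [← hTl _ (hsX a ha) _ (hsX a' ha') _ (htY b hb), wd _ (X.mul_mem (hsX a ha) (hsX a' ha')) _ (htY b hb),
        hψm _ (hsX a ha) _ (hsX a' ha'), hsψ a ha, hsψ a' ha', htπ b hb])
    (fun a b b' ha hb hb' => by
      rw [← hTr _ (hsX a ha) _ (htY b hb) _ (htY b' hb'), wd _ (hsX a ha) _ (Y.mul_mem (htY b hb) (htY b' hb')),
        hπm _ (htY b hb) _ (htY b' hb'), hsψ a ha, htπ b hb, htπ b' hb'])
    (fun a ha => by
      obtain ⟨y, hy, hyπ, hy1⟩ := hdiag _ (hsX a ha)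
      rw [wd _ (hsX a ha) _ hy, hyπ, hsψ a ha] at hy1
      exact hy1)
    (fun k hk a b ha hb => by
      rw [← hTe k hk _ (hsX a ha) _ (htY b hb), wd _ (hKX k hk _ (hsX a ha)) _ (hKY k hk _ (htY b hb)),
        hψe k hk _ (hsX a ha), hπe k hk _ (htY b hb), hsψ a ha, htπ b hb])
  intro g hg y hy
  rw [wd g hg y hy]
  exact key _ _ (hψA g hg) (hπA y hy)

/-- the twisted commutator -/
def tau (g k : P) : P := g⁻¹ * k * g * k⁻¹

theorem tau_spec (g k : P) : g⁻¹ * k * g = tau g k * k := by unfold tau; group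

/-- the central elements of order dividing four exhaust the centre -/
theorem centre_sq [Finite P] (h2 : IsPGroup 2 P) (hna : ∃ x y : P, x * y ≠ y * x) {K : Subgroup (MulAut P)}
    (hS : Setup K) : ∀ z ∈ Subgroup.center P, z * z = 1 := by
  classical
  intro z₀ hz₀
  by_contra hz₀2
  -- a central element of order four
  obtain ⟨w₄, hw₄, hw₄1, hw₄2⟩ : ∃ w ∈ Subgroup.center P, w * w ≠ 1 ∧ (w * w) * (w * w) = 1 := by
    obtain ⟨d, hd⟩ := h2 z₀
    induction d generalizing z₀ with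
    | zero => rw [pow_zero, pow_one] at hd; exact absurd (by rw [hd, one_mul]) hz₀2
    | succ d ih =>
      by_cases h : (z₀ * z₀) * (z₀ * z₀) = 1
      · exact ⟨z₀, hz₀, hz₀2, h⟩
      · exact ih (z₀ * z₀) (mul_mem hz₀ hz₀) h (by rw [← pow_two, ← pow_mul, ← pow_succ']; exact hd)
  have four_central : ∀ x : P, x ^ 4 = 1 → ∀ y, x * y = y * x := by
    intro x hx y
    by_cases h : x * x = 1
    · exact hS.central x h y
    have hxx : (x * x) * (x * x) = 1 := by rw [← hx]; simp only [pow_succ, pow_zero, one_mul, mul_assoc]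
    obtain ⟨k, hk, hkx⟩ := hS.trans (w₄ * w₄) (x * x) hw₄1 hw₄2 h hxx
    have hw : k w₄ ∈ Subgroup.center P := by
      rw [Subgroup.mem_center_iff]; intro g
      obtain ⟨g', rfl⟩ := k.surjective g
      rw [← map_mul, ← map_mul, Subgroup.mem_center_iff.1 hw₄ g']
    have hcw : ∀ g, k w₄ * g = g * k w₄ := fun g => (Subgroup.mem_center_iff.1 hw g).symm
    have hinv : (x * (k w₄)⁻¹) * (x * (k w₄)⁻¹) = 1 := by
      calc (x * (k w₄)⁻¹) * (x * (k w₄)⁻¹) = x * ((k w₄)⁻¹ * x) * (k w₄)⁻¹ := by group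
        _ = x * (x * (k w₄)⁻¹) * (k w₄)⁻¹ := by rw [(Commute.inv_left (hcw x)).eq]
        _ = (x * x) * (k (w₄ * w₄))⁻¹ := by rw [map_mul]; group
        _ = 1 := by rw [hkx, mul_inv_cancel]
    calc x * y = (x * (k w₄)⁻¹) * (k w₄ * y) := by group
      _ = (x * (k w₄)⁻¹) * y * k w₄ := by rw [hcw]; group
      _ = y * (x * (k w₄)⁻¹) * k w₄ := by rw [hS.central _ hinv]
      _ = y * x := by group
  -- a maximal invariant abelian normal subgroup over the centre
  let Good : Subgroup P → Prop := fun B => B.Normal ∧ (∀ k ∈ K, ∀ x ∈ B, k x ∈ B) ∧ ∀ x ∈ B, ∀ y ∈ B, x * y = y * x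
  have hZ : Good (Subgroup.center P) := by
    refine ⟨inferInstance, fun k _ x hx => ?_, fun x hx y _ => (Subgroup.mem_center_iff.1 hx y).symm⟩
    rw [Subgroup.mem_center_iff]; intro g
    obtain ⟨g', rfl⟩ := k.surjective g
    rw [← map_mul, ← map_mul, Subgroup.mem_center_iff.1 hx g']
  obtain ⟨B, hZB, ⟨hBn, hBK, hBc⟩, hBmax⟩ := Finite.exists_le_maximal hZ
  haveI := hBn
  have hBP : B ≠ ⊤ := fun h => by
    obtain ⟨x, y, hxy⟩ := hna
    exact hxy (hBc x (h ▸ Subgroup.mem_top x) y (h ▸ Subgroup.mem_top y))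
  -- the exponent
  obtain ⟨e, he, k₀, hk₀B, hk₀⟩ : ∃ e, (∀ k ∈ B, k ^ 2 ^ (e + 2) = 1) ∧ ∃ k₀ ∈ B, k₀ ^ 2 ^ (e + 1) ≠ 1 := by
    obtain ⟨N, hN⟩ := IsPGroup.iff_card.1 h2
    have hex : ∃ d, ∀ k ∈ B, k ^ 2 ^ d = 1 := ⟨N, fun k _ => by rw [← hN]; exact pow_card_eq_one'⟩
    have hf := Nat.find_spec hex
    have h2le : 2 ≤ Nat.find hex := by
      by_contra h
      have h1 := hf w₄ (hZB hw₄)
      have : Nat.find hex = 0 ∨ Nat.find hex = 1 := by omega
      rcases this with h' | h' <;> rw [h'] at h1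
      · rw [pow_zero, pow_one] at h1; exact hw₄1 (by rw [h1, one_mul])
      · rw [pow_one, pow_two] at h1; exact hw₄1 h1
    refine ⟨Nat.find hex - 2, fun k hk => by rw [show Nat.find hex - 2 + 2 = Nat.find hex by omega]; exact hf k hk, ?_⟩
    have := Nat.find_min hex (show Nat.find hex - 2 + 1 < Nat.find hex by omega)
    push Not at this
    exact this
  have inv_of : ∀ k ∈ B, k ^ 2 ^ (e + 1) * k ^ 2 ^ (e + 1) = 1 := fun k hk => by
    rw [← pow_add, ← two_mul, ← pow_succ']; exact he k hk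
  have root : ∀ i, i ≤ e + 2 → ∀ x ∈ B, x ^ 2 ^ i = 1 → ∃ y ∈ B, y ^ 2 ^ (e + 2 - i) = x := by
    intro i
    induction i with
    | zero => intro _ x _ h; rw [pow_zero, pow_one] at h; exact ⟨1, B.one_mem, by rw [one_pow, h]⟩
    | succ i ih =>
      intro hi x hx h
      obtain ⟨y, hy, hyx⟩ := ih (by omega) (x ^ 2) (B.pow_mem hx 2) (by rw [← pow_mul, ← pow_succ']; exact h)
      have hy' : (y ^ 2 ^ (e + 1 - i)) ∈ B := B.pow_mem hy _
      let a := x * (y ^ 2 ^ (e + 1 - i))⁻¹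
      have ha : a * a = 1 := by
        have hc : Commute x (y ^ 2 ^ (e + 1 - i))⁻¹ := hBc _ hx _ (B.inv_mem hy')
        show x * _ * (x * _) = 1
        rw [← pow_two, hc.mul_pow, inv_pow, ← pow_mul, ← pow_succ,
          show e + 1 - i + 1 = e + 2 - i by omega, hyx, mul_inv_cancel]
      by_cases ha1 : a = 1
      · exact ⟨y, hy, by rw [show e + 2 - (i + 1) = e + 1 - i by omega]; exact (mul_inv_eq_one.1 ha1).symm⟩
      obtain ⟨k, hk, hka⟩ := hS.trans _ a hk₀ (inv_of k₀ hk₀B) ha1 ha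
      refine ⟨(k k₀) ^ 2 ^ i * y, B.mul_mem (B.pow_mem (hBK k hk _ hk₀B) _) hy, ?_⟩
      rw [(show Commute ((k k₀) ^ 2 ^ i) y from hBc _ (B.pow_mem (hBK k hk _ hk₀B) _) _ hy).mul_pow, ← pow_mul,
        ← pow_add, show i + (e + 2 - (i + 1)) = e + 1 by omega, ← map_pow, hka,
        show e + 2 - (i + 1) = e + 1 - i by omega]
      show x * _⁻¹ * _ = x
      rw [inv_mul_cancel_right]
  let π : P → P := fun k => k ^ 2 ^ (e + 1)
  have hπm : ∀ g ∈ B, ∀ g' ∈ B, π (g * g') = π g * π g' := fun g hg g' hg' =>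
    (show Commute g g' from hBc g hg g' hg').mul_pow _
  have hπA : ∀ g ∈ B, π g * π g = 1 := inv_of
  have hπs : ∀ a : P, a * a = 1 → ∃ g ∈ B, π g = a := by
    intro a ha
    have haB : a ∈ B := hZB (Subgroup.mem_center_iff.2 fun g => (hS.central a ha g).symm)
    obtain ⟨y, hy, h⟩ := root 1 (by omega) a haB (by rw [pow_one, pow_two]; exact ha)
    exact ⟨y, hy, h⟩
  have sq_of : ∀ g ∈ B, π g = 1 → ∃ y ∈ B, y ^ 2 = g := by
    intro g hg h
    obtain ⟨y, hy, h'⟩ := root (e + 1) (by omega) g hg h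
    exact ⟨y, hy, by rwa [show e + 2 - (e + 1) = 1 by omega, pow_one] at h'⟩
  have π_sq : ∀ g ∈ B, π (g ^ 2) = 1 := fun g hg => by
    show (g ^ 2) ^ 2 ^ (e + 1) = 1
    rw [← pow_mul, ← pow_succ']; exact he g hg
  -- conjugation
  have tauB : ∀ g : P, ∀ k ∈ B, tau g k ∈ B := fun g k hk => by
    refine B.mul_mem ?_ (B.inv_mem hk)
    simpa using hBn.conj_mem k hk g⁻¹
  have tau_mul : ∀ g : P, ∀ k ∈ B, ∀ l ∈ B, tau g (k * l) = tau g k * tau g l := fun g k hk l hl => by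
    have hm : g⁻¹ * l * g * l⁻¹ * k⁻¹ = k⁻¹ * (g⁻¹ * l * g * l⁻¹) := hBc _ (tauB g l hl) _ (B.inv_mem hk)
    calc tau g (k * l) = g⁻¹ * k * g * (g⁻¹ * l * g * l⁻¹ * k⁻¹) := by unfold tau; group
      _ = _ := by rw [hm]; unfold tau; group
  have tau_one : ∀ g : P, tau g (1 : P) = 1 := fun g => by unfold tau; group
  have tau_pow : ∀ g : P, ∀ k ∈ B, ∀ d : ℕ, tau g (k ^ d) = tau g k ^ d := fun g k hk d => by
    induction d with
    | zero => rw [pow_zero, pow_zero, tau_one]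
    | succ d ih => rw [pow_succ, tau_mul g _ (B.pow_mem hk d) _ hk, ih, pow_succ]
  have tau_central : ∀ g c : P, (∀ y, c * y = y * c) → tau g c = 1 := fun g c hc => by
    unfold tau
    rw [mul_assoc g⁻¹, hc g]; group
  have tau_four : ∀ g : P, ∀ k ∈ B, tau g k ^ 2 ^ e = 1 := fun g k hk => by
    rw [← tau_pow g k hk]
    exact tau_central g _ (four_central _ (by
      rw [← pow_mul, show (4 : ℕ) = 2 ^ 2 by norm_num, ← pow_add]; exact he k hk))
  have tau_fourth : ∀ g : P, ∀ k ∈ B, ∃ z ∈ B, z ^ 4 = tau g k := fun g k hk => by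
    obtain ⟨z, hz, h⟩ := root e (by omega) _ (tauB g k hk) (tau_four g k hk)
    exact ⟨z, hz, by rwa [show e + 2 - e = 2 by omega] at h⟩
  have π_fourth : ∀ g : P, ∀ k ∈ B, π (tau g k) = 1 := fun g k hk => by
    show tau g k ^ 2 ^ (e + 1) = 1
    rw [pow_succ, pow_mul, tau_four g k hk, one_pow]
  have phi_surj : ∀ g : P, ∀ d : ℕ, ∀ y ∈ B, ∀ i, i + d = e + 1 → ∃ k ∈ B, tau g k * k ^ 2 = y ^ 2 ^ (i + 1) := by
    intro g d
    induction d with
    | zero =>
      intro y hy i hi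
      exact ⟨1, B.one_mem, by rw [tau_one, one_mul, one_pow, show i + 1 = e + 2 by omega, he y hy]⟩
    | succ d ih =>
      intro y hy i hi
      obtain ⟨z, hz, hz4⟩ := tau_fourth g y hy
      obtain ⟨k', hk', hk'e⟩ := ih z hz (i + 1) (by omega)
      have hy' := B.pow_mem hy (2 ^ i)
      have h1 : tau g (y ^ 2 ^ i) = tau g k' * k' ^ 2 := by
        rw [hk'e, tau_pow g y hy, ← hz4, ← pow_mul, show (4 : ℕ) = 2 ^ 2 by norm_num, ← pow_add]
        congr 2; omega
      have hkm := B.inv_mem hk'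
      refine ⟨y ^ 2 ^ i * k'⁻¹, B.mul_mem hy' hkm, ?_⟩
      have h2 : tau g k'⁻¹ = (tau g k')⁻¹ := by
        refine eq_inv_of_mul_eq_one_left ?_
        rw [← tau_mul g _ hkm _ hk', inv_mul_cancel, tau_one]
      rw [tau_mul g _ hy' _ hkm, h2, (show Commute (y ^ 2 ^ i) k'⁻¹ from hBc _ hy' _ hkm).mul_pow, inv_pow,
        ← pow_mul, ← pow_succ]
      have hY := B.pow_mem hy (2 ^ (i + 1))
      have hA := tauB g _ hy'
      have hC := B.inv_mem (tauB g k' hk')
      calc tau g (y ^ 2 ^ i) * (tau g k')⁻¹ * (y ^ 2 ^ (i + 1) * (k' ^ 2)⁻¹)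
          = tau g (y ^ 2 ^ i) * ((tau g k')⁻¹ * y ^ 2 ^ (i + 1)) * (k' ^ 2)⁻¹ := by group
        _ = (tau g (y ^ 2 ^ i) * y ^ 2 ^ (i + 1)) * ((tau g k')⁻¹ * (k' ^ 2)⁻¹) := by rw [hBc _ hC _ hY]; group
        _ = (y ^ 2 ^ (i + 1) * tau g (y ^ 2 ^ i)) * ((tau g k')⁻¹ * (k' ^ 2)⁻¹) := by rw [hBc _ hA _ hY]
        _ = y ^ 2 ^ (i + 1) := by
            rw [h1, (show Commute (tau g k')⁻¹ (k' ^ 2)⁻¹ from hBc _ hC _ (B.inv_mem (B.pow_mem hk' 2))).eq]
            group
  -- the next layer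
  let T : Subgroup (P ⧸ B) :=
    { carrier := {x | x ∈ Subgroup.center (P ⧸ B) ∧ x * x = 1}
      one_mem' := ⟨one_mem _, one_mul 1⟩
      mul_mem' := fun {a b} ha hb => ⟨mul_mem ha.1 hb.1, by
        calc a * b * (a * b) = a * (b * a) * b := by group
          _ = a * (a * b) * b := by rw [Subgroup.mem_center_iff.1 ha.1 b]
          _ = (a * a) * (b * b) := by group
          _ = 1 := by rw [ha.2, hb.2, one_mul]⟩
      inv_mem' := fun {a} ha => ⟨inv_mem ha.1, by rw [← mul_inv_rev, ha.2, inv_one]⟩ }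
  let W := T.comap (QuotientGroup.mk' B)
  have hW : ∀ g, g ∈ W ↔ g * g ∈ B ∧ ∀ p, g⁻¹ * p⁻¹ * g * p ∈ B := by
    intro g
    show ((g : P ⧸ B) ∈ Subgroup.center (P ⧸ B) ∧ (g : P ⧸ B) * g = 1) ↔ _
    rw [← QuotientGroup.mk_mul, QuotientGroup.eq_one_iff, and_comm, Subgroup.mem_center_iff]
    refine and_congr_right fun _ => ⟨fun h p => ?_, fun h q => ?_⟩
    · have := h (p : P ⧸ B)
      rw [← QuotientGroup.mk_mul, ← QuotientGroup.mk_mul, QuotientGroup.eq] at this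
      simpa [mul_assoc] using this
    · obtain ⟨p, rfl⟩ := QuotientGroup.mk_surjective q
      rw [← QuotientGroup.mk_mul, ← QuotientGroup.mk_mul, QuotientGroup.eq]
      simpa [mul_assoc] using h p
  have hBW : B ≤ W := fun b hb => (hW b).2 ⟨B.mul_mem hb hb, fun p => by
    have := B.mul_mem (B.inv_mem hb) (hBn.conj_mem b hb p⁻¹)
    simpa [mul_assoc] using this⟩
  have hWK : ∀ k ∈ K, ∀ g ∈ W, k g ∈ W := by
    intro k hk g hg
    obtain ⟨h1, h2'⟩ := (hW g).1 hg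
    refine (hW _).2 ⟨by rw [← map_mul]; exact hBK k hk _ h1, fun p => ?_⟩
    obtain ⟨p', rfl⟩ := k.surjective p
    simp only [← map_inv, ← map_mul]
    exact hBK k hk _ (h2' p')
  have hWn : W.Normal := by
    haveI : T.Normal := ⟨fun a ha g => by
      rw [Subgroup.mem_center_iff.1 ha.1 g, mul_inv_cancel_right]; exact ha⟩
    exact Subgroup.Normal.comap inferInstance _
  obtain ⟨g₁, hg₁W, hg₁B⟩ : ∃ g ∈ W, g ∉ B := by
    haveI : Nontrivial (P ⧸ B) := by
      rw [← not_subsingleton_iff_nontrivial]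
      intro h
      exact hBP (eq_top_iff.2 fun x _ => (QuotientGroup.eq_one_iff x).1 (Subsingleton.elim _ _))
    haveI := (h2.to_quotient B).center_nontrivial
    obtain ⟨c, hc⟩ := IsPGroup.iff_card.1 ((h2.to_quotient B).to_subgroup (Subgroup.center (P ⧸ B)))
    have hdvd : 2 ∣ Nat.card (Subgroup.center (P ⧸ B)) := by
      rw [hc]
      refine dvd_pow_self 2 fun h => ?_
      rw [h, pow_zero] at hc
      exact absurd hc (ne_of_gt Finite.one_lt_card)
    obtain ⟨x, hx⟩ := exists_prime_orderOf_dvd_card' 2 hdvd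
    obtain ⟨g, hg⟩ := QuotientGroup.mk_surjective (x : P ⧸ B)
    refine ⟨g, ?_, fun h => ?_⟩
    · show (g : P ⧸ B) ∈ T
      rw [hg]
      refine ⟨x.2, ?_⟩
      have h' := pow_orderOf_eq_one x
      rw [hx, pow_two] at h'
      exact congrArg Subtype.val h'
    · have h1 : (x : P ⧸ B) = 1 := by rw [← hg]; exact (QuotientGroup.eq_one_iff g).2 h
      have : x = 1 := Subtype.ext h1
      rw [this, orderOf_one] at hx
      omega
  have commB : ∀ g ∈ W, ∀ h, g⁻¹ * h⁻¹ * g * h ∈ B := fun g hg h => ((hW g).1 hg).2 h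
  have tau_sq : ∀ g ∈ W, ∀ h, (g⁻¹ * h⁻¹ * g * h) ^ 2 * tau g (g⁻¹ * h⁻¹ * g * h) = tau h (g * g) := by
    intro g hg h
    have hc := commB g hg h
    have hcomm := hBc _ (B.mul_mem (B.pow_mem hc 2) (tauB g _ hc)) _ (((hW g).1 hg).1)
    have e1 : tau h (g * g) * (g * g) = (g * g) * ((g⁻¹ * h⁻¹ * g * h) ^ 2 * tau g (g⁻¹ * h⁻¹ * g * h)) := by
      rw [← tau_spec]
      have e2 := hBc _ hc _ (tauB g _ hc)
      calc h⁻¹ * (g * g) * h = (g * g) * (g⁻¹ * (g⁻¹ * h⁻¹ * g * h) * g * (g⁻¹ * h⁻¹ * g * h)) := by group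
        _ = (g * g) * (tau g (g⁻¹ * h⁻¹ * g * h) * (g⁻¹ * h⁻¹ * g * h) * (g⁻¹ * h⁻¹ * g * h)) := by rw [tau_spec]
        _ = _ := by
            rw [pow_two, mul_assoc (tau g _), hBc _ (tauB g _ hc) _ (B.mul_mem hc hc)]
    rw [← hcomm] at e1
    exact (mul_right_cancel e1).symm
  have π_comm : ∀ g ∈ W, ∀ h, π (g⁻¹ * h⁻¹ * g * h) = 1 := by
    intro g hg h
    have hc := commB g hg h
    have hsq := B.pow_mem hc 2
    have h1 : ((g⁻¹ * h⁻¹ * g * h) ^ 2) ^ 2 ^ e = 1 := by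
      have := congrArg (· ^ 2 ^ e) (tau_sq g hg h)
      rwa [(show Commute _ _ from hBc _ hsq _ (tauB g _ hc)).mul_pow, tau_four g _ hc, mul_one,
        tau_four h _ ((hW g).1 hg).1] at this
    show _ ^ 2 ^ (e + 1) = 1
    rw [pow_succ', pow_mul]; exact h1
  let ψ : P → P := fun g => π (g * g)
  have hψm : ∀ g ∈ W, ∀ g' ∈ W, ψ (g * g') = ψ g * ψ g' := by
    intro g hg g' hg'
    have b1 := ((hW g).1 hg).1
    have b2 := ((hW g').1 hg').1
    have hc := commB g' hg' g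
    have e1 : g * g' * (g * g') = g * g * (g' * g') * (g'⁻¹ * (g'⁻¹ * g⁻¹ * g' * g) * g') := by group
    show π _ = π _ * π _
    rw [e1, tau_spec, hπm _ (B.mul_mem b1 b2) _ (B.mul_mem (tauB g' _ hc) hc), hπm _ b1 _ b2,
      hπm _ (tauB g' _ hc) _ hc, π_fourth g' _ hc, π_comm g' hg' g, one_mul, mul_one]
  have hψker : ∀ g ∈ W, ψ g = 1 → g ∈ B := by
    intro g hg h
    have hb := ((hW g).1 hg).1
    obtain ⟨y, hy, hyg⟩ := sq_of _ hb h
    obtain ⟨k, hk, hke⟩ := phi_surj g (e + 1) y⁻¹ (B.inv_mem hy) 0 (by omega)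
    rw [zero_add, pow_one, inv_pow, hyg] at hke
    have hgk : g * k * (g * k) = 1 := by
      calc g * k * (g * k) = g * g * (g⁻¹ * k * g) * k := by group
        _ = g * g * (tau g k * k ^ 2) := by rw [tau_spec, pow_two]; group
        _ = 1 := by rw [hke, mul_inv_cancel]
    have : g * k ∈ B := hZB (Subgroup.mem_center_iff.2 fun z => (hS.central _ hgk z).symm)
    simpa using B.mul_mem this (B.inv_mem hk)
  have hψe : ∀ k ∈ K, ∀ g ∈ W, ψ (k g) = k (ψ g) := fun k _ g _ => by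
    show (k g * k g) ^ _ = k ((g * g) ^ _)
    rw [map_pow, map_mul]
  have hψA : ∀ g ∈ W, ψ g * ψ g = 1 := fun g hg => hπA _ ((hW g).1 hg).1
  have hψs : ∀ a : P, a * a = 1 → ∃ g ∈ W, ψ g = a := by
    intro a ha
    by_cases ha1 : a = 1
    · exact ⟨1, W.one_mem, by show ((1 : P) * 1) ^ _ = a; rw [one_mul, one_pow, ha1]⟩
    obtain ⟨k, hk, hka⟩ := hS.trans (ψ g₁) a (fun h => hg₁B (hψker g₁ hg₁W h)) (hψA g₁ hg₁W) ha1 ha
    exact ⟨k g₁, hWK k hk _ hg₁W, by rw [hψe k hk _ hg₁W, hka]⟩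
  have hπe : ∀ k ∈ K, ∀ g ∈ B, π (k g) = k (π g) := fun k _ g _ => (map_pow k g _).symm
  -- the layer centralises
  have hdesc : ∀ d i, i + d = e → ∀ g ∈ W, ∀ k ∈ B, tau g k ^ 2 ^ i = 1 := by
    intro d
    induction d with
    | zero => intro i hi g _ k hk; rw [show i = e by omega]; exact tau_four g k hk
    | succ d ih =>
      intro i hi
      have hnext := ih (i + 1) (by omega)
      refine pairing_trivial hS W B ψ π (fun g k => tau g k ^ 2 ^ i) hWK hBK hψA hψm hψs hψe hπA hπm hπs hπe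
        ?_ ?_ ?_ ?_ ?_ ?_ ?_
      · intro g hg k hk
        rw [← pow_add, ← two_mul, ← pow_succ']; exact hnext g hg k hk
      · intro g hg g' hg' k hk
        have h1 := tauB g k hk
        have h2 := tauB g' _ h1
        have e1 : tau (g * g') k = tau g' (tau g k) * tau g k * tau g' k := by unfold tau; group
        have hA : tau g' (tau g k) ^ 2 ^ i = 1 := by
          rw [← tau_pow g' _ h1]
          refine tau_central g' _ (hS.central _ ?_)
          rw [← pow_add, ← two_mul, ← pow_succ']; exact hnext g hg k hk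
        show tau (g * g') k ^ _ = _
        rw [e1, (show Commute _ _ from hBc _ (B.mul_mem h2 h1) _ (tauB g' k hk)).mul_pow,
          (show Commute _ _ from hBc _ h2 _ h1).mul_pow, hA, one_mul]
      · intro g _ k hk k' hk'
        show tau g (k * k') ^ _ = _
        rw [tau_mul g k hk k' hk']
        exact (show Commute _ _ from hBc _ (tauB g k hk) _ (tauB g k' hk')).mul_pow _
      · intro f _ g _ k _
        simp only [tau, map_mul, map_inv, map_pow]
      · intro g hg k hk h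
        have hgB := hψker g hg h
        show tau g k ^ _ = 1
        unfold tau
        rw [mul_assoc g⁻¹, hBc k hk g hgB, inv_mul_cancel_left, mul_inv_cancel, one_pow]
      · intro g hg k hk h
        obtain ⟨y, hy, rfl⟩ := sq_of k hk h
        show tau g (y ^ 2) ^ _ = 1
        rw [tau_pow g y hy, ← pow_mul, ← pow_succ']; exact hnext g hg y hy
      · intro g hg
        refine ⟨g * g, ((hW g).1 hg).1, rfl, ?_⟩
        show tau g (g * g) ^ _ = 1
        unfold tau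
        rw [show g⁻¹ * (g * g) * g * (g * g)⁻¹ = 1 by group, one_pow]
  have hcent : ∀ g ∈ W, ∀ k ∈ B, tau g k = 1 := fun g hg k hk => by
    have := hdesc e 0 (by omega) g hg k hk
    rwa [pow_zero, pow_one] at this
  have hcentc : ∀ g ∈ W, ∀ k ∈ B, g⁻¹ * k * g = k := fun g hg k hk => by
    rw [tau_spec, hcent g hg k hk, one_mul]
  -- and is abelian
  let c : P → P → P := fun g h => g⁻¹ * h⁻¹ * g * h
  have hWc : ∀ g ∈ W, ∀ h ∈ W, c g h = 1 := by
    refine pairing_trivial hS W W ψ ψ c hWK hWK hψA hψm hψs hψe hψA hψm hψs hψe ?_ ?_ ?_ ?_ ?_ ?_ ?_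
    · intro g hg h hh
      have hsq := tau_sq g hg h
      rw [hcent g hg _ (commB g hg h), mul_one, hcent h hh _ ((hW g).1 hg).1, pow_two] at hsq
      exact hsq
    · intro g hg g' hg' h hh
      calc c (g * g') h = (g'⁻¹ * c g h * g') * c g' h := by simp only [c]; group
        _ = _ := by rw [hcentc g' hg' _ (commB g hg h)]
    · intro g hg h hh h' hh'
      calc c g (h * h') = c g h' * (h'⁻¹ * c g h * h') := by simp only [c]; group
        _ = c g h' * c g h := by rw [hcentc h' hh' _ (commB g hg h)]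
        _ = _ := hBc _ (commB g hg h') _ (commB g hg h)
    · intro f _ g _ h _
      simp only [c, map_mul, map_inv]
    · intro g hg h hh h1
      show g⁻¹ * h⁻¹ * g * h = 1
      calc g⁻¹ * h⁻¹ * g * h = g⁻¹ * (h⁻¹ * g * h) := by group
        _ = 1 := by rw [hcentc h hh g (hψker g hg h1), inv_mul_cancel]
    · intro g hg h hh h1
      show g⁻¹ * h⁻¹ * g * h = 1
      rw [hcentc g hg _ (B.inv_mem (hψker h hh h1)), inv_mul_cancel]
    · intro g hg
      exact ⟨g, hg, rfl, by simp only [c]; group⟩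
  have hgood : Good W := ⟨hWn, hWK, fun g hg h hh => by
    calc g * h = h * g * c g h := by simp only [c]; group
      _ = h * g := by rw [hWc g hg h hh, mul_one]⟩
  exact hg₁B (hBmax hgood hBW hg₁W)

end CfsgLib.SuzukiTwoCentre
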