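import Cfsg.Agent.Lib.Signalizer

/-! The transitivity theorem for solvable signalizer functors (owner helper5). -/

set_option autoImplicit false
set_option linter.unusedSectionVars false
set_option linter.style.haveILetI false

namespace CfsgLib.Signalizer

open Cfsg CfsgLib.GroupB.Coprime CfsgLib.LocalBasic

universe u

variable {G : Type u} [Group G] [Finite G] {p : ℕ} [hp : Fact p.Prime] {A : Subgroup G} {θ : G → Subgroup G}

theorem isPGroup_of_elementary (hA : IsElementaryAbelian p A) : IsPGroup p ↥A := fun x =>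
  ⟨1, Subtype.ext (by simpa using hA.2 _ x.2)⟩

theorem elementary_of_le (hA : IsElementaryAbelian p A) {B : Subgroup G} (hB : B ≤ A) : IsElementaryAbelian p B :=
  ⟨⟨⟨fun x y => Subtype.ext (congrArg Subtype.val (hA.1.is_comm.comm ⟨x, hB x.2⟩ ⟨y, hB y.2⟩) :)⟩⟩,
    fun b hb => hA.2 b (hB hb)⟩

/-- Two distinct incomparable `q`-subgroups have intersection grown by a common centralizer. -/
theorem exists_common_growth (hA : IsElementaryAbelian p A) (hA3 : p ^ 3 ≤ Nat.card ↥A) {q : ℕ} [hq : Fact q.Prime]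
    (hqp : q ≠ p) {Q₁ Q₂ : Subgroup G} (h₁ : IsPGroup q ↥Q₁) (h₂ : IsPGroup q ↥Q₂)
    (hA₁ : A ≤ Subgroup.normalizer (Q₁ : Set G)) (hA₂ : A ≤ Subgroup.normalizer (Q₂ : Set G))
    (hD₁ : Q₁ ⊓ Q₂ ≠ Q₁) (hD₂ : Q₁ ⊓ Q₂ ≠ Q₂) :
    ∃ a ∈ A, a ≠ 1 ∧
      ¬ (Subgroup.normalizer ((Q₁ ⊓ Q₂ : Subgroup G) : Set G) ⊓ Q₁ ⊓ Subgroup.centralizer {a} ≤ Q₁ ⊓ Q₂) ∧
      ¬ (Subgroup.normalizer ((Q₁ ⊓ Q₂ : Subgroup G) : Set G) ⊓ Q₂ ⊓ Subgroup.centralizer {a} ≤ Q₁ ⊓ Q₂) := by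
  set D := Q₁ ⊓ Q₂ with hD
  have hAD : A ≤ Subgroup.normalizer (D : Set G) := normalizer_inf_ge hA₁ hA₂
  have key : ∀ Q : Subgroup G, IsPGroup q ↥Q → A ≤ Subgroup.normalizer (Q : Set G) → D ≤ Q → D ≠ Q →
      ∃ B : Subgroup G, B ≤ A ∧ B.relIndex A = p ∧
        ¬ (Subgroup.normalizer (D : Set G) ⊓ Q ⊓ Subgroup.centralizer (B : Set G) ≤ D) := by
    intro Q hQ hAQ hle hne
    by_contra hcon
    simp only [not_exists, not_and, not_not] at hcon
    set N := Subgroup.normalizer (D : Set G) ⊓ Q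
    have hAN : A ≤ Subgroup.normalizer (N : Set G) :=
      normalizer_inf_ge (fun a ha => Subgroup.le_normalizer (hAD ha)) hAQ
    have hNp : ¬ p ∣ Nat.card ↥N := by
      obtain ⟨k, hk⟩ := (hQ.to_le (inf_le_right : N ≤ Q)).exists_card_eq
      rw [hk]
      exact fun hd => hqp (((Nat.prime_dvd_prime_iff_eq hp.out hq.out).mp (hp.out.dvd_of_dvd_pow hd)).symm)
    have hA2 : p ^ 2 ≤ Nat.card ↥A := (Nat.pow_le_pow_right hp.out.pos (by norm_num)).trans hA3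
    have h := (le_iSup_hyperplane hA hA2 hNp hAN).trans (iSup_le fun B => hcon B.1 B.2.1 B.2.2)
    refine hne (eq_of_normalizer_inf_le hQ hle ?_)
    rwa [inf_comm]
  obtain ⟨B₁, hB₁, hi₁, hn₁⟩ := key Q₁ h₁ hA₁ inf_le_left hD₁
  obtain ⟨B₂, hB₂, hi₂, hn₂⟩ := key Q₂ h₂ hA₂ inf_le_right hD₂
  obtain ⟨a, ⟨ha1, ha2⟩, ha⟩ : ∃ a ∈ B₁ ⊓ B₂, a ≠ 1 := by
    by_contra h
    simp only [not_exists, not_and, not_not] at h
    have hbot : B₁ ⊓ B₂ = ⊥ := eq_bot_iff.mpr fun x hx => Subgroup.mem_bot.mpr (h x hx)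
    have h2 := Subgroup.relIndex_inf_le (H := B₁) (K := B₂) (L := A)
    rw [hbot, Subgroup.relIndex_bot_left, hi₁, hi₂] at h2
    have := hp.out.two_le
    nlinarith
  exact ⟨a, hB₁ ha1, ha, fun h => hn₁ ((inf_le_inf_left _ (Subgroup.centralizer_le (Set.singleton_subset_iff.mpr ha1))).trans h),
    fun h => hn₂ ((inf_le_inf_left _ (Subgroup.centralizer_le (Set.singleton_subset_iff.mpr ha2))).trans h)⟩

theorem signalizerInf_le_centralizer (hθ : IsSolvableSignalizerFunctor p A θ) {B : Subgroup G} (hB : B ≤ A) :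
    signalizerInf B θ ≤ Subgroup.centralizer (B : Set G) := fun c hc b hb => by
  by_cases h : b = 1
  · rw [h, one_mul, mul_one]
  · exact hθ.1.1 b (hB hb) h (Subgroup.mem_iInf.mp hc ⟨b, hb, h⟩) b rfl

theorem conj_mem_family (hθ : IsSolvableSignalizerFunctor p A θ) {U : Subgroup G} (hU : U ∈ signalizerFamily p A θ)
    {c : G} (hc : c ∈ signalizerInf A θ) : U.map (MulAut.conj c).toMonoidHom ∈ signalizerFamily p A θ := by
  have hcC := signalizerInf_le_centralizer hθ le_rfl hc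
  refine ⟨?_, ?_, ?_, ?_⟩
  · haveI := hU.1
    exact Group.isSolvable_of_isSolvable_injective
      (f := ((MulAut.conj c).subgroupMap U).symm.toMonoidHom) ((MulAut.conj c).subgroupMap U).symm.injective
  · rw [CfsgLib.GroupB.SchurZassenhaus.card_map_conj]; exact hU.2.1
  · rintro b hb _ ⟨u, hu, rfl⟩
    refine ⟨b * u * b⁻¹, hU.2.2.1 b hb u hu, ?_⟩
    show c * (b * u * b⁻¹) * c⁻¹ = b * (c * u * c⁻¹) * b⁻¹
    have h := hcC b hb
    calc c * (b * u * b⁻¹) * c⁻¹ = (c * b) * u * (c * b)⁻¹ := by group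
      _ = (b * c) * u * (b * c)⁻¹ := by rw [h]
      _ = _ := by group
  · rintro a ha ha1 _ ⟨⟨u, hu, rfl⟩, hua⟩
    have hcθ : c ∈ θ a := Subgroup.mem_iInf.mp hc ⟨a, ha, ha1⟩
    have hca : c ∈ Subgroup.centralizer ({a} : Set G) := hθ.1.1 a ha ha1 hcθ
    have hu' : u ∈ Subgroup.centralizer ({a} : Set G) := by
      have := Subgroup.mul_mem _ (Subgroup.mul_mem _ (Subgroup.inv_mem _ hca)
        (hua : c * u * c⁻¹ ∈ Subgroup.centralizer ({a} : Set G))) hca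
      simpa [mul_assoc] using this
    exact (θ a).mul_mem ((θ a).mul_mem hcθ (hU.2.2.2 a ha ha1 ⟨hu, hu'⟩)) ((θ a).inv_mem hcθ)

theorem conj_conj_inv (c : G) (U : Subgroup G) :
    (U.map (MulAut.conj c).toMonoidHom).map (MulAut.conj c⁻¹).toMonoidHom = U := by
  rw [Subgroup.map_map]
  conv_rhs => rw [← Subgroup.map_id U]
  congr 1
  ext x
  show c⁻¹ * (c * x * c⁻¹) * c⁻¹⁻¹ = x
  group

/-- `Q` is maximal among the `q`-subgroups in the family. -/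
def IsMax (p q : ℕ) (A : Subgroup G) (θ : G → Subgroup G) (Q : Subgroup G) : Prop :=
  Q ∈ signalizerFamily p A θ ∧ IsPGroup q ↥Q ∧
    ∀ R ∈ signalizerFamily p A θ, IsPGroup q ↥R → Q ≤ R → R = Q

theorem isMax_conj (hθ : IsSolvableSignalizerFunctor p A θ) {q : ℕ} {Q : Subgroup G} (hQ : IsMax p q A θ Q)
    {c : G} (hc : c ∈ signalizerInf A θ) : IsMax p q A θ (Q.map (MulAut.conj c).toMonoidHom) := by
  refine ⟨conj_mem_family hθ hQ.1 hc, hQ.2.1.map _, fun R hR hRq hle => ?_⟩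
  have h := hQ.2.2 _ (conj_mem_family hθ hR ((signalizerInf A θ).inv_mem hc)) (hRq.map _)
    (le_of_eq_of_le (conj_conj_inv c Q).symm (Subgroup.map_mono hle))
  have h2 := congrArg (Subgroup.map (MulAut.conj c⁻¹⁻¹).toMonoidHom) h
  rw [conj_conj_inv, inv_inv] at h2
  exact h2

theorem exists_max_ge {q : ℕ} {U : Subgroup G} (hU : U ∈ signalizerFamily p A θ) (hUq : IsPGroup q ↥U) :
    ∃ Q, IsMax p q A θ Q ∧ U ≤ Q := by
  obtain ⟨Q, hUQ, hQ⟩ := Finite.exists_le_maximal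
    (p := fun V : Subgroup G => V ∈ signalizerFamily p A θ ∧ IsPGroup q ↥V) ⟨hU, hUq⟩
  exact ⟨Q, ⟨hQ.1.1, hQ.1.2, fun R hR hRq hle => le_antisymm (hQ.2 ⟨hR, hRq⟩ hle) hle⟩, hUQ⟩

theorem member_inf_centralizer (hθ : IsSolvableSignalizerFunctor p A θ) {U : Subgroup G}
    (hU : U ∈ signalizerFamily p A θ) :
    U ⊓ Subgroup.centralizer (A : Set G) ≤ signalizerInf A θ := le_signalizerInf hU le_rfl

/-- The transitivity theorem: maximal `q`-members are conjugate under `θ(C(A))`. -/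
theorem transitivity (hA : IsElementaryAbelian p A) (hA3 : p ^ 3 ≤ Nat.card ↥A)
    (hθ : IsSolvableSignalizerFunctor p A θ) {q : ℕ} [hq : Fact q.Prime] (hqp : q ≠ p)
    {Q₁ Q₂ : Subgroup G} (h₁ : IsMax p q A θ Q₁) (h₂ : IsMax p q A θ Q₂) :
    ∃ c ∈ signalizerInf A θ, Q₁.map (MulAut.conj c).toMonoidHom = Q₂ := by
  suffices h : ∀ m, ∀ R₁ R₂ : Subgroup G, IsMax p q A θ R₁ → IsMax p q A θ R₂ →
      Nat.card G - Nat.card ↥(R₁ ⊓ R₂ : Subgroup G) = m →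
      ∃ c ∈ signalizerInf A θ, R₁.map (MulAut.conj c).toMonoidHom = R₂ from h _ Q₁ Q₂ h₁ h₂ rfl
  intro m
  induction m using Nat.strong_induction_on with
  | _ m ih =>
    intro R₁ R₂ hR₁ hR₂ hm
    by_cases e1 : R₁ ⊓ R₂ = R₁
    · exact ⟨1, one_mem _, by rw [map_one]; exact (Subgroup.map_id R₁).trans (hR₁.2.2 _ hR₂.1 hR₂.2.1 (inf_eq_left.mp e1)).symm⟩
    by_cases e2 : R₁ ⊓ R₂ = R₂
    · exact ⟨1, one_mem _, by rw [map_one]; exact (Subgroup.map_id R₁).trans (hR₂.2.2 _ hR₁.1 hR₁.2.1 (inf_eq_right.mp e2))⟩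
    have hA₁ := le_normalizer_of_mem hR₁.1.2.2.1
    have hA₂ := le_normalizer_of_mem hR₂.1.2.2.1
    obtain ⟨a, ha, ha1, hn₁, hn₂⟩ := exists_common_growth hA hA3 hqp hR₁.2.1 hR₂.2.1 hA₁ hA₂ e1 e2
    set D := R₁ ⊓ R₂ with hDdef
    have hAD : A ≤ Subgroup.normalizer (D : Set G) := normalizer_inf_ge hA₁ hA₂
    set H₀ := θ a ⊓ Subgroup.normalizer (D : Set G) with hH₀
    have hH₀F : H₀ ∈ signalizerFamily p A θ := mem_family_of_le (theta_mem_family hθ ha ha1) inf_le_left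
      (normalizer_inf_ge (le_normalizer_of_mem (hθ.1.2.2.1 a ha ha1)) fun b hb => Subgroup.le_normalizer (hAD hb))
    set H := D ⊔ H₀ with hH
    have hHF : H ∈ signalizerFamily p A θ :=
      sup_mem_family hA (mem_family_of_le hR₁.1 inf_le_left hAD) hH₀F inf_le_right
    have hAH := le_normalizer_of_mem hHF.2.2.1
    have hcop : (Nat.card ↥A).Coprime (Nat.card ↥H) := coprime_of_not_dvd (isPGroup_of_elementary hA) hHF.2.1
    have hgrow : ∀ R : Subgroup G, IsMax p q A θ R → D ≤ R →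
        ¬ (Subgroup.normalizer (D : Set G) ⊓ R ⊓ Subgroup.centralizer {a} ≤ D) →
        ∃ S : Subgroup G, IsSylowOf q S H ∧ A ≤ Subgroup.normalizer (S : Set G) ∧ D < S ⊓ R := by
      intro R hR hDR hn
      have hle : Subgroup.normalizer (D : Set G) ⊓ R ⊓ Subgroup.centralizer {a} ≤ H₀ := fun x hx =>
        ⟨hR.1.2.2.2 a ha ha1 ⟨hx.1.2, hx.2⟩, hx.1.1⟩
      obtain ⟨S, hS, hSy, hSA⟩ := exists_invariant_sylow_ge hAH hcop (Or.inl hHF.1) q
        (U := H ⊓ R) inf_le_left (hR.2.1.to_le inf_le_right) (normalizer_inf_ge hAH (le_normalizer_of_mem hR.1.2.2.1))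
      refine ⟨S, hSy, hSA, lt_of_lt_of_le (lt_of_le_not_ge (le_inf le_sup_left hDR) fun h => hn ?_)
        (le_inf hS inf_le_right)⟩
      exact (le_inf (hle.trans le_sup_right) (fun x hx => hx.1.2)).trans h
    obtain ⟨S₁, hS₁, hS₁A, hlt₁⟩ := hgrow R₁ hR₁ inf_le_left hn₁
    obtain ⟨S₂, hS₂, hS₂A, hlt₂⟩ := hgrow R₂ hR₂ inf_le_right hn₂
    obtain ⟨c, hc, hcS⟩ := (invariant_sylow hAH hcop (Or.inl hHF.1) q).2 S₁ S₂ hS₁ hS₁A hS₂ hS₂A
    obtain ⟨R₃, hR₃, hle₃⟩ := exists_max_ge (mem_family_of_le hHF hS₁.1 hS₁A) hS₁.isPGroup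
    have hcI : c ∈ signalizerInf A θ := member_inf_centralizer hθ hHF hc
    have hlt : ∀ R R' : Subgroup G, D < R ⊓ R' → Nat.card G - Nat.card ↥(R ⊓ R' : Subgroup G) < m := by
      intro R R' h
      rw [← hm]
      have h1 : Nat.card ↥D < Nat.card ↥(R ⊓ R' : Subgroup G) := lt_of_le_of_ne (Subgroup.card_le_of_le h.le)
        fun he => h.ne (Subgroup.eq_of_le_of_card_ge h.le he.ge)
      have h2 := Subgroup.card_le_card_group (R ⊓ R')
      omega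
    obtain ⟨c₁, hc₁, e₁⟩ := ih _ (hlt R₁ R₃ (lt_of_lt_of_le hlt₁ (le_inf inf_le_right (inf_le_left.trans hle₃))))
      R₁ R₃ hR₁ hR₃ rfl
    obtain ⟨c₂, hc₂, e₂⟩ := ih _ (hlt (R₃.map (MulAut.conj c).toMonoidHom) R₂ (lt_of_lt_of_le hlt₂
      (le_inf (inf_le_left.trans (hcS.ge.trans (Subgroup.map_mono hle₃))) inf_le_right)))
      _ R₂ (isMax_conj hθ hR₃ hcI) hR₂ rfl
    refine ⟨c₂ * c * c₁, mul_mem (mul_mem hc₂ hcI) hc₁, ?_⟩
    rw [map_mul, map_mul, ← e₂, ← e₁, Subgroup.map_map, Subgroup.map_map]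
    rfl

end CfsgLib.Signalizer
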