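import Cfsg.Prelude.Def_OddOrderLocal
import Cfsg.Agent.Lib.Core
import Cfsg.Agent.Lib.CNGroup

/-! Elementary facts on `fittingHall` and type-P data. (owner helper5) -/

set_option autoImplicit false

namespace CfsgLib.TypePBasic

variable {G : Type*} [Group G] [Finite G]

/-- `fittingHall` has order prime to its index. -/
theorem coprime_fittingHall (M : Type*) [Group M] [Finite M] :
    (Nat.card ↥(Cfsg.fittingHall M)).Coprime (Cfsg.fittingHall M).index := by
  refine Nat.coprime_of_dvd fun q hq h1 h2 => ?_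
  by_cases hall : ∀ N : Subgroup M, N.Normal → Group.IsNilpotent N → (Nat.card N).Coprime N.index → ¬ q ∣ Nat.card N
  · have hle : Cfsg.fittingHall M ≤ Cfsg.pPrimeCore q M := sSup_le fun N ⟨hn, hnil, hco⟩ =>
      CfsgLib.Core.le_pPrimeCore hn ((hq.coprime_iff_not_dvd.mpr (hall N hn hnil hco)).symm)
    exact hq.coprime_iff_not_dvd.mp ((CfsgLib.Core.card_pPrimeCore_coprime (G := M) q).symm)
      (h1.trans (Subgroup.card_dvd_of_le hle))
  · push Not at hall
    obtain ⟨N, hn, hnil, hco, hqN⟩ := hall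
    have hle : N ≤ Cfsg.fittingHall M := le_sSup ⟨hn, hnil, hco⟩
    exact hq.ne_one (Nat.eq_one_of_dvd_coprimes hco hqN (h2.trans (Subgroup.index_dvd_of_le hle)))

theorem fittingHallOf_le_fittingOf (M : Subgroup G) : Cfsg.fittingHallOf M ≤ Cfsg.fittingOf M :=
  Subgroup.map_mono (sSup_le fun _ h => CfsgLib.Core.le_fittingSubgroup h.1 h.2.1)

theorem isNilpotent_fittingOf (M : Subgroup G) : Group.IsNilpotent ↥(Cfsg.fittingOf M) := by
  haveI := CfsgLib.Core.isNilpotent_fittingSubgroup (G := ↥M)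
  exact Group.nilpotent_of_mulEquiv ((Cfsg.fittingSubgroup ↥M).equivMapOfInjective M.subtype M.subtype_injective)

theorem orderOf_coprime {M U : Subgroup G} (hU : U ≤ M) (hinf : Cfsg.fittingHallOf M ⊓ U = ⊥) {u h : G}
    (hu : u ∈ U) (hh : h ∈ Cfsg.fittingHallOf M) : (orderOf u).Coprime (orderOf h) := by
  obtain ⟨h', hh', rfl⟩ := hh
  set H := Cfsg.fittingHall ↥M
  refine Nat.coprime_of_dvd fun q hq h1 h2 => ?_
  have hqH : q ∣ Nat.card ↥H := h2.trans (by
    show orderOf (h' : G) ∣ _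
    rw [Subgroup.orderOf_coe]; exact Subgroup.orderOf_dvd_natCard H hh')
  -- the element of order q in U lies in H
  set w := (⟨u, hU hu⟩ : ↥M) ^ (orderOf u / q) with hwdef
  have hw : orderOf w = q := by
    rw [orderOf_pow_of_dvd (Nat.div_pos (Nat.le_of_dvd (orderOf_pos u) h1) hq.pos).ne'
      (by rw [Subgroup.orderOf_mk]; exact Nat.div_dvd_of_dvd h1), Subgroup.orderOf_mk,
      Nat.div_div_self h1 (orderOf_pos u).ne']
  have hwH : w ∈ H := by
    refine (QuotientGroup.eq_one_iff w).mp (orderOf_eq_one_iff.mp ?_)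
    refine Nat.eq_one_of_dvd_coprimes (coprime_fittingHall ↥M) ?_ (Subgroup.index_eq_card H ▸ orderOf_dvd_natCard _)
    exact ((orderOf_map_dvd (QuotientGroup.mk' H) w).trans (hw ▸ dvd_rfl)).trans hqH
  have hwU : (w : G) ∈ Cfsg.fittingHallOf M ⊓ U := ⟨⟨w, hwH, rfl⟩, by
    rw [hwdef, SubgroupClass.coe_pow]; exact pow_mem hu _⟩
  rw [hinf, Subgroup.mem_bot] at hwU
  have : w = 1 := Subtype.ext hwU
  rw [this, orderOf_one] at hw
  exact hq.one_lt.ne hw

theorem U_le {M W₁ U W₂ : Subgroup G} (hP : Cfsg.IsTypePWith M W₁ U W₂) : U ≤ M :=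
  hP.U_compl.2.1.trans (Subgroup.commutator_le.mpr fun a ha b hb => by
    rw [commutatorElement_def]; exact mul_mem (mul_mem (mul_mem ha hb) (inv_mem ha)) (inv_mem hb))

/-- The part of `U` inside the Fitting subgroup centralizes `M_F`. -/
theorem mem_centralizer_of_mem {M W₁ U W₂ : Subgroup G} (hP : Cfsg.IsTypePWith M W₁ U W₂) {u : G}
    (hu : u ∈ U) (huF : u ∈ Cfsg.fittingOf M) : u ∈ Subgroup.centralizer (Cfsg.fittingHallOf M : Set G) :=
  Subgroup.mem_centralizer_iff.mpr fun _ hh => (CfsgLib.CNGroup.commute_of_coprime (isNilpotent_fittingOf M) huF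
    (fittingHallOf_le_fittingOf M hh) (orderOf_coprime (U_le hP) hP.U_compl.2.2.1 hu hh)).symm

end CfsgLib.TypePBasic
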